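import Cfsg.Agent.Lib.H66.KrekEig

/-!
Lie rings with an automorphism `σ` of order dividing a prime `p` whose fixed points have exponent dividing `k`:
long products have exponent dividing `p ^ (r + 1) * k`.
-/

set_option autoImplicit false

open scoped TensorProduct
open Polynomial

namespace H66.AlpA

open H66.Kreknin H66.KrekEig

section span

variable {L : Type*} [LieRing L] {n : ℕ}

theorem foldl_mem' {M : ZMod n → AddSubgroup L} (l : List L) (hl : ∀ y ∈ l, y ∈ ⨆ i, M i) :
    ∀ (X : ZMod n → AddSubgroup L) (x : L), x ∈ ⨆ i, X i →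
      l.foldl (fun a b => ⁅a, b⁆) x ∈ ⨆ i, LC M X l.length i := by
  induction l with
  | nil => intro X x hx; exact hx
  | cons a l ih =>
    intro X x hx
    rw [List.foldl_cons, List.length_cons, LC_succ]
    apply ih (fun y hy => hl y (List.mem_cons_of_mem _ hy))
    exact lie_mem_iSup hx (hl a List.mem_cons_self)

theorem foldl_smul (m : ℕ) (l : List L) :
    ∀ (c : ℕ) (x : L), (l.map (fun y => m • y)).foldl (fun a b => ⁅a, b⁆) (c • x) =
      (m ^ l.length * c) • l.foldl (fun a b => ⁅a, b⁆) x := by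
  induction l with
  | nil => intro c x; simp
  | cons a l ih =>
    intro c x
    rw [List.map_cons, List.foldl_cons, List.foldl_cons, List.length_cons, nsmul_lie, lie_nsmul, smul_smul, ih]
    congr 1
    ring

end span

universe u

attribute [-instance] LieAlgebra.ExtendScalars.instBracketTensorProduct

/-- torsion version of `H66.KrekEig.transfer`. -/
theorem transfer_tors {p : ℕ} [Fact p.Prime] (r : ℕ)
    (hr : ∀ (L : Type u) [LieRing L] (M : ZMod p → AddSubgroup L), GR M → ∀ i, LC M M r i = ⊥)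
    {L : Type u} [LieRing L] (σ : L →+ L) (hlie : ∀ x y, σ ⁅x, y⁆ = ⁅σ x, σ y⁆)
    (hσ : ∀ x, (σ^[p]) x = x) (k : ℕ) (hk : ∀ x, σ x = x → k • x = 0)
    (x : L) (l : List L) (hl : l.length = r) :
    (k * p ^ (r + 1)) • l.foldl (fun a b => ⁅a, b⁆) x = 0 := by
  have hp : p.Prime := Fact.out
  obtain ⟨A, _, _, w, hw, hws⟩ := exists_ring p
  set Tℤ : L →ₗ[ℤ] L := σ.toIntLinearMap with hTℤ
  set T : A ⊗[ℤ] L →ₗ[A] A ⊗[ℤ] L := Tℤ.baseChange A with hT
  have hTt : ∀ (a : A) (x : L), T (a ⊗ₜ x) = a ⊗ₜ σ x := fun a x => rfl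
  have hTpt : ∀ (j : ℕ) (a : A) (x : L), (T ^ j) (a ⊗ₜ x) = a ⊗ₜ ((σ^[j]) x) := by
    intro j
    induction j with
    | zero => intro a x; rfl
    | succ j ih =>
      intro a x
      rw [pow_succ, Module.End.mul_apply, hTt, ih, Function.iterate_succ_apply]
  have hbr : ∀ (a b : A) (x y : L), (⁅a ⊗ₜ[ℤ] x, b ⊗ₜ[ℤ] y⁆ : A ⊗[ℤ] L) = (a * b) ⊗ₜ[ℤ] ⁅x, y⁆ :=
    fun _ _ _ _ => rfl
  have hls : ∀ (a : A) (z v : A ⊗[ℤ] L), ⁅z, a • v⁆ = a • ⁅z, v⁆ := fun a z v => LieAlgebra.lie_smul a z v
  have hsl : ∀ (a : A) (z v : A ⊗[ℤ] L), ⁅a • z, v⁆ = a • ⁅z, v⁆ := by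
    intro a z v
    rw [← lie_skew, hls, ← lie_skew v z, smul_neg, neg_neg]
  have hTp : T ^ p = 1 := by
    ext x
    have : (T ^ p) ((1 : A) ⊗ₜ x) = (1 : A) ⊗ₜ x := by
      rw [hTpt, hσ]
    simpa using this
  -- bracket
  have hTl : ∀ z v : A ⊗[ℤ] L, T ⁅z, v⁆ = ⁅T z, T v⁆ := by
    intro z v
    induction z using TensorProduct.induction_on with
    | zero => rw [zero_lie, map_zero, zero_lie]
    | add z1 z2 h1 h2 => rw [add_lie, map_add, map_add, add_lie, h1, h2]
    | tmul a x =>
      induction v using TensorProduct.induction_on with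
      | zero => rw [lie_zero, map_zero, lie_zero]
      | add z1 z2 h1 h2 => rw [lie_add, map_add, map_add, lie_add, h1, h2]
      | tmul b y =>
        rw [hTt, hTt, hbr, hbr, hTt, hlie]
  -- fixed points of T
  have hfix : ∀ z : A ⊗[ℤ] L, T z = z → k • z = 0 := by
    intro z hz
    set D : L →ₗ[ℤ] L := Tℤ - LinearMap.id with hD
    have hex : Function.Exact (LinearMap.ker D).subtype D := LinearMap.exact_subtype_ker_map D
    have hex2 := Module.Flat.lTensor_exact A hex
    have h1 : (LinearMap.lTensor A D) z = 0 := by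
      have h2 : LinearMap.lTensor A D = LinearMap.lTensor A Tℤ - LinearMap.lTensor A LinearMap.id := by
        rw [hD, LinearMap.lTensor_sub]
      rw [h2, LinearMap.sub_apply, LinearMap.lTensor_id, LinearMap.id_apply]
      have h3 : (LinearMap.lTensor A Tℤ) z = T z := rfl
      rw [h3, hz, sub_self]
    obtain ⟨y, hy⟩ := (hex2 z).mp h1
    rw [← hy, ← map_nsmul]
    have h4 : k • y = 0 := by
      clear hy h1
      induction y using TensorProduct.induction_on with
      | zero => rw [smul_zero]
      | add z1 z2 h1 h2 => rw [smul_add, h1, h2, add_zero]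
      | tmul a x =>
        rw [← TensorProduct.tmul_smul]
        have h5 : k • x = 0 := by
          apply Subtype.ext
          change k • (x : L) = 0
          apply hk
          have h6 : D (x : L) = 0 := x.2
          have h7 : σ (x : L) - x = 0 := h6
          exact sub_eq_zero.mp h7
        rw [h5, TensorProduct.tmul_zero]
    rw [h4, map_zero]
  -- the ideal
  let J : LieIdeal A (A ⊗[ℤ] L) :=
    { carrier := {z | k • z = 0}
      zero_mem' := smul_zero _
      add_mem' := by
        intro a b ha hb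
        change k • (a + b) = 0
        rw [smul_add]
        have ha' : k • a = 0 := ha
        have hb' : k • b = 0 := hb
        rw [ha', hb', add_zero]
      smul_mem' := by
        intro c a ha
        change k • (c • a) = 0
        have ha' : k • a = 0 := ha
        rw [smul_comm, ha', smul_zero]
      lie_mem := by
        intro y a ha
        change k • ⁅y, a⁆ = 0
        have ha' : k • a = 0 := ha
        rw [← lie_nsmul, ha', lie_zero] }
  have hJ : ∀ z, z ∈ J ↔ k • z = 0 := fun z => Iff.rfl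
  let q : A ⊗[ℤ] L →+ (A ⊗[ℤ] L) ⧸ J := (LieSubmodule.Quotient.mk' J : A ⊗[ℤ] L →ₗ⁅A, A ⊗[ℤ] L⁆ _).toLinearMap.toAddMonoidHom
  have hq0 : ∀ z, q z = 0 ↔ k • z = 0 := by
    intro z
    rw [← hJ]
    exact LieSubmodule.Quotient.mk_eq_zero J
  have hql : ∀ z v, q ⁅z, v⁆ = ⁅q z, q v⁆ := fun z v => LieSubmodule.Quotient.mk_bracket J z v
  -- graded pieces
  let M : ZMod p → AddSubgroup (A ⊗[ℤ] L) := fun i =>
    { carrier := {z | T z = w ^ i.val • z}
      zero_mem' := by simp
      add_mem' := by
        intro a b ha hb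
        change T (a + b) = _
        rw [map_add, smul_add]
        exact congrArg₂ _ ha hb
      neg_mem' := by
        intro a ha
        change T (-a) = _
        rw [map_neg, smul_neg]
        exact congrArg _ ha }
  have hMmem : ∀ i z, z ∈ M i ↔ T z = w ^ i.val • z := fun i z => Iff.rfl
  let M' : ZMod p → AddSubgroup ((A ⊗[ℤ] L) ⧸ J) := fun i => (M i).map q
  have hM : GR M' := by
    constructor
    · rw [eq_bot_iff]
      rintro _ ⟨z, hz, rfl⟩
      have hz' : T z = w ^ (0 : ZMod p).val • z := hz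
      rw [ZMod.val_zero, pow_zero, one_smul] at hz'
      rw [AddSubgroup.mem_bot, hq0]
      exact hfix z hz'
    · rintro i j _ _ ⟨z, hz, rfl⟩ ⟨v, hv, rfl⟩
      refine ⟨⁅z, v⁆, ?_, hql z v⟩
      have hz' : T z = w ^ i.val • z := hz
      have hv' : T v = w ^ j.val • v := hv
      change T ⁅z, v⁆ = w ^ (i + j).val • ⁅z, v⁆
      rw [hTl, hz', hv', pow_val_add hw, hsl, hls, smul_smul]
  -- decomposition
  have hpz : ∀ z : A ⊗[ℤ] L, p • q z ∈ ⨆ i, M' i := by
    intro z
    have hwT : ∀ i : ZMod p, ∀ z, ∑ j : ZMod p, w ^ (-i * j).val • (T ^ j.val) z ∈ M i := by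
      intro i z
      rw [hMmem]
      have hT1 : T = T ^ (1 : ZMod p).val := by
        rw [ZMod.val_one'' hp.one_lt.ne', pow_one]
      rw [map_sum]
      have h1 : ∀ j : ZMod p, T (w ^ (-i * j).val • (T ^ j.val) z) =
          w ^ i.val • (w ^ (-i * (1 + j)).val • (T ^ (1 + j).val) z) := by
        intro j
        rw [map_smul, smul_smul]
        congr 1
        · rw [← pow_val_add hw]
          congr 2; ring
        · rw [pow_val_add hTp, ← hT1]; rfl
      have h2 := Equiv.sum_comp (Equiv.addLeft (1 : ZMod p)) (fun j => w ^ (-i * j).val • (T ^ j.val) z)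
      simp only [Equiv.coe_addLeft] at h2
      rw [Finset.sum_congr rfl (fun j _ => h1 j), ← Finset.smul_sum, h2]
    have hz : p • z = ∑ i : ZMod p, ∑ j : ZMod p, w ^ (-i * j).val • (T ^ j.val) z := by
      rw [Finset.sum_comm]
      have h1 : ∀ j : ZMod p, (∑ i : ZMod p, w ^ (-i * j).val • (T ^ j.val) z) =
          if j = 0 then p • z else 0 := by
        intro j
        rw [← Finset.sum_smul]
        split_ifs with hj
        · rw [hj]
          simp [ZMod.card, Nat.cast_smul_eq_nsmul]
        · have h2 : ∑ i : ZMod p, w ^ (-i * j).val = ∑ i : ZMod p, w ^ i.val := by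
            have hbij : Function.Bijective (fun i : ZMod p => -i * j) := by
              rw [← Finite.injective_iff_bijective]
              intro a b hab
              have := mul_right_cancel₀ hj hab
              exact neg_injective this
            exact Fintype.sum_bijective _ hbij _ _ (fun i => rfl)
          rw [h2, sum_val (fun i => w ^ i), hws, zero_smul]
      rw [Finset.sum_congr rfl (fun j _ => h1 j), Finset.sum_ite_eq' Finset.univ (0 : ZMod p)]
      simp only [Finset.mem_univ, if_true]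
    rw [← map_nsmul, hz, map_sum]
    apply sum_mem
    intro i _
    exact AddSubgroup.mem_iSup_of_mem i ⟨_, hwT i z, rfl⟩
  have h1 := hr ((A ⊗[ℤ] L) ⧸ J) M' hM
  have hinj : Function.Injective (TensorProduct.mk ℤ A L 1) :=
    Module.FaithfullyFlat.tensorProduct_mk_injective L
  have hfold : ∀ (l : List L) (x : L), q ((1 : A) ⊗ₜ[ℤ] (l.foldl (fun a b => ⁅a, b⁆) x)) =
      (l.map (fun y => q ((1 : A) ⊗ₜ[ℤ] y))).foldl (fun a b => ⁅a, b⁆) (q ((1 : A) ⊗ₜ[ℤ] x)) := by
    intro l
    induction l with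
    | nil => intro x; rfl
    | cons a l ih =>
      intro x
      rw [List.foldl_cons, ih, List.map_cons, List.foldl_cons, ← hql, hbr, mul_one]
  have h2 := foldl_mem' (M := M') ((l.map (fun y => q ((1 : A) ⊗ₜ[ℤ] y))).map (fun y => p • y)) (by
    intro y hy
    rw [List.map_map, List.mem_map] at hy
    obtain ⟨z, _, rfl⟩ := hy
    exact hpz _) M' (p • q ((1 : A) ⊗ₜ[ℤ] x)) (hpz _)
  rw [foldl_smul, ← hfold, List.length_map, List.length_map, hl, ← pow_succ] at h2
  simp only [h1, iSup_const, AddSubgroup.mem_bot] at h2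
  rw [← map_nsmul, hq0, smul_smul] at h2
  apply hinj
  rw [map_zero, TensorProduct.mk_apply, TensorProduct.tmul_smul]
  exact h2

end H66.AlpA
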