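import Cfsg.Agent.Lib.H66.AlpA
import Cfsg.Agent.Lib.H66.HKK

/-!
Powers in the lower central factors of a group with an automorphism `α` of order dividing a prime `p` whose
fixed points on the factors have exponent dividing `k`.
-/

set_option autoImplicit false

open scoped commutatorElement
open H66.Kreknin H66.GrLie

namespace H66.AlpB

section comp

variable {G : Type*} [Group G] {F : ℕ → Subgroup G} (hF : Filt F) (φ : G →* G) (hφ : ∀ i, ∀ x ∈ F i, φ x ∈ F i)

theorem mapL_apply (z : L hF) (i : ℕ) : (mapL hF φ hφ z) i = mapA hF φ hφ i (z i) := by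
  induction z using DirectSum.induction_on with
  | zero => rw [map_zero, DirectSum.zero_apply, map_zero]
  | of j a =>
    have h1 : mapL hF φ hφ (DirectSum.of (fun i => A hF i) j a) = DirectSum.of (fun i => A hF i) j (mapA hF φ hφ j a) := by
      unfold mapL ι
      rw [DirectSum.toAddMonoid_of]
      rfl
    rw [h1]
    by_cases hij : j = i
    · subst hij
      rw [DirectSum.of_eq_same, DirectSum.of_eq_same]
    · rw [DirectSum.of_eq_of_ne _ _ _ (Ne.symm hij), DirectSum.of_eq_of_ne _ _ _ (Ne.symm hij), map_zero]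
  | add x y h1 h2 => rw [map_add, DirectSum.add_apply, DirectSum.add_apply, map_add, h1, h2]

theorem mapA_cl (i : ℕ) (x : F i) : mapA hF φ hφ i (Additive.ofMul (cl hF i x)) =
    Additive.ofMul (cl hF i ⟨φ x, hφ i x x.2⟩) := rfl

theorem fixed_smul (k : ℕ) (hk : ∀ i, ∀ x ∈ F i, x⁻¹ * φ x ∈ F (i + 1) → x ^ k ∈ F (i + 1))
    (z : L hF) (hz : mapL hF φ hφ z = z) : k • z = 0 := by
  apply DFinsupp.ext
  intro i
  have h1 : mapA hF φ hφ i (z i) = z i := by
    rw [← mapL_apply hF φ hφ, hz]
  obtain ⟨x, hx⟩ := cl_surjective hF i (z i).toMul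
  have h2 : z i = Additive.ofMul (cl hF i x) := by rw [hx]; rfl
  rw [h2, mapA_cl] at h1
  have h3 : cl hF i x = cl hF i ⟨φ x, hφ i x x.2⟩ := (Additive.ofMul.injective h1).symm
  rw [cl_eq_iff] at h3
  have h4 := hk i x x.2 h3
  have h5 : cl hF i (x ^ k) = 1 := by
    rw [cl_eq_one_iff]; exact h4
  change k • (z i) = 0
  rw [h2]
  have h6 : ∀ n : ℕ, cl hF i (x ^ n) = (cl hF i x) ^ n := by
    intro n
    induction n with
    | zero => rfl
    | succ n ih => rw [pow_succ, pow_succ, cl_mul, ih]
  rw [← ofMul_pow, ← h6, h5]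
  rfl

end comp

universe u

theorem lcs_pow {G : Type u} [Group G] {p : ℕ} [Fact p.Prime] (α : MulAut G)
    (hα : α ^ p = 1) (k : ℕ)
    (hk : ∀ i, ∀ x ∈ (⊤ : Subgroup G).lowerCentralSeries i,
      x⁻¹ * α x ∈ (⊤ : Subgroup G).lowerCentralSeries (i + 1) → x ^ k ∈ (⊤ : Subgroup G).lowerCentralSeries (i + 1))
    (r : ℕ)
    (hr : ∀ (L : Type u) [LieRing L] (M : ZMod p → AddSubgroup L), GR M → ∀ i, LC M M r i = ⊥) :
    ∀ x ∈ (⊤ : Subgroup G).lowerCentralSeries r,
      x ^ (k * p ^ (r + 1)) ∈ (⊤ : Subgroup G).lowerCentralSeries (r + 1) := by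
  classical
  have hp : p.Prime := Fact.out
  set F : ℕ → Subgroup G := fun i => (⊤ : Subgroup G).lowerCentralSeries (i - 1) with hFdef
  have hF : Filt F := H66.HKK.filt_lcs
  have hφ : ∀ i, ∀ x ∈ F i, α.toMonoidHom x ∈ F i := by
    intro i x hx
    exact H66.Fpf.apply_mem α (H66.Fpf.map_char α _) hx
  -- the automorphism of L
  set σ := mapL hF α.toMonoidHom hφ with hσ
  have hσe : ∀ j i, ∀ x ∈ F i, (σ^[j]) (e hF i x) = e hF i ((α ^ j) x) ∧ (α ^ j) x ∈ F i := by
    intro j
    induction j with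
    | zero => intro i x hx; exact ⟨rfl, hx⟩
    | succ j ih =>
      intro i x hx
      obtain ⟨h1, h2⟩ := ih i x hx
      rw [Function.iterate_succ_apply', h1]
      have h3 : (α ^ (j + 1)) x = α ((α ^ j) x) := by rw [pow_succ']; rfl
      rw [h3]
      exact ⟨mapL_e hF α.toMonoidHom hφ i h2, hφ i _ h2⟩
  have hσp : ∀ z, (σ^[p]) z = z := by
    intro z
    refine L_induction hF z ?_ ?_ ?_
    · exact iterate_map_zero σ p
    · intro i x hx
      rw [(hσe p i x hx).1, hα]; rfl
    · intro z w h1 h2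
      rw [iterate_map_add, h1, h2]
  have hfix : ∀ z, σ z = z → k • z = 0 := by
    intro z hz
    apply fixed_smul hF α.toMonoidHom hφ k _ z hz
    intro i x hx h
    rcases Nat.eq_zero_or_pos i with hi | hi
    · subst hi
      change _ ∈ (⊤ : Subgroup G).lowerCentralSeries 0
      rw [Subgroup.lowerCentralSeries_zero]
      trivial
    · obtain ⟨j, rfl⟩ : ∃ j, i = j + 1 := ⟨i - 1, by omega⟩
      exact hk j x hx h
  have htrans := H66.AlpA.transfer_tors r hr σ (mapL_lie hF α.toMonoidHom hφ) hσp k hfix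
  -- elements of the lower central series
  have hspan : ∀ s, ∀ x ∈ (⊤ : Subgroup G).lowerCentralSeries s,
      e hF (s + 1) x ∈ AddSubgroup.closure {z : L hF | ∃ (a : L hF) (l : List (L hF)), l.length = s ∧
        z = l.foldl (fun a b => ⁅a, b⁆) a} := by
    intro s
    induction s with
    | zero =>
      intro x _
      exact AddSubgroup.subset_closure ⟨e hF 1 x, [], rfl, rfl⟩
    | succ s ih =>
      intro x hx
      rw [Subgroup.mem_lowerCentralSeries_succ_iff] at hx
      have hsub : ∀ y ∈ {x | ∃ p ∈ (⊤ : Subgroup G).lowerCentralSeries s, ∃ q ∈ (⊤ : Subgroup G), ⁅p, q⁆ = x},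
          y ∈ (⊤ : Subgroup G).lowerCentralSeries (s + 1) := by
        rintro y ⟨a, ha, b, hb, rfl⟩
        exact Subgroup.commutator_mem_commutator ha hb
      have hmem : ∀ y, y ∈ Subgroup.closure {x | ∃ p ∈ (⊤ : Subgroup G).lowerCentralSeries s,
          ∃ q ∈ (⊤ : Subgroup G), ⁅p, q⁆ = x} → y ∈ F (s + 1 + 1) := by
        intro y hy
        exact hy
      induction hx using Subgroup.closure_induction with
      | mem y hy =>
        obtain ⟨a, ha, b, _, rfl⟩ := hy
        have h1 : e hF (s + 1 + 1) ⁅a, b⁆ = ⁅e hF (s + 1) a, e hF 1 b⁆ := by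
          rw [e_lie hF (s + 1) 1 (show a ∈ F (s + 1) from ha) (by rw [hF.one]; trivial)]
        rw [h1]
        have h2 := ih a ha
        generalize e hF (s + 1) a = w0 at h2 ⊢
        induction h2 using AddSubgroup.closure_induction with
        | mem z hz =>
          obtain ⟨c, l, hl, rfl⟩ := hz
          apply AddSubgroup.subset_closure
          refine ⟨c, l ++ [e hF 1 b], by simp [hl], ?_⟩
          rw [List.foldl_append]; rfl
        | zero => rw [zero_lie]; exact zero_mem _
        | add z w _ _ h3 h4 => rw [add_lie]; exact add_mem h3 h4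
        | neg z _ h3 => rw [neg_lie]; exact neg_mem h3
      | one => rw [e_one]; exact zero_mem _
      | mul y z hy hz h1 h2 =>
        rw [e_mul hF _ (hmem y hy) (hmem z hz)]; exact add_mem h1 h2
      | inv y hy h1 =>
        rw [e_inv hF _ (hmem y hy)]; exact neg_mem h1
  intro x hx
  have h1 := hspan r x hx
  have h2 : ∀ z ∈ AddSubgroup.closure {z : L hF | ∃ (a : L hF) (l : List (L hF)), l.length = r ∧
        z = l.foldl (fun a b => ⁅a, b⁆) a}, (k * p ^ (r + 1)) • z = 0 := by
    intro z hz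
    induction hz using AddSubgroup.closure_induction with
    | mem z hz =>
      obtain ⟨a, l, hl, rfl⟩ := hz
      exact htrans a l hl
    | zero => exact smul_zero _
    | add a b _ _ h1 h2 => rw [smul_add, h1, h2, add_zero]
    | neg a _ h1 => rw [smul_neg, h1, neg_zero]
  have h3 := h2 _ h1
  have hxF : x ∈ F (r + 1) := hx
  have h4 : ∀ n : ℕ, e hF (r + 1) (x ^ n) = n • e hF (r + 1) x := by
    intro n
    induction n with
    | zero => rw [pow_zero, e_one, zero_smul]
    | succ n ih => rw [pow_succ, e_mul hF _ (pow_mem hxF n) hxF, ih, succ_nsmul]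
  rw [← h4, e_eq_zero_iff hF (r + 1) (pow_mem hxF _)] at h3
  exact h3

end H66.AlpB
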