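import Mathlib
import Cfsg.Agent.S3780

/-!
Counting fixed points of automorphisms in quotients (no coprimeness hypotheses).
-/

set_option autoImplicit false

open scoped commutatorElement

namespace H66.AlpC

variable {G : Type*} [Group G]

/-- the elements `x` of `A` with `x⁻¹ α(x) ∈ B`. -/
def SS (α : MulAut G) (A B : Subgroup G) (hAB : A ≤ Subgroup.normalizer (B : Set G)) : Subgroup G where
  carrier := {x | x ∈ A ∧ x⁻¹ * α x ∈ B}
  one_mem' := ⟨one_mem _, by rw [map_one, inv_one, one_mul]; exact one_mem _⟩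
  mul_mem' := by
    rintro x y ⟨hx, hx'⟩ ⟨hy, hy'⟩
    refine ⟨mul_mem hx hy, ?_⟩
    have e : (x * y)⁻¹ * α (x * y) = (y⁻¹ * (x⁻¹ * α x) * y⁻¹⁻¹) * (y⁻¹ * α y) := by
      rw [map_mul]; group
    rw [e]
    exact mul_mem ((Subgroup.mem_normalizer_iff.mp (inv_mem (hAB hy)) _).mp hx') hy'
  inv_mem' := by
    rintro x ⟨hx, hx'⟩
    refine ⟨inv_mem hx, ?_⟩
    have e : x⁻¹⁻¹ * α x⁻¹ = x * (x⁻¹ * α x)⁻¹ * x⁻¹ := by
      rw [map_inv]; group
    rw [e]
    exact (Subgroup.mem_normalizer_iff.mp (hAB hx) _).mp (inv_mem hx')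

theorem mem_SS {α : MulAut G} {A B : Subgroup G} {hAB : A ≤ Subgroup.normalizer (B : Set G)} {x : G} :
    x ∈ SS α A B hAB ↔ x ∈ A ∧ x⁻¹ * α x ∈ B := Iff.rfl

theorem card_SS_le [Finite G] (α : MulAut G) (A B : Subgroup G) (hAB : A ≤ Subgroup.normalizer (B : Set G)) :
    Nat.card (SS α A B hAB) ≤ Nat.card B * Nat.card {g : G // α g = g} := by
  classical
  let f : SS α A B hAB → B := fun x => ⟨(x : G)⁻¹ * α x, x.2.2⟩
  let rep : B → SS α A B hAB := Function.invFun f
  have hrep : ∀ x, f (rep (f x)) = f x := fun x => Function.invFun_eq ⟨x, rfl⟩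
  rw [← Nat.card_prod]
  refine Nat.card_le_card_of_injective (fun x => (f x, (⟨(x : G) * (rep (f x) : G)⁻¹, ?_⟩ : {g : G // α g = g}))) ?_
  · have h1 : (rep (f x) : G)⁻¹ * α (rep (f x) : G) = (x : G)⁻¹ * α x := congrArg Subtype.val (hrep x)
    have h2 : α (x : G) = x * ((rep (f x) : G)⁻¹ * α (rep (f x) : G)) := by rw [h1]; group
    rw [map_mul, map_inv, h2]
    group
  · intro x y hxy
    have h1 : f x = f y := congrArg Prod.fst hxy
    have h2 : (x : G) * (rep (f x) : G)⁻¹ = (y : G) * (rep (f y) : G)⁻¹ :=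
      congrArg (fun z => ((z.2 : {g : G // α g = g}) : G)) hxy
    rw [h1] at h2
    exact Subtype.ext (mul_right_cancel h2)

theorem card_pos_fix [Finite G] (α : MulAut G) : 0 < Nat.card {g : G // α g = g} := by
  have : Nonempty {g : G // α g = g} := ⟨⟨1, map_one α⟩⟩
  exact Nat.card_pos

/-- `x ^ (p ^ n) ∈ B` for `x⁻¹ α(x) ∈ B`, if there are at most `p ^ n` fixed points. -/
theorem pow_mem [Finite G] {p : ℕ} [Fact p.Prime] (hG : IsPGroup p G) (α : MulAut G) (A B : Subgroup G)
    (hAB : A ≤ Subgroup.normalizer (B : Set G)) (hBA : B ≤ A) (hBα : ∀ x ∈ B, α x ∈ B) {n : ℕ}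
    (hn : Nat.card {g : G // α g = g} ≤ p ^ n) {x : G} (hx : x ∈ A) (hx' : x⁻¹ * α x ∈ B) :
    x ^ p ^ n ∈ B := by
  have hp : p.Prime := Fact.out
  set S := SS α A B hAB with hS
  have hBS : B ≤ S := fun y hy => ⟨hBA hy, mul_mem (inv_mem hy) (hBα y hy)⟩
  have hSN : S ≤ Subgroup.normalizer (B : Set G) := fun y hy => hAB hy.1
  have hnorm : (B.subgroupOf S).Normal := Subgroup.normal_subgroupOf_iff_le_normalizer hBS |>.mpr hSN
  have h1 : Nat.card S ≤ Nat.card B * p ^ n := (card_SS_le α A B hAB).trans (Nat.mul_le_mul_left _ hn)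
  have h2 : Nat.card (S ⧸ B.subgroupOf S) * Nat.card B = Nat.card S := by
    have h3 := Subgroup.card_eq_card_quotient_mul_card_subgroup (B.subgroupOf S)
    rw [h3]
    congr 1
    exact (Nat.card_congr (Subgroup.subgroupOfEquivOfLe hBS).toEquiv).symm
  have h3 : Nat.card (S ⧸ B.subgroupOf S) ≤ p ^ n := by
    rw [← h2, mul_comm] at h1
    exact Nat.le_of_mul_le_mul_left h1 Nat.card_pos
  have h4 : IsPGroup p (S ⧸ B.subgroupOf S) := (hG.to_subgroup S).to_quotient _
  obtain ⟨j, hj⟩ := IsPGroup.iff_card.mp h4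
  have h5 : j ≤ n := by
    rw [hj] at h3
    exact (Nat.pow_le_pow_iff_right hp.one_lt).mp h3
  have h6 : ((⟨x, hx, hx'⟩ : S) : S ⧸ B.subgroupOf S) ^ p ^ n = 1 := by
    have h7 := pow_card_eq_one' (x := ((⟨x, hx, hx'⟩ : S) : S ⧸ B.subgroupOf S))
    rw [hj] at h7
    obtain ⟨t, rfl⟩ := Nat.exists_eq_add_of_le h5
    rw [pow_add, pow_mul, h7, one_pow]
  rw [← QuotientGroup.mk_pow, QuotientGroup.eq_one_iff] at h6
  exact h6

/-- fixed points in quotients. -/
theorem card_fix_quot_le [Finite G] (α : MulAut G) (K : Subgroup G) [hK : K.Normal] (hKα : ∀ x ∈ K, α x ∈ K)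
    (β : MulAut (G ⧸ K)) (hβ : ∀ x : G, β (x : G ⧸ K) = ((α x : G) : G ⧸ K)) :
    Nat.card {v : G ⧸ K // β v = v} ≤ Nat.card {g : G // α g = g} := by
  have hN : (⊤ : Subgroup G) ≤ Subgroup.normalizer (K : Set G) := by
    rw [Subgroup.normalizer_eq_top_iff.mpr hK]
  set S := SS α ⊤ K hN with hS
  have hKS : K ≤ S := fun y hy => ⟨trivial, mul_mem (inv_mem hy) (hKα y hy)⟩
  have h1 := card_SS_le α ⊤ K hN
  have h2 : Nat.card {v : G ⧸ K // β v = v} * Nat.card K = Nat.card S := by
    have h3 := Subgroup.card_eq_card_quotient_mul_card_subgroup (K.subgroupOf S)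
    rw [h3]
    congr 1
    · have hnorm : (K.subgroupOf S).Normal := inferInstance
      have hle : K.subgroupOf S ≤ Subgroup.comap S.subtype K := fun x hx => hx
      refine Nat.card_congr ?_ |>.symm
      refine Equiv.ofBijective (fun v => ⟨QuotientGroup.map (K.subgroupOf S) K S.subtype hle v, ?_⟩) ?_
      · obtain ⟨x, rfl⟩ := QuotientGroup.mk_surjective v
        rw [QuotientGroup.map_mk]
        change β ((x : G) : G ⧸ K) = ((x : G) : G ⧸ K)
        rw [hβ]
        have h4 := x.2.2
        exact (QuotientGroup.eq.mpr h4).symm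
      · constructor
        · intro v w hvw
          obtain ⟨x, rfl⟩ := QuotientGroup.mk_surjective v
          obtain ⟨y, rfl⟩ := QuotientGroup.mk_surjective w
          have h4 := congrArg Subtype.val hvw
          change ((x : G) : G ⧸ K) = ((y : G) : G ⧸ K) at h4
          rw [QuotientGroup.eq] at h4
          exact QuotientGroup.eq.mpr h4
        · rintro ⟨v, hv⟩
          obtain ⟨x, rfl⟩ := QuotientGroup.mk_surjective v
          rw [hβ] at hv
          refine ⟨((⟨x, trivial, QuotientGroup.eq.mp hv.symm⟩ : S) : S ⧸ K.subgroupOf S), ?_⟩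
          rfl
    · exact (Nat.card_congr (Subgroup.subgroupOfEquivOfLe hKS).toEquiv).symm
  rw [← h2, mul_comm] at h1
  exact Nat.le_of_mul_le_mul_left h1 Nat.card_pos

/-- an abelian group of exponent `p` with an endomorphism of order dividing `p`. -/
theorem card_le_of_fix {V : Type*} [CommGroup V] [Finite V] {p : ℕ} [Fact p.Prime] (hV : ∀ v : V, v ^ p = 1)
    (β : V →* V) (hβ : ∀ v, (β^[p]) v = v) (c : ℕ) (hc : Nat.card {v : V // β v = v} ≤ c) :
    Nat.card V ≤ c ^ p := by
  classical
  have hp : p.Prime := Fact.out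
  let b : AddMonoid.End (Additive V) := MonoidHom.toAdditive β
  have hb : ∀ (k : ℕ) (w : V), (b ^ k : AddMonoid.End (Additive V)) (Additive.ofMul w) =
      Additive.ofMul ((β^[k]) w) := by
    intro k
    induction k with
    | zero => intro w; rfl
    | succ k ih =>
      intro w
      rw [pow_succ]
      have h1 : (b ^ k * b : AddMonoid.End (Additive V)) (Additive.ofMul w) =
          (b ^ k : AddMonoid.End (Additive V)) (Additive.ofMul (β w)) := rfl
      rw [h1, ih, Function.iterate_succ_apply]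
  have hpz : ∀ x : Additive V, p • x = 0 := by
    intro x
    have h1 : (Additive.toMul x : V) ^ p = 1 := hV _
    have : Additive.ofMul ((Additive.toMul x : V) ^ p) = p • x := rfl
    rw [← this, h1]; rfl
  let f : AddMonoid.End (Additive V) := b - 1
  have hfp : (f ^ p : AddMonoid.End (Additive V)) = 0 := by
    apply Cfsg.Agent.S3780.ring_lemma hp
    · apply AddMonoidHom.ext
      intro w
      have h1 := hb p (Additive.toMul w)
      rw [hβ] at h1
      exact h1
    · apply AddMonoidHom.ext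
      intro w
      have h1 : ((p : AddMonoid.End (Additive V))) w = p • w := by
        have := congrArg (fun g : AddMonoid.End (Additive V) => g w)
          (nsmul_one (A := AddMonoid.End (Additive V)) p)
        exact this.symm
      exact h1.trans (hpz w)
  let f' : Additive V →+ Additive V := f
  have hfa : ∀ x : Additive V, f' x = b x - x := fun x => rfl
  have hkf : Nat.card (AddMonoidHom.ker f') ≤ c := by
    refine le_trans ?_ hc
    have hmem : ∀ x : AddMonoidHom.ker f', β (Additive.toMul (x : Additive V) : V) =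
        (Additive.toMul (x : Additive V) : V) := by
      intro x
      have h1 : f' (x : Additive V) = 0 := x.2
      rw [hfa, sub_eq_zero] at h1
      exact congrArg (fun z : Additive V => (Additive.toMul z : V)) h1
    refine Nat.card_le_card_of_injective (fun x => ⟨_, hmem x⟩) ?_
    intro x y hxy
    have h1 := congrArg Subtype.val hxy
    exact Subtype.ext (Additive.toMul.injective h1)
  have h1 := Cfsg.Agent.S3780.card_kerIter_le f' p
  have h2 : Cfsg.Agent.S3780.kerIter f' p = ⊤ := by
    rw [eq_top_iff]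
    intro x _
    rw [Cfsg.Agent.S3780.mem_kerIter]
    have h3 : (f ^ p : AddMonoid.End (Additive V)) x = f'^[p] x := by
      rw [AddMonoid.End.coe_pow]; rfl
    rw [← h3, hfp]; rfl
  rw [h2, AddSubgroup.card_top] at h1
  have h3 : Nat.card (Additive V) = Nat.card V := rfl
  rw [h3] at h1
  exact h1.trans (Nat.pow_le_pow_left hkf p)

/-- the automorphism induced on an invariant subgroup of a finite group. -/
theorem exists_restrict [Finite G] (α : MulAut G) (H : Subgroup G) (hH : ∀ x ∈ H, α x ∈ H) :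
    ∃ β : MulAut H, ∀ x : H, ((β x : H) : G) = α x := by
  let f : H →* H := (α.toMonoidHom.comp H.subtype).codRestrict H (fun x => hH x x.2)
  have hf : Function.Injective f := by
    intro x y hxy
    exact Subtype.ext (α.injective (congrArg Subtype.val hxy))
  exact ⟨MulEquiv.ofBijective f (Finite.injective_iff_bijective.mp hf), fun x => rfl⟩

/-- the automorphism induced on a quotient by an invariant normal subgroup of a finite group. -/
theorem exists_quot [Finite G] (α : MulAut G) (K : Subgroup G) [hK : K.Normal] (hKα : ∀ x ∈ K, α x ∈ K) :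
    ∃ β : MulAut (G ⧸ K), ∀ x : G, β (x : G ⧸ K) = ((α x : G) : G ⧸ K) := by
  let f : G ⧸ K →* G ⧸ K := QuotientGroup.map K K α.toMonoidHom (fun x hx => hKα x hx)
  have hf : Function.Surjective f := by
    intro v
    obtain ⟨x, rfl⟩ := QuotientGroup.mk_surjective v
    refine ⟨((α⁻¹ x : G) : G ⧸ K), ?_⟩
    have : f ((α⁻¹ x : G) : G ⧸ K) = ((α (α⁻¹ x) : G) : G ⧸ K) := rfl
    rw [this, MulAut.apply_inv_self]
  exact ⟨MulEquiv.ofBijective f (Finite.surjective_iff_bijective.mp hf), fun x => rfl⟩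

/-- order of a quotient of exponent `p` which is abelian. -/
theorem card_quot_le [Finite G] {p : ℕ} [Fact p.Prime] (α : MulAut G) (hα : ∀ x, (α^[p]) x = x) (K : Subgroup G) [hK : K.Normal]
    (hKα : ∀ x ∈ K, α x ∈ K) (hc : ∀ x y : G, ⁅x, y⁆ ∈ K) (hpow : ∀ x : G, x ^ p ∈ K) :
    Nat.card (G ⧸ K) ≤ (Nat.card {g : G // α g = g}) ^ p := by
  obtain ⟨β, hβ⟩ := exists_quot α K hKα
  let _ : CommGroup (G ⧸ K) :=
    { (inferInstance : Group (G ⧸ K)) with
      mul_comm := by
        intro a b
        obtain ⟨x, rfl⟩ := QuotientGroup.mk_surjective a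
        obtain ⟨y, rfl⟩ := QuotientGroup.mk_surjective b
        have h1 : ((⁅x, y⁆ : G) : G ⧸ K) = 1 := (QuotientGroup.eq_one_iff _).mpr (hc x y)
        rw [commutatorElement_def, QuotientGroup.mk_mul, QuotientGroup.mk_mul, QuotientGroup.mk_inv,
          QuotientGroup.mk_inv, mul_inv_eq_one, mul_inv_eq_iff_eq_mul, QuotientGroup.mk_mul] at h1
        exact h1 }
  refine card_le_of_fix (p := p) ?_ β.toMonoidHom ?_ _ (card_fix_quot_le α K hKα β hβ)
  · intro v
    obtain ⟨x, rfl⟩ := QuotientGroup.mk_surjective v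
    rw [← QuotientGroup.mk_pow]
    exact (QuotientGroup.eq_one_iff _).mpr (hpow x)
  · intro v
    obtain ⟨x, rfl⟩ := QuotientGroup.mk_surjective v
    have h1 : ∀ j : ℕ, (β.toMonoidHom^[j]) (x : G ⧸ K) = (((α^[j]) x : G) : G ⧸ K) := by
      intro j
      induction j with
      | zero => rfl
      | succ j ih =>
        rw [Function.iterate_succ_apply', ih, Function.iterate_succ_apply']
        exact hβ _
    rw [h1, hα]

end H66.AlpC
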