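import Mathlib
import Cfsg.Agent.Lib.H3.PBasic
import Cfsg.Agent.Lib.H66.Commutators

/-!
Power structure of normal subgroups `V` of finite `p`-groups acting trivially on `M / Φ(M)` for all
normal subgroups `M ≤ V`.
-/

set_option autoImplicit false

open scoped commutatorElement

namespace H66.AlpD

section defs

variable {Γ Δ : Type*} [Group Γ] [Group Δ]

/-- the subgroup generated by `p`-th powers -/
def mho (p : ℕ) (N : Subgroup Γ) : Subgroup Γ := Subgroup.closure {x | ∃ y ∈ N, y ^ p = x}

theorem pow_mem_mho {p : ℕ} {N : Subgroup Γ} {x : Γ} (hx : x ∈ N) : x ^ p ∈ mho p N :=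
  Subgroup.subset_closure ⟨x, hx, rfl⟩

theorem mho_le_iff {p : ℕ} {N K : Subgroup Γ} : mho p N ≤ K ↔ ∀ x ∈ N, x ^ p ∈ K := by
  rw [mho, Subgroup.closure_le]
  constructor
  · intro h x hx
    exact h ⟨x, hx, rfl⟩
  · rintro h _ ⟨x, hx, rfl⟩
    exact h x hx

theorem mho_le (p : ℕ) (N : Subgroup Γ) : mho p N ≤ N :=
  mho_le_iff.mpr fun x hx => pow_mem hx p

theorem mho_mono (p : ℕ) {N K : Subgroup Γ} (h : N ≤ K) : mho p N ≤ mho p K :=
  mho_le_iff.mpr fun _ hx => pow_mem_mho (h hx)

theorem mho_map (p : ℕ) (N : Subgroup Γ) (f : Γ →* Δ) : (mho p N).map f = mho p (N.map f) := by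
  apply le_antisymm
  · rw [Subgroup.map_le_iff_le_comap, mho_le_iff]
    intro x hx
    rw [Subgroup.mem_comap, map_pow]
    exact pow_mem_mho ⟨x, hx, rfl⟩
  · rw [mho_le_iff]
    rintro _ ⟨x, hx, rfl⟩
    exact ⟨x ^ p, pow_mem_mho hx, map_pow f x p⟩

theorem mho_normal (p : ℕ) (N : Subgroup Γ) (hN : N.Normal) : (mho p N).Normal := by
  constructor
  intro n hn g
  have h1 : mho p N ≤ (mho p N).comap (MulAut.conj g).toMonoidHom := by
    rw [mho_le_iff]
    intro x hx
    rw [Subgroup.mem_comap, map_pow]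
    exact pow_mem_mho (hN.conj_mem x hx g)
  exact h1 hn

/-- the Frattini-type subgroup -/
def fra (p : ℕ) (N : Subgroup Γ) : Subgroup Γ := mho p N ⊔ ⁅N, N⁆

theorem fra_map (p : ℕ) (N : Subgroup Γ) (f : Γ →* Δ) : (fra p N).map f = fra p (N.map f) := by
  rw [fra, fra, Subgroup.map_sup, mho_map, Subgroup.map_commutator]

theorem fra_le (p : ℕ) (N : Subgroup Γ) : fra p N ≤ N :=
  sup_le (mho_le p N) (Subgroup.commutator_le_self N)

theorem fra_normal (p : ℕ) (N : Subgroup Γ) (hN : N.Normal) : (fra p N).Normal := by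
  haveI := mho_normal p N hN
  rw [fra]; infer_instance

end defs

universe u

/-- the powerful-type lemma -/
theorem commutator_le_mho {p : ℕ} [Fact p.Prime] (n : ℕ) : ∀ (Γ : Type u) [Group Γ] [Finite Γ], IsPGroup p Γ →
    ∀ V : Subgroup Γ, V.Normal → (∀ M : Subgroup Γ, M.Normal → M ≤ V → ⁅M, V⁆ ≤ fra p M) →
      ∀ N : Subgroup Γ, N.Normal → N ≤ V → Nat.card N ≤ n → ⁅N, V⁆ ≤ mho p N := by
  induction n with
  | zero =>
    intro Γ _ _ _ V _ _ N _ _ hn
    exact absurd hn (Nat.not_le.mpr Nat.card_pos)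
  | succ n ih =>
    intro Γ _ _ hΓ V hV hMV N hN hNV hn
    have hT := mho_normal p N hN
    set T := mho p N with hTdef
    set q := QuotientGroup.mk' T with hq
    have hqs : Function.Surjective q := QuotientGroup.mk'_surjective T
    have hΓT : IsPGroup p (Γ ⧸ T) := hΓ.to_quotient T
    haveI := hΓT.isNilpotent
    set N' := N.map q with hN'
    set V' := V.map q with hV'
    have hN'n : N'.Normal := hN.map q hqs
    have hV'n : V'.Normal := hV.map q hqs
    have hNV' : N' ≤ V' := Subgroup.map_mono hNV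
    have hTN : T ≤ N := mho_le p N
    have hmho' : mho p N' = ⊥ := by
      rw [hN', ← mho_map, ← hTdef, eq_bot_iff]
      rintro _ ⟨x, hx, rfl⟩
      exact (QuotientGroup.eq_one_iff x).mpr hx
    -- hypothesis for the quotient
    have hMV' : ∀ M : Subgroup (Γ ⧸ T), M.Normal → M ≤ V' → ⁅M, V'⁆ ≤ fra p M := by
      intro M hM hMV0
      have h1 : M.comap q ≤ V := by
        intro x hx
        obtain ⟨v, hv, hvx⟩ := hMV0 hx
        have h2 : v⁻¹ * x ∈ T := QuotientGroup.eq.mp hvx
        have h3 := mul_mem hv (hNV (hTN h2))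
        rwa [mul_inv_cancel_left] at h3
      have h2 := hMV (M.comap q) (hM.comap q) h1
      have h3 := Subgroup.map_mono (f := q) h2
      rwa [Subgroup.map_commutator, fra_map, Subgroup.map_comap_eq_self_of_surjective hqs] at h3
    -- commutators in the quotient
    suffices h : ⁅N', V'⁆ ≤ ⊥ by
      intro x hx
      have h1 : q x ∈ ⁅N', V'⁆ := by
        rw [hN', hV', ← Subgroup.map_commutator]
        exact ⟨x, hx, rfl⟩
      have h2 := h h1
      rw [Subgroup.mem_bot] at h2
      exact (QuotientGroup.eq_one_iff x).mp h2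
    by_cases hbot : N' = ⊥
    · rw [hbot, Subgroup.commutator_bot_left]
    have hlt := H3.PBasic.commutator_top_lt N' hbot
    -- a maximal normal subgroup M with [N', ⊤] ≤ M < N'
    obtain ⟨M, ⟨hMN, hM1⟩, hmax⟩ := Set.Finite.exists_maximal (s := {M : Subgroup (Γ ⧸ T) | M < N' ∧ ⁅N', (⊤ : Subgroup (Γ ⧸ T))⁆ ≤ M})
      (Set.toFinite _) ⟨_, hlt, le_rfl⟩
    have hMnorm : ∀ M : Subgroup (Γ ⧸ T), M ≤ N' → ⁅N', (⊤ : Subgroup (Γ ⧸ T))⁆ ≤ M → M.Normal := by
      intro M h1 h2
      constructor
      intro m hm g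
      have h3 : ⁅m, g⁆ ∈ M := h2 (Subgroup.commutator_mem_commutator (h1 hm) trivial)
      have h4 : g * m * g⁻¹ = ⁅m, g⁆⁻¹ * m := by rw [commutatorElement_def]; group
      rw [h4]
      exact mul_mem (inv_mem h3) hm
    have hMn := hMnorm M hMN.le hM1
    have hcM : Nat.card M ≤ n := by
      have h1 : Nat.card M < Nat.card N' := by
        by_contra hcon
        exact hMN.ne (Subgroup.eq_of_le_of_card_ge hMN.le (not_lt.mp hcon))
      have h2 : Nat.card N' ≤ Nat.card N := Nat.card_le_card_of_surjective _ (q.subgroupMap_surjective N)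
      omega
    have h1 := ih (Γ ⧸ T) hΓT V' hV'n hMV' M hMn (hMN.le.trans hNV') hcM
    have h2 : ⁅M, V'⁆ = ⊥ := by
      rw [eq_bot_iff]
      refine h1.trans ?_
      rw [← hmho']
      exact mho_mono p hMN.le
    rw [Subgroup.commutator_eq_bot_iff_le_centralizer] at h2
    -- N' = M ⟨x⟩
    obtain ⟨x, hxN, hxM⟩ := SetLike.exists_of_lt hMN
    have h3 : N' ≤ M ⊔ Subgroup.zpowers x := by
      by_contra hcon
      have h4 : M ⊔ Subgroup.zpowers x < N' := by
        refine lt_of_le_of_ne (sup_le hMN.le (by rwa [Subgroup.zpowers_le])) ?_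
        intro h5
        exact hcon h5.ge
      have h5 := hmax ⟨h4, hM1.trans le_sup_left⟩ le_sup_left
      exact hxM (h5 (le_sup_right (a := M) (Subgroup.mem_zpowers x)))
    -- N' abelian
    have h4 : ⁅N', N'⁆ = ⊥ := by
      rw [Subgroup.commutator_eq_bot_iff_le_centralizer]
      have hMc : M ≤ Subgroup.centralizer (N' : Set (Γ ⧸ T)) := by
        intro m hm
        rw [Subgroup.mem_centralizer_iff]
        intro y hy
        exact Subgroup.mem_centralizer_iff.mp (h2 hm) y (hNV' hy)
      have hxc : x ∈ Subgroup.centralizer (N' : Set (Γ ⧸ T)) := by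
        rw [Subgroup.mem_centralizer_iff]
        have h5 : N' ≤ Subgroup.centralizer {x} := by
          refine h3.trans (sup_le ?_ ?_)
          · intro m hm
            rw [Subgroup.mem_centralizer_iff]
            intro y hy
            rw [Set.mem_singleton_iff] at hy
            subst hy
            exact Subgroup.mem_centralizer_iff.mp (hMc hm) y hxN
          · rw [Subgroup.zpowers_le, Subgroup.mem_centralizer_iff]
            intro y hy
            rw [Set.mem_singleton_iff] at hy
            rw [hy]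
        intro y hy
        exact (Subgroup.mem_centralizer_iff.mp (h5 hy) x rfl).symm
      exact h3.trans (sup_le hMc (by rwa [Subgroup.zpowers_le]))
    have h5 := hMV' N' hN'n hNV'
    rw [fra, hmho', h4, bot_sup_eq] at h5
    exact h5

end H66.AlpD
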