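import Cfsg.Agent.Lib.H66.AlpB
import Cfsg.Agent.Lib.H66.AlpC
import Cfsg.Agent.Lib.H66.AlpD

/-!
Bounded derived length for finite `p`-groups with an automorphism of order `p` with few fixed points:
the argument inside the extended group.
-/

set_option autoImplicit false

open scoped commutatorElement

namespace H66.AlpE

open H66.AlpD H66.AlpC

section DS

variable {Γ Δ : Type*} [Group Γ] [Group Δ]

/-- derived series of a subgroup -/
def DS (k : ℕ) (H : Subgroup Γ) : Subgroup Γ := (fun K => ⁅K, K⁆)^[k] H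

theorem DS_zero (H : Subgroup Γ) : DS 0 H = H := rfl

theorem DS_succ (k : ℕ) (H : Subgroup Γ) : DS (k + 1) H = ⁅DS k H, DS k H⁆ := by
  rw [DS, Function.iterate_succ_apply']; rfl

theorem DS_add (j k : ℕ) (H : Subgroup Γ) : DS (j + k) H = DS j (DS k H) := by
  rw [DS, Function.iterate_add_apply]; rfl

theorem DS_map (k : ℕ) (H : Subgroup Γ) (f : Γ →* Δ) : (DS k H).map f = DS k (H.map f) := by
  induction k with
  | zero => rfl
  | succ k ih => rw [DS_succ, DS_succ, Subgroup.map_commutator, ih]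

theorem DS_mono (k : ℕ) {H K : Subgroup Γ} (h : H ≤ K) : DS k H ≤ DS k K := by
  induction k with
  | zero => exact h
  | succ k ih => rw [DS_succ, DS_succ]; exact Subgroup.commutator_mono ih ih

theorem DS_le (k : ℕ) (H : Subgroup Γ) : DS k H ≤ H := by
  induction k with
  | zero => exact le_rfl
  | succ k ih => rw [DS_succ]; exact (Subgroup.commutator_le_self _).trans ih

theorem DS_anti {j k : ℕ} (h : j ≤ k) (H : Subgroup Γ) : DS k H ≤ DS j H := by
  obtain ⟨t, rfl⟩ := Nat.exists_eq_add_of_le h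
  rw [add_comm, DS_add]
  exact DS_le t _

theorem DS_bot (k : ℕ) : DS k (⊥ : Subgroup Γ) = ⊥ := le_bot_iff.mp (DS_le k _)

theorem DS_normal (k : ℕ) (H : Subgroup Γ) (hH : H.Normal) : (DS k H).Normal := by
  induction k with
  | zero => exact hH
  | succ k ih =>
    haveI := ih
    rw [DS_succ]; infer_instance

theorem derivedSeries_eq_DS (k : ℕ) : derivedSeries Γ k = DS k ⊤ := by
  induction k with
  | zero => rfl
  | succ k ih => rw [derivedSeries_succ, DS_succ, ih]

theorem map_derivedSeries_eq_DS (H : Subgroup Γ) (k : ℕ) : (derivedSeries H k).map H.subtype = DS k H := by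
  rw [derivedSeries_eq_DS, DS_map, ← MonoidHom.range_eq_map, Subgroup.range_subtype]

theorem derivedSeries_eq_bot_iff (H : Subgroup Γ) (k : ℕ) : derivedSeries H k = ⊥ ↔ DS k H = ⊥ := by
  rw [← map_derivedSeries_eq_DS, Subgroup.map_eq_bot_iff_of_injective _ H.subtype_injective]

/-- a solvable subgroup has derived length at most its order -/
theorem DS_card_eq_bot [Finite Γ] (H : Subgroup Γ) (hs : ∃ k, DS k H = ⊥) {d : ℕ} (hd : Nat.card H ≤ d) :
    DS d H = ⊥ := by
  obtain ⟨k0, hk0⟩ := hs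
  have key : ∀ i, DS i H = ⊥ ∨ Nat.card (DS i H) + i ≤ Nat.card H := by
    intro i
    induction i with
    | zero => right; exact le_rfl
    | succ i ih =>
      by_cases hb : DS i H = ⊥
      · left
        exact le_bot_iff.mp ((DS_anti (Nat.le_succ i) H).trans hb.le)
      · right
        rcases ih with ih | ih
        · exact absurd ih hb
        · have hlt : DS (i + 1) H < DS i H := by
            refine lt_of_le_of_ne (DS_anti (Nat.le_succ i) H) ?_
            intro heq
            apply hb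
            have h1 : ∀ j, DS (i + j) H = DS i H := by
              intro j
              induction j with
              | zero => rfl
              | succ j ihj =>
                rw [← add_assoc, DS_succ, ihj, ← DS_succ, heq]
            have h2 := h1 k0
            rw [← h2, eq_bot_iff, ← hk0]
            exact DS_anti (by omega) H
          have h1 : Nat.card (DS (i + 1) H) < Nat.card (DS i H) := by
            by_contra hcon
            exact hlt.ne (Subgroup.eq_of_le_of_card_ge hlt.le (not_lt.mp hcon))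
          omega
  rcases key d with h | h
  · exact h
  · exfalso
    have h1 : 0 < Nat.card (DS d H) := Nat.card_pos
    omega

theorem exists_DS_eq_bot (hs : Group.IsSolvable Γ) (H : Subgroup Γ) : ∃ k, DS k H = ⊥ := by
  obtain ⟨k, hk⟩ := hs.solvable
  refine ⟨k, ?_⟩
  rw [derivedSeries_eq_DS] at hk
  rw [eq_bot_iff, ← hk]
  exact DS_mono k le_top

end DS

section iter

variable {Γ : Type*} [Group Γ]

/-- iterated power subgroups -/
def mi (p : ℕ) (i : ℕ) (N : Subgroup Γ) : Subgroup Γ := (mho p)^[i] N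

theorem mi_zero (p : ℕ) (N : Subgroup Γ) : mi p 0 N = N := rfl

theorem mi_succ (p i : ℕ) (N : Subgroup Γ) : mi p (i + 1) N = mho p (mi p i N) := by
  rw [mi, Function.iterate_succ_apply']; rfl

theorem mi_le (p i : ℕ) (N : Subgroup Γ) : mi p i N ≤ N := by
  induction i with
  | zero => exact le_rfl
  | succ i ih => rw [mi_succ]; exact (mho_le p _).trans ih

theorem mi_normal (p i : ℕ) (N : Subgroup Γ) (hN : N.Normal) : (mi p i N).Normal := by
  induction i with
  | zero => exact hN
  | succ i ih => rw [mi_succ]; exact mho_normal p _ ih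

theorem commutator_mho_le {p : ℕ} {A B K : Subgroup Γ} (hK : K.Normal) (h1 : ⁅⁅A, B⁆, B⁆ ≤ K)
    (h2 : mho p ⁅A, B⁆ ≤ K) : ⁅A, mho p B⁆ ≤ K := by
  rw [H66.Commutators.commutator_le_iff_map_eq_bot, Subgroup.commutator_eq_bot_iff_le_centralizer,
    Subgroup.le_centralizer_iff, mho_map]
  rw [mho_le_iff]
  rintro _ ⟨b, hb, rfl⟩
  rw [Subgroup.mem_centralizer_iff]
  rintro _ ⟨a, ha, rfl⟩
  set q := QuotientGroup.mk' K with hq
  have hab : ⁅a, b⁆ ∈ ⁅A, B⁆ := Subgroup.commutator_mem_commutator ha hb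
  have hc : Commute (q ⁅a, b⁆) (q b) := by
    have h3 : q ⁅⁅a, b⁆, b⁆ = 1 := (QuotientGroup.eq_one_iff _).mpr
      (h1 (Subgroup.commutator_mem_commutator hab hb))
    rw [map_commutatorElement] at h3
    exact commutatorElement_eq_one_iff_commute.mp h3
  have hpow : (q ⁅a, b⁆) ^ p = 1 := by
    rw [← map_pow]
    exact (QuotientGroup.eq_one_iff _).mpr (h2 (pow_mem_mho hab))
  have h4 : q a * q b * (q a)⁻¹ = q ⁅a, b⁆ * q b := by
    rw [map_commutatorElement, commutatorElement_def]; group
  have h5 : q a * (q b) ^ p * (q a)⁻¹ = (q b) ^ p := by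
    rw [← conj_pow, h4, hc.mul_pow, hpow, one_mul]
  exact mul_inv_eq_iff_eq_mul.mp h5

theorem commutator_mi_le {p : ℕ} {V : Subgroup Γ} (hV : V.Normal)
    (h : ∀ N : Subgroup Γ, N.Normal → N ≤ V → ⁅N, V⁆ ≤ mho p N) (N : Subgroup Γ) (hN : N.Normal) (hNV : N ≤ V)
    (j : ℕ) : ∀ i, ⁅mi p i N, mi p j V⁆ ≤ mi p (i + j + 1) N := by
  induction j with
  | zero =>
    intro i
    rw [mi_zero, add_zero, mi_succ]
    exact h _ (mi_normal p i N hN) ((mi_le p i N).trans hNV)
  | succ j ih =>
    intro i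
    rw [mi_succ p j V]
    apply commutator_mho_le (mi_normal p _ N hN)
    · refine (Subgroup.commutator_mono (ih i) (mi_le p j V)).trans ?_
      have h1 := h _ (mi_normal p (i + j + 1) N hN) ((mi_le p _ N).trans hNV)
      rw [← mi_succ] at h1
      exact h1
    · have h1 := mho_mono p (ih i)
      rw [← mi_succ] at h1
      exact h1

theorem eq_bot_of_le_mho [Finite Γ] {p : ℕ} [Fact p.Prime] (hΓ : IsPGroup p Γ) (K : Subgroup Γ) (h : K ≤ mho p K) :
    K = ⊥ := by
  by_contra hne
  have hnt : Nontrivial K := (Subgroup.nontrivial_iff_ne_bot K).mpr hne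
  have h1 : mho p (⊤ : Subgroup K) ≤ frattini K := by
    rw [mho_le_iff]
    intro x _
    exact H3.PBasic.pow_mem_frattini (hΓ.to_subgroup K) x
  have h2 : (mho p (⊤ : Subgroup K)).map K.subtype = mho p K := by
    rw [mho_map, ← MonoidHom.range_eq_map, Subgroup.range_subtype]
  have h3 : mho p (⊤ : Subgroup K) = ⊤ := by
    rw [eq_top_iff]
    intro x _
    have h4 := h x.2
    rw [← h2] at h4
    obtain ⟨y, hy, e⟩ := h4
    have : y = x := Subtype.ext e
    rwa [this] at hy
  rw [h3, top_le_iff] at h1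
  obtain ⟨M, hM, _⟩ := (eq_top_or_exists_le_coatom (⊥ : Subgroup K)).resolve_left (bot_ne_top)
  have h4 : frattini K ≤ M := frattini_le_coatom hM
  rw [h1, top_le_iff] at h4
  exact hM.1 h4

theorem DS_le_mi {p : ℕ} {V : Subgroup Γ}
    (h : ∀ N : Subgroup Γ, N.Normal → N ≤ V → ⁅N, V⁆ ≤ mho p N) (N : Subgroup Γ) (hN : N.Normal) (hNV : N ≤ V)
    (i : ℕ) : DS i N ≤ mi p i N := by
  induction i with
  | zero => exact le_rfl
  | succ i ih =>
    rw [DS_succ, mi_succ]
    refine (Subgroup.commutator_mono ih (ih.trans ((mi_le p i N).trans hNV))).trans ?_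
    exact h _ (mi_normal p i N hN) ((mi_le p i N).trans hNV)

theorem DS_le_lcs (Q : Subgroup Γ) (i : ℕ) : DS i Q ≤ Q.lowerCentralSeries i := by
  induction i with
  | zero => exact le_rfl
  | succ i ih =>
    rw [DS_succ, Subgroup.lowerCentralSeries_succ]
    exact Subgroup.commutator_mono ih (DS_le i Q)

theorem lcs_normal (Q : Subgroup Γ) (hQ : Q.Normal) (i : ℕ) : (Q.lowerCentralSeries i).Normal := by
  induction i with
  | zero => exact hQ
  | succ i ih =>
    haveI := ih
    haveI := hQ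
    rw [Subgroup.lowerCentralSeries_succ]; infer_instance

/-- key: the `(c+1)`-st term of the lower central series of `Q = mi m V` -/
theorem mi_lcs_eq_bot [Finite Γ] {p : ℕ} [Fact p.Prime] (hΓ : IsPGroup p Γ) {V : Subgroup Γ} (hV : V.Normal)
    (h : ∀ N : Subgroup Γ, N.Normal → N ≤ V → ⁅N, V⁆ ≤ mho p N) (m c : ℕ)
    (hpow : ∀ x ∈ (mi p m V).lowerCentralSeries c, x ^ p ^ m ∈ (mi p m V).lowerCentralSeries (c + 1)) :
    mi p m ((mi p m V).lowerCentralSeries c) = ⊥ := by
  set Q := mi p m V with hQ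
  have hQn : Q.Normal := mi_normal p m V hV
  have hQV : Q ≤ V := mi_le p m V
  set N := Q.lowerCentralSeries c with hN
  have hNn : N.Normal := lcs_normal Q hQn c
  have hNQ : N ≤ Q := Q.lowerCentralSeries_le_self c
  have hN1 : Q.lowerCentralSeries (c + 1) = ⁅N, Q⁆ := Subgroup.lowerCentralSeries_succ Q c
  rw [hN1] at hpow
  haveI := hNn
  haveI := hQn
  have hN1n : (⁅N, Q⁆).Normal := inferInstance
  have hab : ∀ x ∈ N, ∀ y ∈ N, ∀ k : ℕ, (x * y) ^ k * (x ^ k * y ^ k)⁻¹ ∈ ⁅N, Q⁆ := by
    intro x hx y hy k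
    set q := QuotientGroup.mk' ⁅N, Q⁆ with hq
    have hc : Commute (q x) (q y) := by
      have h3 : q ⁅x, y⁆ = 1 := (QuotientGroup.eq_one_iff _).mpr
        (Subgroup.commutator_mem_commutator hx (hNQ hy))
      rw [map_commutatorElement] at h3
      exact commutatorElement_eq_one_iff_commute.mp h3
    have h4 : q ((x * y) ^ k * (x ^ k * y ^ k)⁻¹) = 1 := by
      rw [map_mul, map_inv, map_mul, map_pow, map_pow, map_pow, map_mul, hc.mul_pow, mul_inv_cancel]
    exact (QuotientGroup.eq_one_iff _).mp h4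
  have key : ∀ i, i ≤ m → ∀ x ∈ mi p i N, x ^ p ^ (m - i) ∈ ⁅N, Q⁆ := by
    intro i
    induction i with
    | zero => intro _ x hx; exact hpow x hx
    | succ i ih =>
      intro hi x hx
      rw [mi_succ] at hx
      have hle : mi p i N ≤ N := mi_le p i N
      have h1 : x ∈ N ∧ x ^ p ^ (m - (i + 1)) ∈ ⁅N, Q⁆ := by
        refine Subgroup.closure_induction (p := fun x _ => x ∈ N ∧ x ^ p ^ (m - (i + 1)) ∈ ⁅N, Q⁆) ?_ ?_ ?_ ?_ hx
        · rintro _ ⟨y, hy, rfl⟩
          refine ⟨pow_mem (hle hy) p, ?_⟩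
          have h2 := ih (by omega) y hy
          rw [← pow_mul, ← pow_succ']
          rwa [show m - (i + 1) + 1 = m - i by omega]
        · exact ⟨one_mem _, by rw [one_pow]; exact one_mem _⟩
        · rintro a b _ _ ⟨ha, ha'⟩ ⟨hb, hb'⟩
          refine ⟨mul_mem ha hb, ?_⟩
          have h2 := mul_mem (hab a ha b hb (p ^ (m - (i + 1)))) (mul_mem ha' hb')
          rwa [inv_mul_cancel_right] at h2
        · rintro a _ ⟨ha, ha'⟩
          exact ⟨inv_mem ha, by rw [inv_pow]; exact inv_mem ha'⟩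
      exact h1.2
  have h1 : mi p m N ≤ ⁅N, Q⁆ := by
    intro x hx
    have h2 := key m le_rfl x hx
    rwa [Nat.sub_self, pow_zero, pow_one] at h2
  have h2 : ⁅N, Q⁆ ≤ mi p (m + 1) N := by
    have h3 := commutator_mi_le hV h N hNn (hNQ.trans hQV) m 0
    rw [mi_zero, zero_add] at h3
    exact h3
  rw [mi_succ] at h2
  exact eq_bot_of_le_mho hΓ _ (h1.trans h2)

end iter

end H66.AlpE
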