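import Cfsg.Agent.Lib.H66.AlpE

/-!
Bounded derived length for finite `p`-groups with an automorphism of order dividing `p` with few fixed points.
-/

set_option autoImplicit false

open scoped commutatorElement

namespace H66.AlpF

open H66.AlpD H66.AlpC H66.AlpE

universe u

/-- `|M / Φ(M)|` for an invariant subgroup -/
theorem card_quot_fra_le {P : Type*} [Group P] [Finite P] {p : ℕ} [Fact p.Prime] (α : MulAut P) (hα : α ^ p = 1)
    (M : Subgroup P) (hM : ∀ x ∈ M, α x ∈ M) [(fra p (⊤ : Subgroup M)).Normal] :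
    Nat.card (M ⧸ fra p (⊤ : Subgroup M)) ≤ (Nat.card {g : P // α g = g}) ^ p := by
  obtain ⟨β, hβ⟩ := exists_restrict α M hM
  have hβp : ∀ x, (β^[p]) x = x := by
    intro x
    have h1 : ∀ j : ℕ, (((β^[j]) x : M) : P) = (α ^ j) x := by
      intro j
      induction j with
      | zero => rfl
      | succ j ih => rw [Function.iterate_succ_apply', hβ, ih, pow_succ']; rfl
    apply Subtype.ext
    rw [h1, hα]; rfl
  have hinv : ∀ x ∈ fra p (⊤ : Subgroup M), β x ∈ fra p (⊤ : Subgroup M) := by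
    intro x hx
    have h1 : (fra p (⊤ : Subgroup M)).map β.toMonoidHom = fra p ⊤ := by
      rw [fra_map, ← MonoidHom.range_eq_map, MonoidHom.range_eq_top.mpr β.surjective]
    rw [← h1]
    exact ⟨x, hx, rfl⟩
  have h1 := card_quot_le β hβp (fra p (⊤ : Subgroup M)) hinv
    (fun x y => (le_sup_right : _ ≤ fra p (⊤ : Subgroup M)) (Subgroup.commutator_mem_commutator trivial trivial))
    (fun x => (le_sup_left : _ ≤ fra p (⊤ : Subgroup M)) (pow_mem_mho trivial))
  refine h1.trans (Nat.pow_le_pow_left ?_ p)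
  refine Nat.card_le_card_of_injective (fun g => ⟨((g : M) : P), ?_⟩) ?_
  · rw [← hβ, g.2]
  · intro x y hxy
    have h2 : ((x : M) : P) = ((y : M) : P) := congrArg (fun z : {g : P // α g = g} => (z : P)) hxy
    exact Subtype.ext (Subtype.ext h2)

/-- powers in the lower central series of an invariant subgroup -/
theorem pow_mem_lcs {P : Type u} [Group P] [Finite P] {p : ℕ} [Fact p.Prime] (hP : IsPGroup p P) (α : MulAut P)
    (hα : α ^ p = 1) {n : ℕ} (hn : Nat.card {g : P // α g = g} ≤ p ^ n)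
    (Q : Subgroup P) (hQ : ∀ x ∈ Q, α x ∈ Q) (r : ℕ)
    (hr : ∀ (L : Type u) [LieRing L] (M : ZMod p → AddSubgroup L), H66.Kreknin.GR M →
      ∀ i, H66.Kreknin.LC M M r i = ⊥) :
    ∀ x ∈ (⊤ : Subgroup Q).lowerCentralSeries r,
      x ^ p ^ (n + (r + 1)) ∈ (⊤ : Subgroup Q).lowerCentralSeries (r + 1) := by
  obtain ⟨β, hβ⟩ := exists_restrict α Q hQ
  have hβp : β ^ p = 1 := by
    ext x
    have h1 : ∀ j : ℕ, (((β ^ j) x : Q) : P) = (α ^ j) x := by
      intro j
      induction j with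
      | zero => rfl
      | succ j ih =>
        rw [pow_succ', pow_succ', MulAut.mul_apply, MulAut.mul_apply, hβ, ih]
    rw [h1, hα]; rfl
  have hfix : Nat.card {g : Q // β g = g} ≤ p ^ n := by
    refine le_trans ?_ hn
    refine Nat.card_le_card_of_injective (fun g => ⟨((g : Q) : P), ?_⟩) ?_
    · rw [← hβ, g.2]
    · intro x y hxy
      have h2 : ((x : Q) : P) = ((y : Q) : P) := congrArg (fun z : {g : P // α g = g} => (z : P)) hxy
      exact Subtype.ext (Subtype.ext h2)
  have hQp := hP.to_subgroup Q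
  intro x hx
  rw [pow_add]
  refine H66.AlpB.lcs_pow β hβp (p ^ n) ?_ r hr x hx
  intro i y hy hy'
  refine pow_mem hQp β _ _ ?_ (Subgroup.lowerCentralSeries_antitone ⊤ (Nat.le_succ i)) ?_ hfix hy hy'
  · have h1 : ((⊤ : Subgroup Q).lowerCentralSeries (i + 1)).Normal := inferInstance
    rw [Subgroup.normalizer_eq_top_iff.mpr h1]
    exact le_top
  · intro z hz
    exact H66.Fpf.apply_mem β (H66.Fpf.map_char β _) hz

theorem card_mulAut_le (M : Type*) [Group M] [Finite M] : Nat.card (MulAut M) ≤ (Nat.card M).factorial := by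
  classical
  have := Fintype.ofFinite M
  have h1 : Nat.card (Equiv.Perm M) = (Nat.card M).factorial := by
    rw [Nat.card_eq_fintype_card, Nat.card_eq_fintype_card, Fintype.card_perm]
  rw [← h1]
  exact Nat.card_le_card_of_injective (fun f : MulAut M => f.toEquiv) (fun f g h => MulEquiv.ext (fun x => congrArg (fun e : Equiv.Perm M => e x) h))

theorem core {p : ℕ} [Fact p.Prime] {n : ℕ} {P : Type u} [Group P] [Finite P] (hP : IsPGroup p P)
    (α : MulAut P) (hα : α ^ p = 1) (hn : Nat.card {g : P // α g = g} ≤ p ^ n) {c : ℕ}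
    (hc : ∀ (L : Type u) [LieRing L] (M : ZMod p → AddSubgroup L), H66.Kreknin.GR M →
      ∀ i, H66.Kreknin.LC M M c i = ⊥) {Γ : Type u} [Group Γ] [Finite Γ] (hΓ : IsPGroup p Γ) (ι : P →* Γ)
    (hι : Function.Injective ι) (hιn : ι.range.Normal) (a : Γ) (hconj : ∀ x : P, a * ι x * a⁻¹ = ι (α x)) :
    derivedSeries P ((n + (c + 1)) + (c + ((n + (c + 1)) + ((p ^ n) ^ p).factorial))) = ⊥ := by
  classical
  have hp : p.Prime := Fact.out
  set b := (p ^ n) ^ p with hb
  set d := b.factorial with hd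
  obtain ⟨m, hm⟩ : ∃ m, m = n + (c + 1) := ⟨_, rfl⟩
  rw [← hm]
  have := hΓ.isNilpotent
  have hsol : Group.IsSolvable Γ := inferInstance
  -- invariance
  have hinv : ∀ M : Subgroup Γ, M.Normal → ∀ x ∈ M.comap ι, α x ∈ M.comap ι := by
    intro M hM x hx
    rw [Subgroup.mem_comap, ← hconj]
    exact hM.conj_mem _ hx a
  -- trivial action
  have hact : ∀ M : Subgroup Γ, M.Normal → M ≤ ι.range → ⁅M, DS d ι.range⁆ ≤ fra p M := by
    intro M hM hMι
    set M₀ := M.comap ι with hM₀
    have hM₀ι : M₀.map ι = M := by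
      rw [hM₀, Subgroup.map_comap_eq, inf_eq_right.mpr hMι]
    have hKn : (fra p (⊤ : Subgroup M₀)).Normal := fra_normal p ⊤ inferInstance
    have h1 := card_quot_fra_le α hα M₀ (hinv M hM)
    have hFn : (fra p M).Normal := fra_normal p M hM
    set F := fra p M with hF
    set q := QuotientGroup.mk' F with hq
    have hMbn : (M.map q).Normal := hM.map q (QuotientGroup.mk'_surjective F)
    -- card of M.map q
    have hcard : Nat.card (M.map q) ≤ b := by
      let f : M₀ →* M.map q := ((q.comp ι).comp M₀.subtype).codRestrict (M.map q)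
        (fun x => ⟨ι x, x.2, rfl⟩)
      have hfs : Function.Surjective f := by
        rintro ⟨_, ⟨y, hy, rfl⟩⟩
        rw [SetLike.mem_coe, ← hM₀ι] at hy
        obtain ⟨x, hx, rfl⟩ := hy
        exact ⟨⟨x, hx⟩, rfl⟩
      have hfK : ∀ x ∈ fra p (⊤ : Subgroup M₀), f x = 1 := by
        intro x hx
        apply Subtype.ext
        have h2 : (fra p (⊤ : Subgroup M₀)).map (ι.comp M₀.subtype) = fra p M := by
          rw [fra_map]
          congr 1
          rw [← Subgroup.map_map, ← MonoidHom.range_eq_map, Subgroup.range_subtype, hM₀ι]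
        have h3 : ι (x : P) ∈ fra p M := by
          rw [← h2]; exact ⟨x, hx, rfl⟩
        exact (QuotientGroup.eq_one_iff _).mpr h3
      have h2 : Function.Surjective (QuotientGroup.lift (fra p (⊤ : Subgroup M₀)) f hfK) := by
        intro y
        obtain ⟨x, rfl⟩ := hfs y
        exact ⟨(x : M₀ ⧸ fra p (⊤ : Subgroup M₀)), rfl⟩
      exact (Nat.card_le_card_of_surjective _ h2).trans (h1.trans (Nat.pow_le_pow_left hn p))
    let ψ : Γ →* MulAut (M.map q) := (MulAut.conjNormal (H := M.map q)).comp q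
    have h2 : DS d (ι.range.map ψ) = ⊥ := by
      apply DS_card_eq_bot
      · obtain ⟨k, hk⟩ := exists_DS_eq_bot hsol ι.range
        refine ⟨k, ?_⟩
        rw [← DS_map, hk, Subgroup.map_bot]
      · refine (Subgroup.card_le_card_group _).trans ((card_mulAut_le _).trans (Nat.factorial_le hcard))
    rw [← DS_map] at h2
    rw [Subgroup.commutator_le]
    intro x hx g hg
    have h3 : ψ g = 1 := by
      have h4 : ψ g ∈ (DS d ι.range).map ψ := ⟨g, hg, rfl⟩
      rwa [h2, Subgroup.mem_bot] at h4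
    have h4 := congrArg (fun f : MulAut (M.map q) => ((f ⟨q x, ⟨x, hx, rfl⟩⟩ : M.map q) : Γ ⧸ F)) h3
    have h5 : q g * q x * (q g)⁻¹ = q x := h4
    have h6 : q ⁅x, g⁆ = 1 := by
      rw [map_commutatorElement, commutatorElement_eq_one_iff_mul_comm]
      exact (mul_inv_eq_iff_eq_mul.mp h5).symm
    exact (QuotientGroup.eq_one_iff _).mp h6
  -- V
  set V := DS d ι.range with hV
  have hVn : V.Normal := DS_normal d _ hιn
  have hVι : V ≤ ι.range := DS_le d _
  have hpw : ∀ N : Subgroup Γ, N.Normal → N ≤ V → ⁅N, V⁆ ≤ mho p N := by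
    intro N hN hNV
    exact commutator_le_mho (Nat.card N) Γ hΓ V hVn (fun M hM hMV => hact M hM (hMV.trans hVι)) N hN hNV le_rfl
  -- Q
  set Q := mi p m V with hQ
  have hQn : Q.Normal := mi_normal p m V hVn
  have hQV : Q ≤ V := mi_le p m V
  have hpow : ∀ x ∈ Q.lowerCentralSeries c, x ^ p ^ m ∈ Q.lowerCentralSeries (c + 1) := by
    have h1 := pow_mem_lcs hP α hα hn (Q.comap ι) (hinv Q hQn) c hc
    rw [← hm] at h1
    have h2 : ∀ i, ((⊤ : Subgroup (Q.comap ι)).lowerCentralSeries i).map (ι.comp (Q.comap ι).subtype) =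
        Q.lowerCentralSeries i := by
      intro i
      rw [Subgroup.map_lowerCentralSeries]
      congr 1
      rw [← Subgroup.map_map, ← MonoidHom.range_eq_map, Subgroup.range_subtype, Subgroup.map_comap_eq,
        inf_eq_right.mpr (hQV.trans hVι)]
    intro x hx
    rw [← h2] at hx ⊢
    obtain ⟨y, hy, rfl⟩ := hx
    exact ⟨y ^ p ^ m, h1 y hy, map_pow _ _ _⟩
  have hfin := mi_lcs_eq_bot hΓ hVn hpw m c hpow
  -- conclusion
  have hDS : DS (m + (c + (m + d))) ι.range = ⊥ := by
    rw [DS_add, DS_add, DS_add, ← hV, eq_bot_iff]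
    have h1 : DS m V ≤ Q := DS_le_mi hpw V hVn le_rfl m
    have h2 : DS c (DS m V) ≤ Q.lowerCentralSeries c := (DS_mono c h1).trans (DS_le_lcs Q c)
    refine (DS_mono m h2).trans ?_
    refine (DS_le_mi hpw _ (lcs_normal Q hQn c) ((Q.lowerCentralSeries_le_self c).trans hQV) m).trans ?_
    exact hfin.le
  rw [derivedSeries_eq_DS]
  rw [MonoidHom.range_eq_map, ← DS_map] at hDS
  exact (Subgroup.map_eq_bot_iff_of_injective _ hι).mp hDS

theorem main_pgroup (p : ℕ) [Fact p.Prime] (n : ℕ) : ∃ l : ℕ, ∀ (P : Type u) [Group P] [Finite P],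
    IsPGroup p P → ∀ α : MulAut P, α ^ p = 1 → Nat.card {g : P // α g = g} ≤ p ^ n → derivedSeries P l = ⊥ := by
  classical
  have hp : p.Prime := Fact.out
  obtain ⟨c, hc⟩ : ∃ c : ℕ, ∀ (L : Type u) [LieRing L] (M : ZMod p → AddSubgroup L), H66.Kreknin.GR M →
      ∀ i, H66.Kreknin.LC M M c i = ⊥ := ⟨_, fun L _ M hM i => H66.Kreknin.hkk hM i⟩
  refine ⟨(n + (c + 1)) + (c + ((n + (c + 1)) + ((p ^ n) ^ p).factorial)), ?_⟩
  intro P _ _ hP α hα hn
  let φ : Subgroup.zpowers α →* MulAut P := (Subgroup.zpowers α).subtype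
  have hconj : ∀ x : P, (SemidirectProduct.inr ⟨α, Subgroup.mem_zpowers α⟩ : P ⋊[φ] (Subgroup.zpowers α)) *
      SemidirectProduct.inl x * (SemidirectProduct.inr ⟨α, Subgroup.mem_zpowers α⟩)⁻¹ =
        SemidirectProduct.inl (α x) := by
    intro x
    have h1 := SemidirectProduct.inl_aut (φ := φ) ⟨α, Subgroup.mem_zpowers α⟩ x
    rw [map_inv] at h1
    exact h1.symm
  have hfin : Finite (P ⋊[φ] (Subgroup.zpowers α)) :=
    Finite.of_equiv _ SemidirectProduct.equivProd.symm
  have hΓ : IsPGroup p (P ⋊[φ] (Subgroup.zpowers α)) := by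
    obtain ⟨i, hi⟩ := IsPGroup.iff_card.mp hP
    obtain ⟨j, _, hj⟩ := (Nat.dvd_prime_pow hp).mp (show orderOf α ∣ p ^ 1 by
      rw [pow_one]; exact orderOf_dvd_of_pow_eq_one hα)
    apply IsPGroup.of_card (n := i + j)
    rw [Nat.card_congr SemidirectProduct.equivProd, Nat.card_prod, hi, Nat.card_zpowers, hj, pow_add]
  have hn' : (SemidirectProduct.inl : P →* P ⋊[φ] (Subgroup.zpowers α)).range.Normal := by
    rw [SemidirectProduct.range_inl_eq_ker_rightHom]
    infer_instance
  exact core hP α hα hn hc hΓ SemidirectProduct.inl SemidirectProduct.inl_injective hn' _ hconj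

end H66.AlpF
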