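import Cfsg.Agent.Lib.H66.AlpF
import Cfsg.Agent.Lib.H1.Solv
import Cfsg.Agent.Lib.H1.Cores
import Cfsg.Agent.Lib.H1.Coprime2

/-!
Bounded derived length for finite solvable groups with an automorphism of prime order `p` with `p ^ n` fixed points.
-/

set_option autoImplicit false

open scoped commutatorElement

namespace H66.AlpG

open H66.AlpD H66.AlpC H66.AlpE H66.AlpF Cfsg

universe u

theorem card_map_fra_le {Γ : Type*} [Group Γ] [Finite Γ] (p : ℕ) (M : Subgroup Γ) (hM : M.Normal)
    [(fra p M).Normal] [(fra p (⊤ : Subgroup M)).Normal] :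
    Nat.card (M.map (QuotientGroup.mk' (fra p M))) ≤ Nat.card (M ⧸ fra p (⊤ : Subgroup M)) := by
  set q := QuotientGroup.mk' (fra p M) with hq
  let f : M →* M.map q := (q.comp M.subtype).codRestrict (M.map q) (fun x => ⟨x, x.2, rfl⟩)
  have hfs : Function.Surjective f := by
    rintro ⟨_, ⟨y, hy, rfl⟩⟩
    exact ⟨⟨y, hy⟩, rfl⟩
  have hfK : ∀ x ∈ fra p (⊤ : Subgroup M), f x = 1 := by
    intro x hx
    apply Subtype.ext
    have h2 : (fra p (⊤ : Subgroup M)).map M.subtype = fra p M := by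
      rw [fra_map]
      congr 1
      rw [← MonoidHom.range_eq_map, Subgroup.range_subtype]
    have h3 : (x : Γ) ∈ fra p M := by
      rw [← h2]; exact ⟨x, hx, rfl⟩
    exact (QuotientGroup.eq_one_iff _).mpr h3
  have h2 : Function.Surjective (QuotientGroup.lift (fra p (⊤ : Subgroup M)) f hfK) := by
    intro y
    obtain ⟨x, rfl⟩ := hfs y
    exact ⟨(x : M ⧸ fra p (⊤ : Subgroup M)), rfl⟩
  exact Nat.card_le_card_of_surjective _ h2

/-- the `p`-constrained case -/
theorem DS_le_pCore {p : ℕ} [Fact p.Prime] {H : Type u} [Group H] [Finite H] (hs : Group.IsSolvable H)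
    (hcore : pPrimeCore p H = ⊥) (α : MulAut H) (hα : α ^ p = 1) {n : ℕ}
    (hn : Nat.card {g : H // α g = g} ≤ p ^ n) :
    DS ((p ^ n) ^ p).factorial (⊤ : Subgroup H) ≤ pCore p H := by
  classical
  have hp : p.Prime := Fact.out
  have hcent := H1.Solv.centralizer_pCore_le hs p hcore
  have hPp := H1.Cores.isPGroup_pCore (G := H) p
  have hPn : (pCore p H).Normal := inferInstance
  have hPinv : ∀ x ∈ pCore p H, α x ∈ pCore p H := by
    intro x hx
    have h1 := H1.Cores.map_equiv_pCore p α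
    rw [← h1]
    exact ⟨x, hx, rfl⟩
  set P := pCore p H with hP
  have hFn : (fra p P).Normal := fra_normal p P hPn
  have hKn : (fra p (⊤ : Subgroup P)).Normal := fra_normal p ⊤ inferInstance
  have h1 : Nat.card (P.map (QuotientGroup.mk' (fra p P))) ≤ (p ^ n) ^ p :=
    (card_map_fra_le p P hPn).trans ((card_quot_fra_le α hα P hPinv).trans (Nat.pow_le_pow_left hn p))
  set q := QuotientGroup.mk' (fra p P) with hq
  have hMbn : (P.map q).Normal := hPn.map q (QuotientGroup.mk'_surjective _)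
  let ψ : H →* MulAut (P.map q) := (MulAut.conjNormal (H := P.map q)).comp q
  have h2 : DS ((p ^ n) ^ p).factorial ((⊤ : Subgroup H).map ψ) = ⊥ := by
    apply DS_card_eq_bot
    · obtain ⟨k, hk⟩ := exists_DS_eq_bot hs (⊤ : Subgroup H)
      refine ⟨k, ?_⟩
      rw [← DS_map, hk, Subgroup.map_bot]
    · refine (Subgroup.card_le_card_group _).trans ((card_mulAut_le _).trans (Nat.factorial_le h1))
  rw [← DS_map] at h2
  have h3 : DS ((p ^ n) ^ p).factorial (⊤ : Subgroup H) ≤ ψ.ker := by
    intro g hg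
    have h4 : ψ g ∈ (DS ((p ^ n) ^ p).factorial (⊤ : Subgroup H)).map ψ := ⟨g, hg, rfl⟩
    rwa [h2, Subgroup.mem_bot] at h4
  refine h3.trans ?_
  -- the kernel is a normal p-subgroup
  have hker : ∀ g ∈ ψ.ker, ∀ x ∈ P, g * x * g⁻¹ * x⁻¹ ∈ fra p P := by
    intro g hg x hx
    have hg' : ψ g = 1 := hg
    have h4 := congrArg (fun f : MulAut (P.map q) => ((f ⟨q x, ⟨x, hx, rfl⟩⟩ : P.map q) : H ⧸ fra p P)) hg'
    have h5 : q g * q x * (q g)⁻¹ = q x := h4
    have h6 : q (g * x * g⁻¹ * x⁻¹) = 1 := by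
      rw [map_mul, map_mul, map_mul, map_inv, map_inv, h5, mul_inv_cancel]
    exact (QuotientGroup.eq_one_iff _).mp h6
  have hfr : fra p P ≤ (frattini P).map P.subtype := by
    have h4 : (fra p (⊤ : Subgroup P)).map P.subtype = fra p P := by
      rw [fra_map]
      congr 1
      rw [← MonoidHom.range_eq_map, Subgroup.range_subtype]
    rw [← h4]
    apply Subgroup.map_mono
    refine sup_le ?_ ?_
    · rw [mho_le_iff]
      intro x _
      exact H3.PBasic.pow_mem_frattini hPp x
    · exact H3.PBasic.commutator_le_frattini hPp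
  have hpk : IsPGroup p ψ.ker := by
    intro x
    obtain ⟨k, t, ht, hkt⟩ := Nat.exists_eq_pow_mul_and_not_dvd (orderOf_pos (x : H)).ne' p hp.ne_one
    set y : H := (x : H) ^ p ^ k with hy
    have hyo : orderOf y = t := by
      rw [hy, orderOf_pow, hkt, Nat.gcd_eq_right (Dvd.intro _ rfl), Nat.mul_div_cancel_left _ (pow_pos hp.pos k)]
    have hyk : y ∈ ψ.ker := pow_mem x.2 _
    obtain ⟨i, hi⟩ := IsPGroup.iff_card.mp (hPp.to_subgroup (frattini P))
    have hcop : (Nat.card (Subgroup.zpowers y)).Coprime (Nat.card (frattini P)) := by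
      rw [Nat.card_zpowers, hyo, hi]
      exact Nat.Coprime.pow_right _ ((Nat.Prime.coprime_iff_not_dvd hp).mpr ht).symm
    have h4 := H1.Coprime2.le_centralizer_of_frattini (Subgroup.zpowers y) P hcop (by
      intro a ha k hk
      have ha' : a ∈ ψ.ker := (Subgroup.zpowers_le.mpr hyk) ha
      exact hfr (hker a ha' k hk))
    have h5 : y ∈ P := hcent (h4 (Subgroup.mem_zpowers y))
    obtain ⟨j, hj⟩ := hPp ⟨y, h5⟩
    refine ⟨k + j, ?_⟩
    apply Subtype.ext
    have h6 : y ^ p ^ j = 1 := congrArg Subtype.val hj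
    rw [hy, ← pow_mul, ← pow_add] at h6
    exact h6
  exact H1.Cores.le_pCore inferInstance hpk

theorem alperin (p : ℕ) (hp : p.Prime) (n : ℕ) : ∃ l : ℕ, ∀ (G : Type) [Group G] [Finite G],
    Group.IsSolvable G → ∀ α : MulAut G, orderOf α = p → Nat.card {g : G // α g = g} = p ^ n →
      derivedSeries G l = ⊥ := by
  classical
  haveI : Fact p.Prime := ⟨hp⟩
  obtain ⟨l, hl⟩ := main_pgroup.{0} p n
  obtain ⟨r, hr⟩ : ∃ r : ℕ, ∀ (L : Type) [LieRing L] (M : ZMod p → AddSubgroup L), H66.Kreknin.GR M →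
      ∀ i, H66.Kreknin.LC M M r i = ⊥ := ⟨_, fun L _ M hM i => H66.Kreknin.hkk hM i⟩
  refine ⟨r + (l + ((p ^ n) ^ p).factorial), ?_⟩
  intro G _ _ hs α hαo hn
  have hα : α ^ p = 1 := by rw [← hαo]; exact pow_orderOf_eq_one α
  -- fixed points
  let C : Subgroup G :=
    { carrier := {g | α g = g}
      one_mem' := map_one α
      mul_mem' := by
        intro a b ha hb
        change α (a * b) = a * b
        rw [map_mul]; exact congrArg₂ _ ha hb
      inv_mem' := by
        intro a ha
        change α a⁻¹ = a⁻¹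
        rw [map_inv]; exact congrArg _ ha }
  have hC : Nat.card C = p ^ n := hn
  -- N
  set N := pPrimeCore p G with hN
  have hNc : N.Characteristic := H1.Cores.pPrimeCore_characteristic p
  have hNinv : ∀ x ∈ N, α x ∈ N := by
    intro x hx
    have h1 := H1.Cores.map_equiv_pPrimeCore p α
    rw [hN, ← h1]
    exact ⟨x, hx, rfl⟩
  have hNcop := H1.Cores.coprime_card_pPrimeCore (G := G) p
  rw [← hN] at hNcop
  -- nilpotency of N
  have hDN : DS r N = ⊥ := by
    obtain ⟨β, hβ⟩ := exists_restrict α N hNinv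
    have hβp : β ^ p = 1 := by
      ext x
      have h1 : ∀ j : ℕ, (((β ^ j) x : N) : G) = (α ^ j) x := by
        intro j
        induction j with
        | zero => rfl
        | succ j ih =>
          rw [pow_succ', pow_succ', MulAut.mul_apply, MulAut.mul_apply, hβ, ih]
      rw [h1, hα]; rfl
    have hfpf : ∀ g, β g = g → g = 1 := by
      intro g hg
      have h1 : (g : G) ∈ C := by
        change α (g : G) = g
        rw [← hβ, hg]
      have h2 : orderOf (g : G) ∣ p ^ n := by
        rw [← hC]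
        have := orderOf_dvd_natCard (⟨(g : G), h1⟩ : C)
        rwa [← Subgroup.orderOf_coe] at this
      have h3 : orderOf (g : G) ∣ Nat.card N := by
        rw [Subgroup.orderOf_coe]
        exact orderOf_dvd_natCard g
      have h4 : orderOf (g : G) = 1 := by
        have h5 := Nat.dvd_gcd h3 h2
        rw [Nat.Coprime.gcd_eq_one (hNcop.pow_right n)] at h5
        exact Nat.dvd_one.mp h5
      rw [orderOf_eq_one_iff] at h4
      exact Subtype.ext h4
    have h1 := H66.HKK.lcs_eq_bot β hβp hfpf r hr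
    have h2 := DS_le_lcs N r
    rw [← Subgroup.top_subtype_lowerCentralSeries, h1, Subgroup.map_bot, le_bot_iff] at h2
    exact h2
  -- the quotient
  obtain ⟨γ, hγ⟩ := exists_quot α N hNinv
  have hγp : γ ^ p = 1 := by
    ext v
    obtain ⟨x, rfl⟩ := QuotientGroup.mk_surjective v
    have h1 : ∀ j : ℕ, (γ ^ j) (x : G ⧸ N) = (((α ^ j) x : G) : G ⧸ N) := by
      intro j
      induction j with
      | zero => rfl
      | succ j ih => rw [pow_succ', pow_succ', MulAut.mul_apply, MulAut.mul_apply, ih, hγ]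
    rw [h1, hα]; rfl
  have hγn : Nat.card {g : G ⧸ N // γ g = g} ≤ p ^ n := by
    rw [← hn]
    exact card_fix_quot_le α N hNinv γ hγ
  have hs' : Group.IsSolvable (G ⧸ N) := inferInstance
  have h1 := DS_le_pCore hs' (H1.Cores.pPrimeCore_quotient_pPrimeCore p) γ hγp hγn
  -- the p-core
  have h2 : DS l (pCore p (G ⧸ N)) = ⊥ := by
    have hPinv : ∀ x ∈ pCore p (G ⧸ N), γ x ∈ pCore p (G ⧸ N) := by
      intro x hx
      have h1 := H1.Cores.map_equiv_pCore p γ
      rw [← h1]
      exact ⟨x, hx, rfl⟩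
    obtain ⟨β, hβ⟩ := exists_restrict γ (pCore p (G ⧸ N)) hPinv
    have hβp : β ^ p = 1 := by
      ext x
      have h1 : ∀ j : ℕ, (((β ^ j) x : pCore p (G ⧸ N)) : G ⧸ N) = (γ ^ j) x := by
        intro j
        induction j with
        | zero => rfl
        | succ j ih =>
          rw [pow_succ', pow_succ', MulAut.mul_apply, MulAut.mul_apply, hβ, ih]
      rw [h1, hγp]; rfl
    have hβn : Nat.card {g : pCore p (G ⧸ N) // β g = g} ≤ p ^ n := by
      refine le_trans ?_ hγn
      refine Nat.card_le_card_of_injective (fun g => ⟨((g : pCore p (G ⧸ N)) : G ⧸ N), ?_⟩) ?_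
      · rw [← hβ, g.2]
      · intro x y hxy
        have h2 : ((x : pCore p (G ⧸ N)) : G ⧸ N) = ((y : pCore p (G ⧸ N)) : G ⧸ N) :=
          congrArg (fun z : {g : G ⧸ N // γ g = g} => (z : G ⧸ N)) hxy
        exact Subtype.ext (Subtype.ext h2)
    have h3 := hl (pCore p (G ⧸ N)) (H1.Cores.isPGroup_pCore p) β hβp hβn
    rwa [derivedSeries_eq_bot_iff] at h3
  rw [derivedSeries_eq_DS, DS_add, eq_bot_iff, ← hDN]
  apply DS_mono
  have h3 : (DS (l + ((p ^ n) ^ p).factorial) (⊤ : Subgroup G)).map (QuotientGroup.mk' N) = ⊥ := by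
    rw [DS_map, Subgroup.map_top_of_surjective _ (QuotientGroup.mk'_surjective N), DS_add, eq_bot_iff, ← h2]
    exact DS_mono l h1
  intro x hx
  have h4 : (QuotientGroup.mk' N) x ∈ (DS (l + ((p ^ n) ^ p).factorial) (⊤ : Subgroup G)).map (QuotientGroup.mk' N) :=
    ⟨x, hx, rfl⟩
  rw [h3, Subgroup.mem_bot] at h4
  exact (QuotientGroup.eq_one_iff x).mp h4

end H66.AlpG
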