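import Cfsg.Agent.Lib.H66.WardA

/-!
The last configuration for Ward's theorem.
-/

set_option autoImplicit false

open Subgroup H66.Weights H66.Crit H66.MinQ H66.Rad
open scoped commutatorElement Pointwise

namespace H66.Ward

variable {K V X : Type*} [Field K] [AddCommGroup V] [Module K V] [Group X] [Finite X]
  {ρ : Representation K X V}

theorem mem_zpowers_of_prime {p : ℕ} [hp : Fact p.Prime] {b : X} (hbp : b ^ p = 1) (hb1 : b ≠ 1) {i : ℕ}
    (hi : ¬ p ∣ i) : b ∈ zpowers (b ^ i) := by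
  have hord : orderOf b = p := orderOf_eq_prime hbp hb1
  have hcop : Nat.Coprime p i := (Nat.Prime.coprime_iff_not_dvd hp.out).mpr hi
  have h2 : zpowers (b ^ i) = zpowers b := by
    apply Subgroup.eq_of_le_of_card_ge
    · rw [zpowers_le]; exact npow_mem_zpowers b i
    · rw [Nat.card_zpowers, Nat.card_zpowers, Nat.Coprime.orderOf_pow (by rw [hord]; exact hcop)]
  rw [h2]; exact mem_zpowers b

theorem fix_pow {N : Subgroup X} {x g : X} (hx : x ∈ normalizer (N : Set X)) (hg : g ∈ normalizer (N : Set X))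
    (h : ⁅x, g⁆ ∈ N) {k : X} (hk : k ∈ zpowers g) : ⁅x, k⁆ ∈ N := by
  have h2 : zpowers g ≤ H66.ShultGross.fixSub N x hx := by
    rw [zpowers_le]
    refine ⟨hg, ?_⟩
    have h3 := N.inv_mem h
    rwa [commutatorElement_inv] at h3
  have h3 := N.inv_mem (h2 hk).2
  change ⁅k, x⁆⁻¹ ∈ N at h3
  rwa [commutatorElement_inv] at h3

/-- configuration (iv) -/
theorem config4 [IsAlgClosed K] [FiniteDimensional K V] {p q s : ℕ} [hp : Fact p.Prime] [hq : Fact q.Prime]
    [hs : Fact s.Prime] (hsp : s ≠ p) (hqp : q ≠ p)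
    {Q : Subgroup X} {χ μ : X → K} (hQQ : ⁅Q, Q⁆ ≤ Q ⊓ centralizer (Q : Set X)) (hQq : IsPGroup q Q)
    (hχ : IsChar (Q ⊓ centralizer (Q : Set X)) χ) (hne : rad hQQ hχ ≠ Q) (hW : W ρ hQQ hχ μ ≠ ⊥)
    (hQK : (Nat.card Q : K) ≠ 0) (hpK : (p : K) ≠ 0)
    {b : X} (hbQ : b ∈ normalizer (Q : Set X)) (hbp : b ^ p = 1) (hb1 : b ≠ 1)
    (hbχ : ∀ c ∈ Q ⊓ centralizer (Q : Set X), χ (b⁻¹ * c * b) = χ c)
    (hbW : ∀ w ∈ W ρ hQQ hχ μ, ρ b w ∈ W ρ hQQ hχ μ)
    (hbfix : ∀ w ∈ W ρ hQQ hχ μ, ρ b w = w → w = 0)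
    {S : Subgroup X} (hSs : IsPGroup s S) (hSQ : S ≤ normalizer (Q : Set X))
    (hSχ : ∀ x ∈ S, ∀ c ∈ Q ⊓ centralizer (Q : Set X), χ (x⁻¹ * c * x) = χ c)
    (hbS : ∀ x ∈ S, b * x = x * b)
    (hfree : ∀ N : Subgroup X, N ≤ Q → Q ≤ normalizer (N : Set X) → Q ⊓ centralizer (Q : Set X) ≤ N →
      b ∈ normalizer (N : Set X) → ∀ x ∈ Q, ⁅x, b⁆ ∈ N → x ∈ N)
    (hSQ' : Q ≤ ⁅Q, S⁆) : False := by
  classical
  set Zq := Q ⊓ centralizer (Q : Set X) with hZq
  set Rd := rad hQQ hχ with hRd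
  set B := zpowers b with hB
  have hRdle : Rd ≤ Q := rad_le hQQ hχ
  have hZRd : Zq ≤ Rd := center_le hQQ hχ
  have hQRd : Q ≤ normalizer (Rd : Set X) := le_normalizer_rad hQQ hχ
  have hord : orderOf b = p := orderOf_eq_prime hbp hb1
  have hcardB : Nat.card B = p := by rw [hB, Nat.card_zpowers, hord]
  have hBQ : B ≤ normalizer (Q : Set X) := by rw [hB, zpowers_le]; exact hbQ
  have hbRd : b ∈ normalizer (Rd : Set X) := mem_normalizer_rad hQQ hχ hbQ hbχ
  have hBRd : B ≤ normalizer (Rd : Set X) := by rw [hB, zpowers_le]; exact hbRd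
  have hSRd : S ≤ normalizer (Rd : Set X) := fun x hx => mem_normalizer_rad hQQ hχ (hSQ hx) (hSχ x hx)
  have hBp : IsPGroup p B := IsPGroup.of_card (n := 1) (by rw [hcardB, pow_one])
  have hQs : Group.IsSolvable Q := by
    have : Group.IsNilpotent Q := hQq.isNilpotent
    infer_instance
  have hcopB : ∀ Y : Subgroup X, Y ≤ Q → (Nat.card B).Coprime (Nat.card Y) := fun Y hY =>
    IsPGroup.coprime_card_of_ne p q hqp.symm B Y hBp (hQq.to_le hY)
  -- b acts freely on Q / Rd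
  have hbfree : ∀ i : ℕ, ¬ p ∣ i → ∀ x ∈ Q, ⁅x, b ^ i⁆ ∈ Rd → x ∈ Rd := by
    intro i hi x hx hxi
    apply hfree Rd hRdle hQRd hZRd hbRd x hx
    exact fix_pow (hQRd hx) (hBRd (B.pow_mem (mem_zpowers b) i)) hxi (mem_zpowers_of_prime hbp hb1 hi)
  -- critical lemma
  have hcd := cdata (ρ := ρ) hQQ hχ hW
  obtain ⟨N, hN0, hN, hNp⟩ := crit_final hcd hW hQK (g := b) hbQ hbW (M := p) hpK (by
      intro i hi0 hip x hx hxi
      exact hbfree i (fun h => absurd (Nat.le_of_dvd hi0 h) (by omega)) x hx hxi) (by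
      intro w _
      rw [hbp, map_one]; rfl) hbfix
  have hrel : Rd.relIndex Q = N ^ 2 := by
    have h1 := Subgroup.card_mul_index (Rd.subgroupOf Q)
    have h2 : Nat.card (Rd.subgroupOf Q) = Nat.card Rd := Nat.card_congr (subgroupOfEquivOfLe hRdle).toEquiv
    rw [h2, ← hN, mul_comm] at h1
    exact Nat.eq_of_mul_eq_mul_right Nat.card_pos h1
  -- general divisibility
  have hdvd : ∀ Y : Subgroup X, Rd ≤ Y → Y ≤ Q → b ∈ normalizer (Y : Set X) → p ∣ Rd.relIndex Y - 1 := by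
    intro Y _ hY hYb
    have h1 := H66.FreeAct.card_dvd_relIndex_sub_one B Y Rd (by rw [hB, zpowers_le]; exact hYb) hBRd (by
      intro a ha ha1 x hx hxa
      have h2 := ha
      rw [hB, mem_zpowers_iff_mem_range_orderOf] at h2
      obtain ⟨i, _, rfl⟩ := Finset.mem_image.mp h2
      apply hbfree i _ x (hY hx) hxa
      rintro ⟨j, rfl⟩
      exact ha1 (by rw [pow_mul, hbp, one_pow]))
    rwa [hcardB] at h1
  have hdvdM : p ∣ N ^ 2 - 1 := by
    rw [← hrel]; exact hdvd Q hRdle le_rfl hbQ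
  have hN1 : N ≠ 1 := by
    rintro rfl
    rw [one_pow, relIndex_eq_one] at hrel
    exact hne (le_antisymm hRdle hrel)
  have hNeq : N + 1 = p := by
    have h1 : p ∣ (N - 1) * (N + 1) := by
      have h2 : (N - 1) * (N + 1) = N ^ 2 - 1 := by
        obtain ⟨t, rfl⟩ : ∃ t, N = t + 1 := ⟨N - 1, by omega⟩
        rw [Nat.add_sub_cancel]
        have : (t + 1) ^ 2 = t * (t + 1 + 1) + 1 := by ring
        rw [this, Nat.add_sub_cancel]
      rw [h2]; exact hdvdM
    have hpos := hp.out.pos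
    rcases (Nat.Prime.dvd_mul hp.out).mp h1 with h3 | h3
    · have := Nat.le_of_dvd (by omega) h3
      omega
    · have := Nat.le_of_dvd (by omega) h3
      omega
  have hp3 : 3 ≤ p := by omega
  obtain ⟨c, hc⟩ : ∃ c, N ^ 2 = q ^ c := by
    rw [← hrel]
    obtain ⟨c, hc⟩ := IsPGroup.iff_card.mp hQq
    have h1 : Rd.relIndex Q ∣ q ^ c := by rw [← hc]; exact relIndex_dvd_card Rd Q
    obtain ⟨c', _, hc'⟩ := (Nat.dvd_prime_pow hq.out).mp h1
    exact ⟨c', hc'⟩
  obtain ⟨d, hdc, hd⟩ := (Nat.dvd_prime_pow hq.out).mp (show N ∣ q ^ c by rw [← hc]; exact dvd_pow_self N two_ne_zero)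
  have hd0 : 0 < d := by
    rcases Nat.eq_zero_or_pos d with h | h
    · rw [h, pow_zero] at hd; exact absurd hd hN1
    · exact h
  have hq2 : q = 2 := by
    have h1 : 2 ∣ N := by
      have h2 : Odd p := hp.out.odd_of_ne_two (by omega)
      obtain ⟨t, ht⟩ := h2
      exact ⟨t, by omega⟩
    rw [hd] at h1
    exact ((Nat.prime_dvd_prime_iff_eq Nat.prime_two hq.out).mp (Nat.prime_two.dvd_of_dvd_pow h1)).symm
  have hNd : N = 2 ^ d := by rw [hd, hq2]
  have hPd : 2 ^ d + 1 = p := by rw [← hNd]; exact hNeq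
  -- the subgroup T
  have hQcomm : ∀ y ∈ Q, ∀ z ∈ Q, ⁅y, z⁆ ∈ Rd := fun y hy z hz => hZRd (hQQ (commutator_mem_commutator hy hz))
  let T : Subgroup X :=
    { carrier := {x | x ∈ S ∧ ∀ y ∈ Q, ⁅x, y⁆ ∈ Rd}
      one_mem' := ⟨one_mem S, fun y _ => by rw [commutatorElement_one_left]; exact one_mem _⟩
      mul_mem' := by
        rintro x x' ⟨hx, h1⟩ ⟨hx', h2⟩
        refine ⟨mul_mem hx hx', ?_⟩
        intro y hy
        have e : ⁅x * x', y⁆ = (x * ⁅x', y⁆ * x⁻¹) * ⁅x, y⁆ := by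
          simp only [commutatorElement_def]; group
        rw [e]
        exact mul_mem ((mem_normalizer_iff.mp (hSRd hx) _).mp (h2 y hy)) (h1 y hy)
      inv_mem' := by
        rintro x ⟨hx, h1⟩
        refine ⟨inv_mem hx, ?_⟩
        intro y hy
        have e : ⁅x⁻¹, y⁆ = x⁻¹ * ⁅x, y⁆⁻¹ * x⁻¹⁻¹ := by
          simp only [commutatorElement_def]; group
        rw [e]
        exact (mem_normalizer_iff.mp (hSRd (inv_mem hx)) _).mp (Rd.inv_mem (h1 y hy)) }
  have hTS : ∃ x ∈ S, x ∉ T := by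
    by_contra hcon
    push Not at hcon
    apply hne
    apply le_antisymm hRdle
    refine hSQ'.trans ?_
    rw [commutator_le]
    intro y hy x hx
    have h1 := (hcon x hx).2 y hy
    have h2 := Rd.inv_mem h1
    rwa [commutatorElement_inv] at h2
  -- w outside T acts freely
  have hwfree : ∀ w ∈ S, w ∉ T → ∀ y ∈ Q, ⁅y, w⁆ ∈ Rd → y ∈ Rd := by
    intro w hw hwT
    let Y : Subgroup X :=
      { carrier := {y | y ∈ Q ∧ ⁅y, w⁆ ∈ Rd}
        one_mem' := ⟨one_mem Q, by rw [commutatorElement_one_left]; exact one_mem _⟩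
        mul_mem' := by
          rintro y y' ⟨hy, h1⟩ ⟨hy', h2⟩
          refine ⟨mul_mem hy hy', ?_⟩
          have e : ⁅y * y', w⁆ = (y * ⁅y', w⁆ * y⁻¹) * ⁅y, w⁆ := by
            simp only [commutatorElement_def]; group
          rw [e]
          exact mul_mem ((mem_normalizer_iff.mp (hQRd hy) _).mp h2) h1
        inv_mem' := by
          rintro y ⟨hy, h1⟩
          refine ⟨inv_mem hy, ?_⟩
          have e : ⁅y⁻¹, w⁆ = y⁻¹ * ⁅y, w⁆⁻¹ * y⁻¹⁻¹ := by
            simp only [commutatorElement_def]; group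
          rw [e]
          exact (mem_normalizer_iff.mp (hQRd (inv_mem hy)) _).mp (Rd.inv_mem h1) }
    have hYQ : Y ≤ Q := fun y h => h.1
    have hRdY : Rd ≤ Y := by
      intro y hy
      refine ⟨hRdle hy, ?_⟩
      have e : ⁅y, w⁆ = y * (w * y⁻¹ * w⁻¹) := by rw [commutatorElement_def]; group
      rw [e]
      exact mul_mem hy ((mem_normalizer_iff.mp (hSRd hw) _).mp (Rd.inv_mem hy))
    have hbY0 : ∀ e ∈ B, ∀ y ∈ Y, e * y * e⁻¹ ∈ Y := by
      rintro e he y ⟨hy, hyw⟩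
      refine ⟨(mem_normalizer_iff.mp (hBQ he) _).mp hy, ?_⟩
      have hew : e * w = w * e := by
        have h1 : B ≤ centralizer {w} := by
          rw [hB, zpowers_le, mem_centralizer_singleton_iff]; exact hbS w hw
        exact mem_centralizer_singleton_iff.mp (h1 he)
      have hew' : w = e * w * e⁻¹ := by rw [hew, mul_inv_cancel_right]
      have e1 : ⁅e * y * e⁻¹, w⁆ = e * ⁅y, w⁆ * e⁻¹ := by
        conv_lhs => rw [hew']
        simp only [commutatorElement_def]; group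
      rw [e1]
      exact (mem_normalizer_iff.mp (hBRd he) _).mp hyw
    have hbY : b ∈ normalizer (Y : Set X) :=
      (H1.Coprime.le_normalizer_of_conj_mem hbY0) (mem_zpowers b)
    have h1 := hdvd Y hRdY hYQ hbY
    obtain ⟨a, ha⟩ : ∃ a, Rd.relIndex Y = 2 ^ a := by
      obtain ⟨c, hc⟩ := IsPGroup.iff_card.mp (hQq.to_le hYQ)
      have h2 : Rd.relIndex Y ∣ q ^ c := by rw [← hc]; exact relIndex_dvd_card Rd Y
      obtain ⟨c', _, hc'⟩ := (Nat.dvd_prime_pow hq.out).mp h2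
      exact ⟨c', by rw [hc', hq2]⟩
    rw [ha] at h1
    have h2 := H66.FreeAct.two_mul_dvd hd0 hPd h1
    have h3 : Rd.relIndex Y * Y.relIndex Q = Rd.relIndex Q := relIndex_mul_relIndex Rd Y Q hRdY hYQ
    have hYne : Y.relIndex Q ≠ 1 := by
      intro h
      rw [relIndex_eq_one] at h
      apply hwT
      refine ⟨hw, ?_⟩
      intro y hy
      have h4 := Rd.inv_mem (h hy).2
      rwa [commutatorElement_inv] at h4
    have ha2d : a < 2 * d := by
      by_contra hcon
      push Not at hcon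
      rw [ha, hrel, hNd, ← pow_mul, mul_comm d 2] at h3
      have h5 : 2 ^ (2 * d) ≤ 2 ^ a := Nat.pow_le_pow_right (by norm_num) hcon
      have h6 : 0 < 2 ^ (2 * d) := by positivity
      have h7 : Y.relIndex Q ≤ 1 := by
        by_contra h8
        push Not at h8
        nlinarith
      have h8 : Y.relIndex Q ≠ 0 := by
        intro h9
        rw [h9, mul_zero] at h3
        omega
      omega
    have ha0 : a = 0 := Nat.eq_zero_of_dvd_of_lt h2 ha2d
    rw [ha0, pow_zero, relIndex_eq_one] at ha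
    intro y hy hyw
    exact ha ⟨hy, hyw⟩
  -- element x
  obtain ⟨x, hxS, hxT, hxsT⟩ : ∃ x ∈ S, x ∉ T ∧ x ^ s ∈ T := by
    obtain ⟨x0, hx0, hx0T⟩ := hTS
    have hex : ∃ k : ℕ, x0 ^ s ^ k ∈ T := by
      obtain ⟨k, hk⟩ := hSs ⟨x0, hx0⟩
      refine ⟨k, ?_⟩
      have : x0 ^ s ^ k = 1 := congrArg Subtype.val hk
      rw [this]; exact one_mem T
    have h1 := Nat.find_spec hex
    have h0 : Nat.find hex ≠ 0 := by
      intro h
      rw [h, pow_zero, pow_one] at h1
      exact hx0T h1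
    obtain ⟨k, hk⟩ := Nat.exists_eq_succ_of_ne_zero h0
    refine ⟨x0 ^ s ^ k, S.pow_mem hx0 _, ?_, ?_⟩
    · exact Nat.find_min hex (by omega)
    · rw [← pow_mul, ← pow_succ]
      rw [hk] at h1
      exact h1
  have hbx : Commute b x := hbS x hxS
  obtain ⟨n, hn⟩ : ∃ n, x ^ s ^ n = 1 := by
    obtain ⟨k, hk⟩ := hSs ⟨x, hxS⟩
    exact ⟨k, congrArg Subtype.val hk⟩
  have hsn : ¬ p ∣ s ^ n := by
    intro h
    have := hp.out.dvd_of_dvd_pow h
    exact hsp ((Nat.prime_dvd_prime_iff_eq hp.out hs.out).mp this).symm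
  have hmulpow : ∀ i : ℕ, (b * x) ^ i = b ^ i * x ^ i := fun i => hbx.mul_pow i
  have hbmem : b ∈ zpowers (b * x) := by
    have h1 : b ∈ zpowers (b ^ s ^ n) := mem_zpowers_of_prime hbp hb1 hsn
    have h2 : zpowers (b ^ s ^ n) ≤ zpowers (b * x) := by
      rw [zpowers_le]
      have h3 : b ^ s ^ n = (b * x) ^ s ^ n := by rw [hmulpow, hn, mul_one]
      rw [h3]; exact npow_mem_zpowers _ _
    exact h2 h1
  -- x stabilizes W
  obtain ⟨w0, hw0, hw00⟩ := (Submodule.ne_bot_iff _).mp hW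
  have hμchar : IsChar Rd μ := isChar_of_mem hw0.1 hw00
  have hμχ : ∀ c ∈ Zq, μ c = χ c := by
    intro c hc
    have h1 := hw0.1 c (hZRd hc)
    have h2 := hw0.2 c hc
    rw [h1] at h2
    exact smul_right_cancel' hw00 h2
  have hbμ : ∀ c ∈ Rd, μ (b⁻¹ * c * b) = μ c := by
    intro c hc
    have hc' : b⁻¹ * c * b ∈ Rd := by
      have := (mem_normalizer_iff.mp (inv_mem hbRd) c).mp hc
      rwa [inv_inv] at this
    have h1 := (hbW w0 hw0).1 c hc
    have h2 := hw0.1 _ hc'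
    have h3 := congrArg (ρ b) h2
    rw [← Module.End.mul_apply, ← map_mul, map_smul] at h3
    have e : b * (b⁻¹ * c * b) = c * b := by group
    rw [e, map_mul, Module.End.mul_apply, h1] at h3
    have hne0 : ρ b w0 ≠ 0 := by
      intro h
      apply hw00
      have := congrArg (ρ b⁻¹) h
      rwa [← Module.End.mul_apply, ← map_mul, inv_mul_cancel, map_one, map_zero] at this
    exact (smul_right_cancel' hne0 h3).symm
  have hBμ : ∀ e ∈ B, ∀ c ∈ Rd, μ (e⁻¹ * c * e) = μ c := by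
    have h2 : B ≤ stb (normalizer (Rd : Set X)) Rd le_rfl μ := by
      rw [hB, zpowers_le]
      exact ⟨hbRd, hbμ⟩
    intro e he
    exact (h2 he).2
  have hμtriv : ∀ c ∈ ⁅Rd, B⁆, μ c = 1 := by
    intro c hc
    exact trivial_on_commutator hμchar hBRd hBμ hc
  have hxμ : ∀ y ∈ S, ∀ c ∈ Rd, μ (y⁻¹ * c * y) = μ c := by
    intro y hy c hc
    obtain ⟨u, hu, d', hd', rfl⟩ := H1.Coprime2.exists_mul_of_mem B Rd hBRd (hcopB Rd hRdle)
      (Or.inr (H1.Coprime.isSolvable_of_le hRdle hQs)) hc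
    have huRd : u ∈ Rd := H1.Coprime2.commutator_le_left hBRd hu
    have hyB : y⁻¹ ∈ normalizer (B : Set X) := by
      apply inv_mem
      have : S ≤ normalizer (B : Set X) := by
        apply H1.Coprime.le_normalizer_of_conj_mem
        intro z hz e he
        have h1 : B ≤ centralizer {z} := by
          rw [hB, zpowers_le, mem_centralizer_singleton_iff]; exact hbS z hz
        have h2 := mem_centralizer_singleton_iff.mp (h1 he)
        rw [← h2, mul_inv_cancel_right]; exact he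
      exact this hy
    have hyRd : y⁻¹ ∈ normalizer (Rd : Set X) := inv_mem (hSRd hy)
    have hu' : y⁻¹ * u * y ∈ ⁅Rd, B⁆ := by
      have h1 : zpowers y⁻¹ ≤ normalizer ((⁅Rd, B⁆ : Subgroup X) : Set X) :=
        H1.Coprime2.le_normalizer_commutator (by rw [zpowers_le]; exact hyRd) (by rw [zpowers_le]; exact hyB)
      have h2 := (mem_normalizer_iff.mp (h1 (mem_zpowers _)) u).mp hu
      rwa [inv_inv] at h2
    have hd'Z : d' ∈ Zq := by
      apply hfree Zq inf_le_left (by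
        exact H1.Coprime2.le_normalizer_inf le_normalizer (H1.Coprime2.le_normalizer_centralizer le_normalizer)) le_rfl
        (by
          have : B ≤ normalizer (Zq : Set X) :=
            H1.Coprime2.le_normalizer_inf hBQ (H1.Coprime2.le_normalizer_centralizer hBQ)
          exact this (mem_zpowers b)) d' (hRdle hd'.1)
      have h1 : b * d' = d' * b := mem_centralizer_iff.mp hd'.2 b (mem_zpowers b)
      rw [(commutatorElement_eq_one_iff_mul_comm).mpr h1.symm]
      exact one_mem _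
    have hd'' : y⁻¹ * d' * y ∈ Zq := by
      have h1 : S ≤ normalizer (Zq : Set X) :=
        H1.Coprime2.le_normalizer_inf hSQ (H1.Coprime2.le_normalizer_centralizer hSQ)
      have h2 := (mem_normalizer_iff.mp (inv_mem (h1 hy)) d').mp hd'Z
      rwa [inv_inv] at h2
    have e : y⁻¹ * (u * d') * y = (y⁻¹ * u * y) * (y⁻¹ * d' * y) := by group
    rw [e, hμchar.mul _ (H1.Coprime2.commutator_le_left hBRd hu') _ (hZRd hd''),
      hμchar.mul _ huRd _ (hZRd hd'Z), hμtriv _ hu', hμtriv _ hu, hμχ _ hd'', hμχ _ hd'Z, hSχ y hy d' hd'Z]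
  have hWx : ∀ w ∈ W ρ hQQ hχ μ, ρ x w ∈ W ρ hQQ hχ μ := by
    intro w hw
    constructor
    · exact map_wt_stb (hAB := hSRd) (a := x) ⟨hxS, hxμ x hxS⟩ hw.1
    · have h1 : S ≤ normalizer (Zq : Set X) :=
        H1.Coprime2.le_normalizer_inf hSQ (H1.Coprime2.le_normalizer_centralizer hSQ)
      exact map_wt_stb (hAB := h1) (a := x) ⟨hxS, hSχ x hxS⟩ hw.2
  refine crit_final2 hcd hW hQK hbx hbQ (hSQ hxS) hbW hWx hbmem hp3 hpK (by
      intro i hi0 hip x hx hxi
      exact hbfree i (fun h => absurd (Nat.le_of_dvd hi0 h) (by omega)) x hx hxi) (by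
      intro w _
      rw [hbp, map_one]; rfl) (by
      have : p - 1 = N := by omega
      rw [this]; exact hN) (M := p * s) (by
      have := hs.out.two_le
      nlinarith) ?_
  intro i hi0 hiM y hy hyi
  have hbxRd : b * x ∈ normalizer (Rd : Set X) := mul_mem hbRd (hSRd hxS)
  by_cases hpi : p ∣ i
  · obtain ⟨j, rfl⟩ := hpi
    have hj0 : 0 < j := by
      rcases Nat.eq_zero_or_pos j with h | h
      · rw [h, mul_zero] at hi0; exact absurd hi0 (lt_irrefl 0)
      · exact h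
    have hjs : j < s := lt_of_mul_lt_mul_left hiM (Nat.zero_le p)
    have h1 : (b * x) ^ (p * j) = x ^ (p * j) := by
      rw [hmulpow, pow_mul, hbp, one_pow, one_mul]
    rw [h1] at hyi
    refine hwfree (x ^ (p * j)) (S.pow_mem hxS _) ?_ y hy hyi
    intro hT
    apply hxT
    have hcop : Nat.Coprime (p * j) s := by
      apply Nat.Coprime.mul_left
      · exact (Nat.coprime_primes hp.out hs.out).mpr hsp.symm
      · exact ((Nat.Prime.coprime_iff_not_dvd hs.out).mpr
          (fun h => absurd (Nat.le_of_dvd hj0 h) (by omega))).symm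
    have h4 := Nat.gcd_eq_gcd_ab (p * j) s
    rw [hcop.gcd_eq_one] at h4
    have h5 : x = (x ^ (p * j)) ^ (Nat.gcdA (p * j) s) * (x ^ s) ^ (Nat.gcdB (p * j) s) := by
      rw [← zpow_natCast, ← zpow_natCast x s, ← zpow_mul, ← zpow_mul, ← zpow_add, ← h4]
      simp
    rw [h5]
    exact mul_mem (T.zpow_mem hT _) (T.zpow_mem hxsT _)
  · have h1 : ⁅y, b ^ (i * s ^ n)⁆ ∈ Rd := by
      apply fix_pow (hQRd hy) (pow_mem hbxRd i) hyi
      have h2 : b ^ (i * s ^ n) = ((b * x) ^ i) ^ s ^ n := by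
        rw [← pow_mul, hmulpow, mul_comm i (s ^ n), pow_mul x, hn, one_pow, mul_one]
      rw [h2]; exact npow_mem_zpowers _ _
    refine hbfree (i * s ^ n) ?_ y hy h1
    intro h
    rcases (Nat.Prime.dvd_mul hp.out).mp h with h | h
    · exact hpi h
    · exact hsn h

end H66.Ward
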