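import Cfsg.Agent.Lib.H66.Level2
import Cfsg.Agent.Lib.H66.WardB

/-!
The decomposition of `Q / Rd` under an involution `z` in the cyclic group `⟨g⟩`: on `[Q, z] Rd / Rd` the element `g`
acts with `(M - 1)²` elements, and it centralizes `C_Q(z)` modulo `Rd`.
-/

set_option autoImplicit false

open Subgroup H66.Weights H66.Crit H66.MinQ H66.Rad
open scoped commutatorElement Pointwise

namespace H66.EF

variable {K V X : Type*} [Field K] [AddCommGroup V] [Module K V] [Group X] [Finite X]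
  {ρ : Representation K X V}

theorem main [IsAlgClosed K] [FiniteDimensional K V]
    {Q : Subgroup X} {χ μ : X → K} (hQQ : ⁅Q, Q⁆ ≤ Q ⊓ centralizer (Q : Set X))
    (hχ : IsChar (Q ⊓ centralizer (Q : Set X)) χ) (hW : W ρ hQQ hχ μ ≠ ⊥)
    (hQs : Group.IsSolvable Q) (hQK : (Nat.card Q : K) ≠ 0)
    {g : X} {M : ℕ} (hMK : (M : K) ≠ 0) (hgQ : g ∈ normalizer (Q : Set X)) (hgM : g ^ M = 1)
    (hgχ : ∀ c ∈ Q ⊓ centralizer (Q : Set X), χ (g⁻¹ * c * g) = χ c)
    (hgW : ∀ w ∈ W ρ hQQ hχ μ, ρ g w ∈ W ρ hQQ hχ μ)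
    (hgfix : ∀ w ∈ W ρ hQQ hχ μ, ρ g w = w → w = 0)
    {z : X} (hzg : z ∈ zpowers g) (hzi : ∀ i : ℕ, 0 < i → i < M → z ∈ zpowers (g ^ i))
    (hcop : (Nat.card (zpowers z)).Coprime (Nat.card Q)) (hE0 : ¬ ⁅Q, zpowers z⁆ ≤ rad hQQ hχ) :
    3 ≤ M ∧ (M - 1) ^ 2 * Nat.card (rad hQQ hχ) = Nat.card (⁅Q, zpowers z⁆ ⊔ rad hQQ hχ : Subgroup X) ∧
      ∀ y ∈ Q ⊓ centralizer (zpowers z : Set X), ⁅y, g⁆ ∈ rad hQQ hχ := by
  classical
  set Zq := Q ⊓ centralizer (Q : Set X) with hZq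
  set Rd := rad hQQ hχ with hRd
  set B := zpowers z with hB
  have hRdle : Rd ≤ Q := rad_le hQQ hχ
  have hZRd : Zq ≤ Rd := center_le hQQ hχ
  have hgRd : g ∈ normalizer (Rd : Set X) := mem_normalizer_rad hQQ hχ hgQ hgχ
  have hGQ : zpowers g ≤ normalizer (Q : Set X) := by rw [zpowers_le]; exact hgQ
  have hGRd : zpowers g ≤ normalizer (Rd : Set X) := by rw [zpowers_le]; exact hgRd
  have hBg : B ≤ zpowers g := by rw [hB, zpowers_le]; exact hzg
  have hBQ : B ≤ normalizer (Q : Set X) := hBg.trans hGQ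
  have hBRd : B ≤ normalizer (Rd : Set X) := hBg.trans hGRd
  have hχg : ∀ e ∈ zpowers g, ∀ c ∈ Zq, χ (e⁻¹ * c * e) = χ c := by
    have h2 : zpowers g ≤ stb (normalizer (Q : Set X)) Zq (by
        exact H1.Coprime2.le_normalizer_inf le_rfl (H1.Coprime2.le_normalizer_centralizer le_rfl)) χ := by
      rw [zpowers_le]
      exact ⟨hgQ, hgχ⟩
    intro e he
    exact (h2 he).2
  have hcomm : ∀ a ∈ zpowers g, ∀ b ∈ zpowers g, a * b = b * a := by
    intro a ha b hb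
    obtain ⟨i, rfl⟩ := mem_zpowers_iff.mp ha
    obtain ⟨j, rfl⟩ := mem_zpowers_iff.mp hb
    rw [← zpow_add, ← zpow_add, add_comm]
  -- the group E
  set E := ⁅Q, B⁆ ⊔ Rd with hE
  have hQBle : ⁅Q, B⁆ ≤ Q := H1.Coprime2.commutator_le_left hBQ
  have hEQ : E ≤ Q := sup_le hQBle hRdle
  have hRdE : Rd ≤ E := le_sup_right
  -- orthogonality
  have hT : ∀ d ∈ Q, ∃ T : Subgroup X, ∀ u, u ∈ T ↔ u ∈ Q ∧ χ ⁅u, d⁆ = 1 := by
    intro d hd
    exact ⟨{ carrier := {u | u ∈ Q ∧ χ ⁅u, d⁆ = 1}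
             one_mem' := ⟨one_mem Q, by rw [commutatorElement_one_left]; exact hχ.one⟩
             mul_mem' := by
               rintro u v ⟨hu, h1⟩ ⟨hv, h2⟩
               refine ⟨mul_mem hu hv, ?_⟩
               rw [comm_mul_left hQQ hu hv hd, hχ.mul _ (comm_mem hQQ hu hd) _ (comm_mem hQQ hv hd), h1, h2,
                 one_mul]
             inv_mem' := by
               rintro u ⟨hu, h1⟩
               refine ⟨inv_mem hu, ?_⟩
               rw [comm_inv_left hQQ hu hd]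
               have h2 := hχ.mul_inv (comm_mem hQQ hu hd)
               rwa [h1, one_mul] at h2 }, fun u => Iff.rfl⟩
  have horth : ∀ d ∈ Q ⊓ centralizer (B : Set X), ∀ u ∈ E, χ ⁅u, d⁆ = 1 := by
    intro d hd
    obtain ⟨T, hTm⟩ := hT d hd.1
    have hdc : ∀ e ∈ B, e * d = d * e := fun e he => mem_centralizer_iff.mp hd.2 e he
    have h1 : ⁅Q, B⁆ ≤ T := by
      rw [commutator_le]
      intro u hu e he
      have heu : e * u⁻¹ * e⁻¹ ∈ Q := (mem_normalizer_iff.mp (hBQ he) _).mp (Q.inv_mem hu)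
      have h3 : ⁅u, e⁆ = u * (e * u⁻¹ * e⁻¹) := by rw [commutatorElement_def]; group
      rw [hTm]
      refine ⟨by rw [h3]; exact mul_mem hu heu, ?_⟩
      rw [h3, comm_mul_left hQQ hu heu hd.1, hχ.mul _ (comm_mem hQQ hu hd.1) _ (comm_mem hQQ heu hd.1)]
      have h4 : ⁅e * u⁻¹ * e⁻¹, d⁆ = e * ⁅u⁻¹, d⁆ * e⁻¹ := by
        have h5 : d = e * d * e⁻¹ := by rw [hdc e he, mul_inv_cancel_right]
        conv_lhs => rw [h5]
        simp only [commutatorElement_def]; group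
      have h5 := hχg e⁻¹ (inv_mem (hBg he)) ⁅u⁻¹, d⁆ (comm_mem hQQ (Q.inv_mem hu) hd.1)
      rw [inv_inv] at h5
      rw [h4, h5, comm_inv_left hQQ hu hd.1, hχ.mul_inv (comm_mem hQQ hu hd.1)]
    have h2 : E ≤ T := sup_le h1 (fun u hu => (hTm u).mpr ⟨hRdle hu, hu.2 d hd.1⟩)
    intro u hu
    exact ((hTm u).mp (h2 hu)).2
  -- every element of Q is a product
  have hprod : ∀ y ∈ Q, ∃ u ∈ ⁅Q, B⁆, ∃ d ∈ Q ⊓ centralizer (B : Set X), y = u * d := fun y hy =>
    H1.Coprime2.exists_mul_of_mem B Q hBQ hcop (Or.inr hQs) hy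
  have hradE : ∀ x ∈ E, (∀ y ∈ E, χ ⁅x, y⁆ = 1) → x ∈ Rd := by
    intro x hx h
    refine ⟨hEQ hx, ?_⟩
    intro y hy
    obtain ⟨u, hu, d, hd, rfl⟩ := hprod y hy
    rw [comm_mul_right hQQ (hEQ hx) (hQBle hu) hd.1, hχ.mul _ (comm_mem hQQ (hEQ hx) (hQBle hu)) _
      (comm_mem hQQ (hEQ hx) hd.1), h u ((le_sup_left : ⁅Q, B⁆ ≤ E) hu), horth d hd x hx, one_mul]
  have hEC : ∀ x ∈ E, x ∈ Q ⊓ centralizer (B : Set X) → x ∈ Rd := by
    intro x hxE hxC
    apply hradE x hxE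
    intro y hy
    have h1 := horth x hxC y hy
    have h2 := hχ.mul_inv (comm_mem hQQ (hEQ hy) hxC.1)
    rwa [h1, one_mul, commutatorElement_inv] at h2
  -- critical data
  have hcd := cdata (ρ := ρ) hQQ hχ hW
  have hcdE : CData ρ (W ρ hQQ hχ μ) E Rd :=
    { inv := fun x hx w hw => hcd.inv x (hEQ hx) w hw
      le := hRdE
      scal := hcd.scal
      comm := fun x hx y hy => hcd.comm x (hEQ hx) y (hEQ hy)
      nondeg := by
        intro x hx h
        apply hradE x hx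
        intro y hy
        obtain ⟨v, hv, hv0⟩ := (Submodule.ne_bot_iff _).mp hW
        have h2 := h y hy v hv
        rw [hv.2 _ (comm_mem hQQ (hEQ hx) (hEQ hy))] at h2
        exact smul_right_cancel' hv0 (by rw [one_smul]; exact h2) }
  have hEK : (Nat.card E : K) ≠ 0 := cast_card_ne_zero hEQ hQK
  have hGB : zpowers g ≤ normalizer (B : Set X) := by
    apply H1.Coprime.le_normalizer_of_conj_mem
    intro a ha e he
    rw [hcomm a ha e (hBg he), mul_inv_cancel_right]; exact he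
  have hGE : zpowers g ≤ normalizer (E : Set X) :=
    H1.Coprime2.le_normalizer_sup (H1.Coprime2.le_normalizer_commutator hGQ hGB) hGRd
  have hErd : E ≤ normalizer (Rd : Set X) := hEQ.trans (le_normalizer_rad hQQ hχ)
  have hBE : B ≤ normalizer (E : Set X) := hBg.trans hGE
  have hne : Rd ≠ E := by
    intro h
    apply hE0
    rw [h]; exact le_sup_left
  obtain ⟨U, hUW, hU, hUg, hUE, hUirr, hcard, hM3, hspec⟩ := crit_final3 hcdE hW hEK hne (g := g)
    (hGE (mem_zpowers g)) hgW (M := M) hMK (by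
      intro i hi0 hip x hx hxi
      have h1 : ⁅x, z⁆ ∈ Rd := H66.Ward.fix_pow (hErd hx) (hGRd ((zpowers g).pow_mem (mem_zpowers g) i)) hxi
        (hzi i hi0 hip)
      have h4 : B ≤ H66.ShultGross.fixSub Rd x (hErd hx) := by
        rw [hB, zpowers_le]
        refine ⟨hBRd (mem_zpowers z), ?_⟩
        have h4 := Rd.inv_mem h1
        rwa [commutatorElement_inv] at h4
      obtain ⟨d, hd, hxd⟩ := H1.Coprime.exists_fixed_of_coset_fixed B E hBE
        (hcop.coprime_dvd_right (card_dvd_of_le hEQ)) (Or.inr (H1.Coprime.isSolvable_of_le hEQ hQs)) Rd hRdE hErd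
        hBRd x hx (fun e he => (h4 he).2)
      have h5 : d ∈ Rd := hEC d hd.1 ⟨hEQ hd.1, hd.2⟩
      have h6 := mul_mem h5 (Rd.inv_mem hxd)
      rwa [mul_inv_rev, inv_inv, mul_inv_cancel_left] at h6) (by
      intro w _
      rw [hgM, map_one]; rfl) hgfix
  refine ⟨hM3, hcard, ?_⟩
  -- tensor argument
  obtain ⟨u, hu, hu0⟩ := (Submodule.ne_bot_iff _).mp hU
  have hten : ∀ y ∈ Q ⊓ centralizer (B : Set X), ρ (g * y * g⁻¹) u = ρ y u := by
    intro y hy
    apply tensor_comm (hGE (mem_zpowers g)) hgW hMK (by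
      intro w _
      rw [hgM, map_one]; rfl) hgfix hUW hUg hUE hUirr hspec (y := y)
    · intro w hw; exact W_inv hQQ hχ hy.1 hw
    · intro x hx w hw
      have h1 : x * y = ⁅x, y⁆ * (y * x) := by rw [commutatorElement_def]; group
      have h2 : ρ y (ρ x w) ∈ wt ρ Zq χ := (W_inv hQQ hχ hy.1 (W_inv hQQ hχ (hEQ hx) hw)).2
      calc ρ x (ρ y w) = ρ (x * y) w := by rw [map_mul]; rfl
        _ = ρ ⁅x, y⁆ (ρ y (ρ x w)) := by rw [h1, map_mul, map_mul]; rfl
        _ = ρ y (ρ x w) := by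
          rw [h2 _ (comm_mem hQQ (hEQ hx) hy.1), horth y hy x hx, one_smul]
    · exact hu
  have hGC : g ∈ normalizer ((Q ⊓ centralizer (B : Set X) : Subgroup X) : Set X) := by
    have : zpowers g ≤ normalizer ((Q ⊓ centralizer (B : Set X) : Subgroup X) : Set X) :=
      H1.Coprime2.le_normalizer_inf hGQ (H1.Coprime2.le_normalizer_centralizer hGB)
    exact this (mem_zpowers g)
  -- main claim
  have hclaim : ∀ y ∈ Q ⊓ centralizer (B : Set X), y⁻¹ * (g * y * g⁻¹) ∈ Rd := by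
    intro y hy
    have hgy : g * y * g⁻¹ ∈ Q ⊓ centralizer (B : Set X) := (mem_normalizer_iff.mp hGC y).mp hy
    set c := y⁻¹ * (g * y * g⁻¹) with hc
    have hcC : c ∈ Q ⊓ centralizer (B : Set X) := mul_mem (inv_mem hy) hgy
    have hcu : ρ c u = u := by
      rw [hc, map_mul, Module.End.mul_apply, hten y hy, ← Module.End.mul_apply, ← map_mul, inv_mul_cancel, map_one]
      rfl
    refine ⟨hcC.1, ?_⟩
    intro f hf
    obtain ⟨e, he, d, hd, rfl⟩ := hprod f hf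
    have h1 : χ ⁅c, e⁆ = 1 := by
      have h1 := horth c hcC e ((le_sup_left : ⁅Q, B⁆ ≤ E) he)
      have h2 := hχ.mul_inv (comm_mem hQQ (hQBle he) hcC.1)
      rwa [h1, one_mul, commutatorElement_inv] at h2
    have h2 : χ ⁅c, d⁆ = 1 := by
      have hyd := hten (y * d) (mul_mem hy hd)
      have e1 : g * (y * d) * g⁻¹ = (g * y * g⁻¹) * (g * d * g⁻¹) := by group
      rw [e1, map_mul, Module.End.mul_apply, hten d hd, map_mul ρ y d, Module.End.mul_apply] at hyd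
      -- ρ (g y g⁻¹) (ρ d u) = ρ y (ρ d u)
      have h3 : ρ c (ρ d u) = ρ d u := by
        rw [hc, map_mul, Module.End.mul_apply, hyd, ← Module.End.mul_apply, ← map_mul, inv_mul_cancel, map_one]
        rfl
      have h4 : c * d = ⁅c, d⁆ * (d * c) := by rw [commutatorElement_def]; group
      have h5 : ρ d u ∈ wt ρ Zq χ := (W_inv hQQ hχ hd.1 (hUW hu)).2
      have h6 : ρ c (ρ d u) = χ ⁅c, d⁆ • ρ d u := by
        calc ρ c (ρ d u) = ρ (c * d) u := by rw [map_mul ρ c d]; rfl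
          _ = ρ ⁅c, d⁆ (ρ d (ρ c u)) := by rw [h4, map_mul, map_mul]; rfl
          _ = χ ⁅c, d⁆ • ρ d u := by rw [hcu, h5 _ (comm_mem hQQ hcC.1 hd.1)]
      rw [h3] at h6
      have hdu : ρ d u ≠ 0 := by
        intro h
        apply hu0
        have := congrArg (ρ d⁻¹) h
        rwa [← Module.End.mul_apply, ← map_mul, inv_mul_cancel, map_one, map_zero] at this
      exact smul_right_cancel' hdu (by rw [one_smul]; exact h6.symm)
    rw [comm_mul_right hQQ hcC.1 (hQBle he) hd.1, hχ.mul _ (comm_mem hQQ hcC.1 (hQBle he)) _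
      (comm_mem hQQ hcC.1 hd.1), h1, h2, one_mul]
  intro y hy
  have h1 := hclaim y⁻¹ (inv_mem hy)
  have h2 : (y⁻¹)⁻¹ * (g * y⁻¹ * g⁻¹) = ⁅y, g⁆ := by rw [commutatorElement_def]; group
  rwa [h2] at h1

end H66.EF
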