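import Mathlib
import Cfsg.Agent.Lib.H66.Fpf

/-!
Averaging lemma with the norm condition on `P` only.
-/

set_option autoImplicit false

open Subgroup Cfsg
open scoped commutatorElement

namespace H66.Fpf2

open H66.Fpf

variable {G : Type*} [Group G] [Finite G]

/-- Let `P` be a normal `σ`-invariant nilpotent subgroup, `B` a `σ`-invariant subgroup of order prime to
`|P|` on which `σ^i`, `0 < i < n`, is fixed-point-free, and `x σ(x) ⋯ σ^(n-1)(x) = 1` on `P`. Then `B`
centralizes `P`. -/
theorem le_centralizer_of_prod {σ : MulAut G} {n : ℕ} (hn0 : 0 < n) (P B : Subgroup G) [P.Normal] (hP : P.map σ.toMonoidHom = P)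
    (hPn : Group.IsNilpotent P)
    (hprod : ∀ x ∈ P, ((List.range n).map (fun k => (σ ^ k) x)).prod = 1)
    (hB : ∀ b ∈ B, σ b ∈ B) (hcop : (Nat.card B).Coprime (Nat.card P))
    (hfp : ∀ i, 0 < i → i < n → ∀ b ∈ B, (σ ^ i) b = b → b = 1) : B ≤ centralizer (P : Set G) := by
  classical
  -- the action on the abelianization
  let ρ : B →* MulAut (Abelianization P) :=
    { toFun := fun b => (MulAut.conjNormal (b : G) : MulAut P).abelianizationCongr
      map_one' := by
        ext x
        induction x using QuotientGroup.induction_on with
        | H x =>
          change Abelianization.of ((MulAut.conjNormal (1 : G) : MulAut P) x) = Abelianization.of x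
          rw [map_one]; rfl
      map_mul' := by
        intro a b
        ext x
        induction x using QuotientGroup.induction_on with
        | H x =>
          change Abelianization.of ((MulAut.conjNormal ((a * b : B) : G) : MulAut P) x) =
            Abelianization.of ((MulAut.conjNormal (a : G) : MulAut P)
              ((MulAut.conjNormal (b : G) : MulAut P) x))
          rw [Subgroup.coe_mul, map_mul]; rfl }
  have hρ : ∀ (b : B) (x : P), ρ b (Abelianization.of x) =
      Abelianization.of ((MulAut.conjNormal (b : G) : MulAut P) x) := fun b x => rfl
  let σP : P →* P :=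
    { toFun := fun x => ⟨σ x, apply_mem σ hP x.2⟩
      map_one' := by ext; simp
      map_mul' := by intro a b; ext; simp }
  let s : Abelianization P →* Abelianization P := Abelianization.map σP
  have hs : ∀ x : P, s (Abelianization.of x) = Abelianization.of (σP x) := fun x =>
    Abelianization.map_of _ _
  let σB : B → B := fun b => ⟨σ b, hB b b.2⟩
  have hσBi : ∀ i (b : B), ((σB^[i] b : B) : G) = (σ ^ i) b := by
    intro i
    induction i with
    | zero => intro b; rfl
    | succ i ih =>
      intro b
      rw [Function.iterate_succ_apply, ih, pow_succ, MulAut.mul_apply]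
  have hsi : ∀ i (x : P), (s^[i] (Abelianization.of x)) = Abelianization.of (σP^[i] x) := by
    intro i
    induction i with
    | zero => intro x; rfl
    | succ i ih =>
      intro x
      rw [Function.iterate_succ_apply, hs, ih, Function.iterate_succ_apply]
  have hσPi : ∀ i (b : P), ((σP^[i] b : P) : G) = (σ ^ i) b := by
    intro i
    induction i with
    | zero => intro b; rfl
    | succ i ih =>
      intro b
      rw [Function.iterate_succ_apply, ih, pow_succ, MulAut.mul_apply]
      rfl
  have key := averaging ρ (by
      intro v
      have h1 : orderOf v ∣ Nat.card P := by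
        have h2 : Nat.card (Abelianization P) ∣ Nat.card P :=
          Subgroup.card_quotient_dvd_card _
        exact (orderOf_dvd_natCard v).trans h2
      exact (hcop.coprime_dvd_right h1).symm) σB s (by
      intro b v
      induction v using QuotientGroup.induction_on with
      | H x =>
        change s (ρ b (Abelianization.of x)) = ρ (σB b) (s (Abelianization.of x))
        rw [hρ, hs, hs, hρ]
        congr 1
        ext
        simp [σP, σB, MulAut.conjNormal_apply]) n hn0 (by
      intro v
      induction v using QuotientGroup.induction_on with
      | H x =>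
        change ∏ i ∈ Finset.range n, s^[i] (Abelianization.of x) = 1
        rw [Finset.prod_congr rfl (fun i _ => hsi i x)]
        have h1 := hprod (x : G) x.2
        have h2 : ((List.range n).map (fun k => σP^[k] x)).prod = 1 := by
          apply P.subtype_injective
          rw [map_list_prod, List.map_map, map_one, ← h1]
          congr 1
          apply List.map_congr_left
          intro k _
          exact hσPi k x
        have h3 := congrArg Abelianization.of h2
        rw [map_list_prod, List.map_map, map_one] at h3
        rw [← h3, Finset.prod_range]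
        rw [← List.prod_ofFn]
        congr 1
        apply List.ext_getElem
        · simp
        · intro i h1 h2
          simp) (by
      intro i hi0 hin
      have hinj : Function.Injective (fun b : B => b * (σB^[i] b⁻¹)) := by
        intro a b hab
        have h1 : (a : G) * (σ ^ i) (a : G)⁻¹ = b * (σ ^ i) (b : G)⁻¹ := by
          have := congrArg Subtype.val hab
          simpa [hσBi] using this
        have h2 : (σ ^ i) ((b : G)⁻¹ * a) = (b : G)⁻¹ * a := by
          rw [map_mul]
          rw [map_inv, mul_inv_eq_iff_eq_mul] at h1
          rw [map_inv] at h1 ⊢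
          have h3 : (a : G) = b * ((σ ^ i) (b : G))⁻¹ * (σ ^ i) a := h1
          conv_rhs => rw [h3]
          group
        have h3 := hfp i hi0 hin ((b : G)⁻¹ * a) (B.mul_mem (B.inv_mem b.2) a.2) h2
        ext
        exact (inv_mul_eq_one.mp h3).symm
      exact ⟨hinj, Finite.surjective_of_injective hinj⟩)
  -- conclusion
  have hcop' : (Nat.card B).Coprime (Nat.card (frattini P)) :=
    hcop.coprime_dvd_right (Subgroup.card_subgroup_dvd_card _)
  apply H1.Coprime2.le_centralizer_of_frattini B P hcop'
  intro b hb k hk
  have h1 := key ⟨b, hb⟩ (Abelianization.of ⟨k, hk⟩)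
  rw [hρ] at h1
  have h2 : ((MulAut.conjNormal b : MulAut P) ⟨k, hk⟩) * (⟨k, hk⟩ : P)⁻¹ ∈ commutator P := by
    rw [← Abelianization.ker_of, MonoidHom.mem_ker, map_mul, map_inv]
    rw [h1, mul_inv_cancel]
  have h3 : commutator P ≤ frattini P := H1.Frat.commutator_le_frattini
  refine ⟨_, h3 h2, ?_⟩
  simp [MulAut.conjNormal_apply]


/-- `(v x)^n = (∏_{i<n} x^i v x^{-i}) x^n`. -/
theorem mul_pow_eq_prod {G : Type*} [Group G] (v x : G) (n : ℕ) :
    (v * x) ^ n = ((List.range n).map (fun k => (MulAut.conj x ^ k) v)).prod * x ^ n := by
  induction n with
  | zero => simp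
  | succ n ih =>
    rw [pow_succ, ih, List.range_succ, List.map_append, List.prod_append, List.map_singleton,
      List.prod_singleton, ← map_pow, MulAut.conj_apply]
    group

end H66.Fpf2
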