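import Cfsg.Agent.Lib.H66.WardB
import Cfsg.Agent.Lib.H26.SupCard

/-!
The core of Ward's theorem.
-/

set_option autoImplicit false

open Subgroup H66.Weights H66.Crit H66.MinQ H66.Rad
open scoped commutatorElement Pointwise

namespace H66.Ward

variable {X : Type*} [Group X] [Finite X]

theorem exists_npow {a c : X} (h : c ∈ zpowers a) : ∃ i : ℕ, c = a ^ i := by
  classical
  rw [mem_zpowers_iff_mem_range_orderOf] at h
  obtain ⟨i, _, hi⟩ := Finset.mem_image.mp h
  exact ⟨i, hi.symm⟩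

theorem exists_ab {p : ℕ} [hp : Fact p.Prime] {A : Subgroup X}
    (hAc : ∀ a ∈ A, ∀ b ∈ A, a * b = b * a) (hAp : ∀ a ∈ A, a ^ p = 1) (hAcard : Nat.card A = p ^ 2)
    {a b : X} (ha : a ∈ A) (ha1 : a ≠ 1) (hb : b ∈ A) (hba : b ∉ zpowers a) :
    ∀ c ∈ A, ∃ i j : ℕ, c = a ^ i * b ^ j := by
  classical
  let T : Subgroup X :=
    { carrier := {c | c ∈ A ∧ ∃ i j : ℤ, c = a ^ i * b ^ j}
      one_mem' := ⟨one_mem A, 0, 0, by simp⟩
      mul_mem' := by
        rintro c c' ⟨hc, i, j, rfl⟩ ⟨hc', i', j', rfl⟩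
        refine ⟨mul_mem hc hc', i + i', j + j', ?_⟩
        have h1 : b ^ j * a ^ i' = a ^ i' * b ^ j := hAc _ (A.zpow_mem hb _) _ (A.zpow_mem ha _)
        rw [zpow_add, zpow_add]
        calc a ^ i * b ^ j * (a ^ i' * b ^ j') = a ^ i * (b ^ j * a ^ i') * b ^ j' := by group
          _ = a ^ i * (a ^ i' * b ^ j) * b ^ j' := by rw [h1]
          _ = a ^ i * a ^ i' * (b ^ j * b ^ j') := by group
      inv_mem' := by
        rintro c ⟨hc, i, j, rfl⟩
        refine ⟨inv_mem hc, -i, -j, ?_⟩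
        have h1 : b ^ (-j) * a ^ (-i) = a ^ (-i) * b ^ (-j) := hAc _ (A.zpow_mem hb _) _ (A.zpow_mem ha _)
        rw [mul_inv_rev, ← zpow_neg, ← zpow_neg, h1] }
  have hTA : T ≤ A := fun c h => h.1
  have hTa : zpowers a ≤ T := by
    rw [zpowers_le]; exact ⟨ha, 1, 0, by simp⟩
  have hTb : b ∈ T := ⟨hb, 0, 1, by simp⟩
  have hord : orderOf a = p := orderOf_eq_prime (hAp a ha) ha1
  have hT : T = A := by
    apply Subgroup.eq_of_le_of_card_ge hTA
    have h1 : Nat.card T ∣ p ^ 2 := by rw [← hAcard]; exact card_dvd_of_le hTA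
    obtain ⟨k, hk, hk'⟩ := (Nat.dvd_prime_pow hp.out).mp h1
    have h2 : Nat.card (zpowers a) < Nat.card T := by
      apply lt_of_le_of_ne (Nat.le_of_dvd Nat.card_pos (card_dvd_of_le hTa))
      intro h
      have := Subgroup.eq_of_le_of_card_ge hTa h.ge
      rw [this] at hba
      exact hba hTb
    rw [Nat.card_zpowers, hord, hk'] at h2
    have h3 : k = 2 := by
      interval_cases k
      · simp at h2; exact absurd h2 (by have := hp.out.pos; omega)
      · simp at h2
      · rfl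
    rw [hAcard, hk', h3]
  intro c hc
  rw [← hT] at hc
  obtain ⟨_, i, j, hij⟩ := hc
  obtain ⟨i', hi'⟩ := exists_npow (zpow_mem_zpowers a i)
  obtain ⟨j', hj'⟩ := exists_npow (zpow_mem_zpowers b j)
  exact ⟨i', j', by rw [hij, hi', hj']⟩

theorem core {p q r s : ℕ} [hp : Fact p.Prime] [hq : Fact q.Prime] [hr : Fact r.Prime] [hs : Fact s.Prime]
    (hqp : q ≠ p) (hrp : r ≠ p) (hqr : q ≠ r) (hsp : s ≠ p) (hsq : s ≠ q) (R : Subgroup X) [R.Normal]
    (hR : IsPGroup r R) (Q0 : Subgroup X) (hQ0 : IsPGroup q Q0) (hQR : Q0 ⊓ centralizer (R : Set X) = ⊥)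
    (A : Subgroup X) (hAc : ∀ a ∈ A, ∀ b ∈ A, a * b = b * a) (hAp : ∀ a ∈ A, a ^ p = 1)
    (hAcard : Nat.card A = p ^ 2) (hAQ0 : A ≤ normalizer (Q0 : Set X))
    (hAR : R ⊓ centralizer (A : Set X) = ⊥) (hAQ0' : Q0 ⊓ centralizer (A : Set X) = ⊥)
    (S : Subgroup X) (hS : IsPGroup s S) (hAS : A ≤ normalizer (S : Set X)) (hSQ0 : S ≤ normalizer (Q0 : Set X))
    (hAS' : S ⊓ centralizer (A : Set X) = ⊥) (a : X) (ha : a ∈ A) (ha1 : a ≠ 1)
    (haS : ∀ x ∈ S, a * x = x * a) (haQ : Q0 ⊓ centralizer {a} ≤ centralizer (S : Set X)) :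
    S ≤ centralizer (Q0 : Set X) := by
  classical
  by_contra hz
  obtain ⟨Q, hQQ0, hMQ⟩ := exists_MQ (C := S ⊔ A) (D := S) (Q0 := Q0) le_sup_left
    (sup_le le_normalizer hAS) (sup_le hSQ0 hAQ0) hz
  have hQq : IsPGroup q Q := hQ0.to_le hQQ0
  have hQnil : Group.IsNilpotent Q := hQq.isNilpotent
  have hQs : Group.IsSolvable Q := inferInstance
  have hApG : IsPGroup p A := fun x => ⟨1, Subtype.ext (by rw [pow_one]; exact hAp x x.2)⟩
  have hcopA : ∀ B : Subgroup X, B ≤ A → ∀ Y : Subgroup X, Y ≤ Q → (Nat.card B).Coprime (Nat.card Y) := by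
    intro B hB Y hY
    exact IsPGroup.coprime_card_of_ne p q hqp.symm B Y (hApG.to_le hB) (hQq.to_le hY)
  have hcopS : (Nat.card S).Coprime (Nat.card Q) := IsPGroup.coprime_card_of_ne s q hsq S Q hS hQq
  have hAQ : A ≤ normalizer (Q : Set X) := le_sup_right.trans hMQ.inv
  have hSQ : S ≤ normalizer (Q : Set X) := le_sup_left.trans hMQ.inv
  have hQS : ⁅Q, S⁆ = Q := hMQ.commutator_eq hcopS hQs
  have haQS : Q ⊓ centralizer {a} ≤ Q ⊓ centralizer (S : Set X) :=
    le_inf inf_le_left ((inf_le_inf hQQ0 le_rfl).trans haQ)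
  have hQA' : Q ⊓ centralizer (A : Set X) = ⊥ := by
    rw [eq_bot_iff, ← hAQ0']; exact inf_le_inf hQQ0 le_rfl
  -- a generates <a>
  have haord : ∀ c ∈ zpowers a, c ≠ 1 → a ∈ zpowers c := by
    intro c hc hc1
    obtain ⟨i, rfl⟩ := exists_npow hc
    apply mem_zpowers_of_prime (hAp a ha) ha1
    rintro ⟨j, rfl⟩
    exact hc1 (by rw [pow_mul, hAp a ha, one_pow])
  have haA : zpowers a ≤ A := by rw [zpowers_le]; exact ha
  -- centralizer of b in S
  have hbSfix : ∀ b ∈ A, b ∉ zpowers a → ∀ x ∈ S, b * x = x * b → x = 1 := by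
    intro b hb hba x hx hbx
    have h1 : x ∈ S ⊓ centralizer (A : Set X) := by
      refine ⟨hx, mem_centralizer_iff.mpr ?_⟩
      intro c hc
      obtain ⟨i, j, rfl⟩ := exists_ab hAc hAp hAcard ha ha1 hb hba c hc
      have h2 : Commute (a ^ i) x := Commute.pow_left (haS x hx) i
      have h3 : Commute (b ^ j) x := Commute.pow_left hbx j
      exact h2.mul_left h3
    rw [hAS', mem_bot] at h1
    exact h1
  -- field
  let K := AlgebraicClosure (ZMod r)
  have : CharP K r := charP_of_injective_algebraMap (algebraMap (ZMod r) K).injective r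
  have hcast : ∀ n : ℕ, ¬ r ∣ n → (n : K) ≠ 0 := by
    intro n hn h
    exact hn ((CharP.cast_eq_zero_iff K r n).mp h)
  have hcastA : ∀ B : Subgroup X, B ≤ A → (Nat.card B : K) ≠ 0 := by
    intro B hB
    apply hcast
    obtain ⟨n, hn⟩ := IsPGroup.iff_card.mp (hApG.to_le hB)
    rw [hn]
    intro h
    exact hrp ((Nat.prime_dvd_prime_iff_eq hr.out hp.out).mp (hr.out.dvd_of_dvd_pow h))
  have hcastQ : ∀ B : Subgroup X, B ≤ Q → (Nat.card B : K) ≠ 0 := by
    intro B hB
    apply hcast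
    obtain ⟨n, hn⟩ := IsPGroup.iff_card.mp (hQq.to_le hB)
    rw [hn]
    intro h
    exact hqr ((Nat.prime_dvd_prime_iff_eq hr.out hq.out).mp (hr.out.dvd_of_dvd_pow h)).symm
  have hpK : (p : K) ≠ 0 := by
    apply hcast
    intro h
    exact hrp ((Nat.prime_dvd_prime_iff_eq hr.out hp.out).mp h)
  let ρ := H66.HomMod.rep R K
  have hρne : ∀ x : X, ∀ v : H66.HomMod.V R K, v ≠ 0 → ρ x v ≠ 0 := by
    intro x v hv h
    apply hv
    have := congrArg (ρ x⁻¹) h
    rwa [← Module.End.mul_apply, ← map_mul, inv_mul_cancel, map_one, map_zero] at this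
  -- faithfulness
  have hfaith : ∀ Y : Subgroup X, Y ≤ Q → (∀ y ∈ Y, ∀ f : H66.HomMod.V R K, ρ y f = f) → Y = ⊥ := by
    intro Y hY htriv
    have h1 := H66.HomMod.le_centralizer R K hR Y (by
      obtain ⟨n, hn⟩ := IsPGroup.iff_card.mp (hQq.to_le hY)
      rw [hn]
      exact Nat.Coprime.pow_left _ ((Nat.coprime_primes hq.out hr.out).mpr hqr)) htriv
    rw [eq_bot_iff, ← hQR]
    exact le_inf (hY.trans hQQ0) h1
  -- no fixed vectors
  have hfix : ∀ f : H66.HomMod.V R K, (∀ a ∈ A, ρ a f = f) → f = 0 := by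
    intro f hf
    apply H66.HomMod.eq_zero_of_fixed R K A _ _ _ f hf
    · exact IsPGroup.coprime_card_of_ne p r hrp.symm A R hApG hR
    · have : Group.IsNilpotent R := hR.isNilpotent
      exact Or.inr inferInstance
    · exact hAR
  by_cases hab : ∀ x ∈ Q, ∀ y ∈ Q, x * y = y * x
  · -- abelian case
    have hQS' : Q ⊓ centralizer (S : Set X) = ⊥ := hMQ.abelian hcopS hab
    have hW : cmt ρ Q ≠ ⊥ := by
      intro hcon
      have h1 := hfaith Q le_rfl (by
        intro y hy f
        have := mem_cmt (ρ := ρ) hy f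
        rw [hcon, Submodule.mem_bot, sub_eq_zero] at this
        exact this)
      exact hMQ.ne_bot h1
    have key : ∀ (ψ : X → K) (v : H66.HomMod.V R K), v ∈ wt ρ Q ψ → v ∈ cmt ρ Q → v ≠ 0 →
        ∃ c ∈ A, c ∉ zpowers a ∧ (∀ y ∈ Q, ψ (c⁻¹ * y * c) = ψ y) := by
      intro ψ v hv hvc hv0
      have hchar := isChar_of_mem hv hv0
      have hstb : stb A Q hAQ ψ ≠ ⊥ := by
        intro hcon
        apply hv0
        apply orbit hAQ (hcastA A le_rfl) (hcastQ Q le_rfl) (W := ⊤) (fun _ _ _ _ => trivial)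
          (fun w _ hw => hfix w hw) hv trivial
        intro a ha
        rw [hcon, mem_bot] at ha
        rw [ha, map_one]; rfl
      obtain ⟨⟨c, hc⟩, hc1'⟩ := Subgroup.ne_bot_iff_exists_ne_one.mp hstb
      have hc1 : c ≠ 1 := fun h => hc1' (Subtype.ext h)
      refine ⟨c, hc.1, ?_, hc.2⟩
      intro hca
      have h1 : zpowers a ≤ stb A Q hAQ ψ := by
        rw [zpowers_le]
        have : zpowers c ≤ stb A Q hAQ ψ := by rw [zpowers_le]; exact hc
        exact this (haord c hca hc1)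
      have h2 : Q ≤ ⁅Q, zpowers a⁆ := by
        intro y hy
        obtain ⟨u, hu, d, hd, rfl⟩ := H1.Coprime2.exists_mul_of_mem (zpowers a) Q (haA.trans hAQ)
          (hcopA _ haA Q le_rfl) (Or.inr hQs) hy
        have h3 : d ∈ Q ⊓ centralizer (S : Set X) := by
          apply haQS
          exact ⟨hd.1, centralizer_le (by rw [Set.singleton_subset_iff]; exact mem_zpowers a) hd.2⟩
        rw [hQS', mem_bot] at h3
        rw [h3, mul_one]; exact hu
      have htriv : ∀ b ∈ Q, ψ b = 1 := by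
        intro b hb
        exact trivial_on_commutator hchar (haA.trans hAQ) (fun d hd => (h1 hd).2) (h2 hb)
      apply hv0
      apply eq_zero_of_mem_cmt (hcastQ Q le_rfl) hvc
      intro b hb
      rw [hv b hb, htriv b hb, one_smul]
    obtain ⟨χ, hχ⟩ := exists_weight (ρ := ρ) (B := Q) hW (fun b hb w hw => cmt_invariant (le_normalizer hb) hw)
      (fun b hb c hc w _ => by
        rw [← Module.End.mul_apply, ← map_mul, hab b hb c hc, map_mul]; rfl)
    obtain ⟨v, hv, hv0⟩ := (Submodule.ne_bot_iff _).mp hχ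
    have hchar := isChar_of_mem hv.1 hv0
    obtain ⟨b, hb, hba, hbχ⟩ := key χ v hv.1 hv.2 hv0
    set St := stb (normalizer (Q : Set X)) Q le_rfl χ with hSt
    have hbSt : b ∈ St := ⟨hAQ hb, hbχ⟩
    have hu : ∀ x ∈ S, x⁻¹ * b * x * b⁻¹ ∈ St := by
      intro x hx
      obtain ⟨c, hc, hca, hcχ⟩ := key (fun y => χ (x⁻¹ * y * x)) (ρ x v) (map_wt (hSQ hx) hv.1)
        (cmt_invariant (hSQ hx) hv.2) (hρne x v hv0)
      have h1 : x⁻¹ * c * x ∈ St := by
        refine ⟨mul_mem (mul_mem (inv_mem (hSQ hx)) (hAQ hc)) (hSQ hx), ?_⟩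
        intro y hy
        have h2 : x * y * x⁻¹ ∈ Q := (mem_normalizer_iff.mp (hSQ hx) y).mp hy
        have h3 := hcχ _ h2
        have e1 : (x⁻¹ * c * x)⁻¹ * y * (x⁻¹ * c * x) = x⁻¹ * (c⁻¹ * (x * y * x⁻¹) * c) * x := by group
        have e2 : x⁻¹ * (x * y * x⁻¹) * x = y := by group
        rw [e1]
        change χ (x⁻¹ * (c⁻¹ * (x * y * x⁻¹) * c) * x) = χ (x⁻¹ * (x * y * x⁻¹) * x) at h3
        rwa [e2] at h3
      obtain ⟨i, j, hij⟩ := exists_ab hAc hAp hAcard ha ha1 hb hba c hc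
      have hpj : ¬ p ∣ j := by
        rintro ⟨j', rfl⟩
        apply hca
        rw [hij, pow_mul, hAp b hb, one_pow, mul_one]
        exact npow_mem_zpowers a i
      have hb1 : b ≠ 1 := by rintro rfl; exact hba (one_mem _)
      obtain ⟨m, hm⟩ := mem_zpowers_iff.mp (mem_zpowers_of_prime (hAp b hb) hb1 hpj)
      have h2 : c ^ m = (a ^ i) ^ m * b := by
        have h3 : Commute (a ^ i) (b ^ j) := hAc _ (A.pow_mem ha _) _ (A.pow_mem hb _)
        rw [hij, h3.mul_zpow, hm]
      set α := (a ^ i) ^ m with hα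
      have hαa : α ∈ zpowers a := zpow_mem (npow_mem_zpowers a i) m
      have h3 : α * (x⁻¹ * b * x * b⁻¹) ∈ St := by
        have h4 := mul_mem (St.zpow_mem h1 m) (inv_mem hbSt)
        have h5 : (x⁻¹ * c * x) ^ m = x⁻¹ * c ^ m * x := by
          have := conj_zpow (i := m) (a := x⁻¹) (b := c)
          rw [inv_inv] at this
          exact this
        have h6 : Commute α x := by
          obtain ⟨k, hk⟩ := exists_npow hαa
          rw [hk]; exact Commute.pow_left (haS x hx) k
        have h6' : x⁻¹ * α = α * x⁻¹ := (h6.inv_right.eq).symm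
        have h7 : (x⁻¹ * c * x) ^ m * b⁻¹ = α * (x⁻¹ * b * x * b⁻¹) := by
          rw [h5, h2]
          calc x⁻¹ * (α * b) * x * b⁻¹ = (x⁻¹ * α) * b * x * b⁻¹ := by group
            _ = (α * x⁻¹) * b * x * b⁻¹ := by rw [h6']
            _ = α * (x⁻¹ * b * x * b⁻¹) := by group
        rwa [h7] at h4
      set u := x⁻¹ * b * x * b⁻¹ with hudef
      have huS : u ∈ S := by
        have h4 : b * x * b⁻¹ ∈ S := (mem_normalizer_iff.mp (hAS hb) x).mp hx
        have h5 : u = x⁻¹ * (b * x * b⁻¹) := by rw [hudef]; group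
        rw [h5]; exact mul_mem (inv_mem hx) h4
      have hαu : Commute α u := by
        obtain ⟨k, hk⟩ := exists_npow hαa
        rw [hk]; exact Commute.pow_left (haS u huS) k
      have h4 : u ^ p ∈ St := by
        have h5 := St.pow_mem h3 p
        rw [hαu.mul_pow, hAp α (haA hαa), one_mul] at h5
        exact h5
      -- u is a power of u^p
      obtain ⟨n, hn⟩ := hS ⟨u, huS⟩
      have hn' : u ^ s ^ n = 1 := congrArg Subtype.val hn
      have hcop : Nat.Coprime p (s ^ n) := Nat.Coprime.pow_right _ ((Nat.coprime_primes hp.out hs.out).mpr hsp.symm)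
      have h5 := Nat.gcd_eq_gcd_ab p (s ^ n)
      rw [hcop.gcd_eq_one] at h5
      have h6 : u = (u ^ p) ^ (Nat.gcdA p (s ^ n)) := by
        have h7 : u = u ^ ((1 : ℕ) : ℤ) := by simp
        conv_lhs => rw [h7, h5]
        rw [zpow_add, zpow_mul, zpow_mul, zpow_natCast, zpow_natCast, hn', one_zpow, mul_one]
      rw [h6]
      exact St.zpow_mem h4 _
    have hSSt : S ≤ St := by
      let f : S → S := fun x => ⟨(x : X)⁻¹ * b * x * b⁻¹, by
        have h4 : b * x * b⁻¹ ∈ S := (mem_normalizer_iff.mp (hAS hb) x).mp x.2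
        have h5 : (x : X)⁻¹ * b * x * b⁻¹ = (x : X)⁻¹ * (b * x * b⁻¹) := by group
        rw [h5]; exact mul_mem (inv_mem x.2) h4⟩
      have hinj : Function.Injective f := by
        intro x y hxy
        have h1 : (x : X)⁻¹ * b * x * b⁻¹ = (y : X)⁻¹ * b * y * b⁻¹ := congrArg Subtype.val hxy
        have h2 : (x : X)⁻¹ * b * x = (y : X)⁻¹ * b * y := mul_right_cancel h1
        have h3 : b * ((x : X) * (y : X)⁻¹) = ((x : X) * (y : X)⁻¹) * b := by
          calc b * ((x : X) * (y : X)⁻¹) = x * ((x : X)⁻¹ * b * x) * (y : X)⁻¹ := by group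
            _ = x * ((y : X)⁻¹ * b * y) * (y : X)⁻¹ := by rw [h2]
            _ = ((x : X) * (y : X)⁻¹) * b := by group
        have h4 := hbSfix b hb hba _ (mul_mem x.2 (inv_mem y.2)) h3
        exact Subtype.ext (mul_inv_eq_one.mp h4)
      have hsurj : Function.Surjective f := Finite.injective_iff_surjective.mp hinj
      intro y hy
      obtain ⟨x, hx⟩ := hsurj ⟨y, hy⟩
      have h1 : (x : X)⁻¹ * b * x * b⁻¹ = y := congrArg Subtype.val hx
      rw [← h1]; exact hu x x.2
    have htriv : ∀ b ∈ Q, χ b = 1 := by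
      intro b hb
      rw [← hQS] at hb
      exact trivial_on_commutator hchar hSQ (fun d hd => (hSSt hd).2) hb
    apply hv0
    apply eq_zero_of_mem_cmt (hcastQ Q le_rfl) hv.2
    intro b hb
    rw [hv.1 b hb, htriv b hb, one_smul]
  · -- nonabelian case
    have hC := hMQ.nonabelian hcopS hQnil hab
    have hQQ : ⁅Q, Q⁆ ≤ Q ⊓ centralizer (Q : Set X) := by rw [← hC]; exact hMQ.derived hQnil
    set Zq := Q ⊓ centralizer (Q : Set X) with hZq
    have hAZ : A ≤ normalizer (Zq : Set X) :=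
      H1.Coprime2.le_normalizer_inf hAQ (H1.Coprime2.le_normalizer_centralizer hAQ)
    have hQ'ne : ⁅Q, Q⁆ ≠ ⊥ := by
      intro hcon
      rw [commutator_eq_bot_iff_le_centralizer] at hcon
      apply hab
      intro x hx y hy
      exact mem_centralizer_iff.mp (hcon hy) x hx
    have hW : cmt ρ ⁅Q, Q⁆ ≠ ⊥ := by
      intro hcon
      have h1 := hfaith ⁅Q, Q⁆ (hQQ.trans inf_le_left) (by
        intro y hy f
        have := mem_cmt (ρ := ρ) hy f
        rw [hcon, Submodule.mem_bot, sub_eq_zero] at this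
        exact this)
      exact hQ'ne h1
    have hZn : Zq ≤ normalizer ((⁅Q, Q⁆ : Subgroup X) : Set X) :=
      inf_le_left.trans (H1.Coprime2.le_normalizer_commutator_left Q Q)
    obtain ⟨χ, hχ⟩ := exists_weight (ρ := ρ) (B := Zq) hW (fun b hb w hw => cmt_invariant (hZn hb) hw)
      (fun b hb c hc w _ => by
        have h1 : b * c = c * b := mem_centralizer_iff.mp hc.2 b hb.1
        rw [← Module.End.mul_apply, ← map_mul, h1, map_mul]; rfl)
    obtain ⟨v0, hv0, hv00⟩ := (Submodule.ne_bot_iff _).mp hχ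
    have hchar : IsChar Zq χ := isChar_of_mem hv0.1 hv00
    have hχne : ∃ b ∈ ⁅Q, Q⁆, χ b ≠ 1 := by
      by_contra hcon
      push Not at hcon
      apply hv00
      apply eq_zero_of_mem_cmt (hcastQ ⁅Q, Q⁆ (hQQ.trans inf_le_left)) hv0.2
      intro b hb
      rw [hv0.1 b (hQQ hb), hcon b hb, one_smul]
    set Rd := rad hQQ hchar with hRd
    have hRdne : Rd ≠ Q := rad_ne hQQ hchar hχne
    have hRdle : Rd ≤ Q := rad_le hQQ hchar
    have hZRd : Zq ≤ Rd := center_le hQQ hchar
    obtain ⟨μ, hμ⟩ := exists_mu (ρ := ρ) hQQ hchar (by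
      rw [Submodule.ne_bot_iff]; exact ⟨v0, hv0.1, hv00⟩)
    -- stabilizers
    set Al := stb A Zq hAZ χ with hAl
    have hAlA : Al ≤ A := stb_le hAZ
    have hAlRd : Al ≤ normalizer (Rd : Set X) := by
      intro a ha
      exact mem_normalizer_rad hQQ hchar (hAQ (hAlA ha)) ha.2
    set Am := stb Al Rd hAlRd μ with hAm
    have hAmAl : Am ≤ Al := stb_le hAlRd
    have hAmA : Am ≤ A := hAmAl.trans hAlA
    have hfixl : ∀ w ∈ wt ρ Zq χ, (∀ a ∈ Al, ρ a w = w) → w = 0 := by
      intro w hw hwA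
      exact orbit hAZ (hcastA A le_rfl) (hcastQ Zq inf_le_left) (W := ⊤) (fun _ _ _ _ => trivial)
        (fun w _ hw => hfix w hw) hw trivial hwA
    have hfixm : ∀ w ∈ W ρ hQQ hchar μ, (∀ a ∈ Am, ρ a w = w) → w = 0 := by
      intro w hw hwA
      exact orbit hAlRd (hcastA Al hAlA) (hcastQ Rd hRdle) (W := wt ρ Zq χ)
        (fun a ha w hw => map_wt_stb ha hw) hfixl hw.1 hw.2 hwA
    have hAmne : Am ≠ ⊥ := by
      intro hcon
      obtain ⟨w, hw, hw0⟩ := (Submodule.ne_bot_iff _).mp hμ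
      apply hw0
      apply hfixm w hw
      intro a ha
      rw [hcon, mem_bot] at ha
      rw [ha, map_one]; rfl
    -- Al is proper
    have hAlne : Al ≠ A := by
      intro hcon
      obtain ⟨b, hb, hb1⟩ := hχne
      apply hb1
      have h1 : Zq ≤ ⁅Zq, A⁆ := by
        intro y hy
        obtain ⟨u, hu, d, hd, rfl⟩ := H1.Coprime2.exists_mul_of_mem A Zq hAZ
          (hcopA _ le_rfl Zq inf_le_left) (Or.inr (H1.Coprime.isSolvable_of_le inf_le_left hQs)) hy
        have h3 : d ∈ Q ⊓ centralizer (A : Set X) := ⟨hd.1.1, hd.2⟩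
        rw [hQA', mem_bot] at h3
        rw [h3, mul_one]; exact hu
      refine trivial_on_commutator hchar hAZ ?_ (h1 (hQQ hb))
      intro d hd
      rw [← hcon] at hd
      exact hd.2
    -- generator of Am
    obtain ⟨⟨b, hbAm⟩, hb1'⟩ := Subgroup.ne_bot_iff_exists_ne_one.mp hAmne
    have hb1 : b ≠ 1 := fun h => hb1' (Subtype.ext h)
    have hbA : b ∈ A := hAmA hbAm
    have hbord : orderOf b = p := orderOf_eq_prime (hAp b hbA) hb1
    have hbz : zpowers b ≤ Am := by rw [zpowers_le]; exact hbAm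
    have hAmb : Am = zpowers b := by
      symm
      apply Subgroup.eq_of_le_of_card_ge hbz
      rw [Nat.card_zpowers, hbord]
      have h1 : Nat.card Am ∣ p ^ 2 := by rw [← hAcard]; exact card_dvd_of_le hAmA
      obtain ⟨k, hk, hk'⟩ := (Nat.dvd_prime_pow hp.out).mp h1
      have h2 : k ≠ 2 := by
        rintro rfl
        apply hAlne
        apply le_antisymm hAlA
        have h3 : Am = A := Subgroup.eq_of_le_of_card_ge hAmA (by rw [hAcard, hk'])
        rw [← h3]; exact hAmAl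
      rw [hk']
      calc p ^ k ≤ p ^ 1 := Nat.pow_le_pow_right hp.out.pos (by omega)
        _ = p := pow_one p
    have hbχ : ∀ c ∈ Zq, χ (b⁻¹ * c * b) = χ c := (hAmAl hbAm).2
    have hbW : ∀ w ∈ W ρ hQQ hchar μ, ρ b w ∈ W ρ hQQ hchar μ := by
      intro w hw
      exact ⟨map_wt_stb (hAB := hAlRd) hbAm hw.1, map_wt_stb (hAB := hAZ) (hAmAl hbAm) hw.2⟩
    have hbfix : ∀ w ∈ W ρ hQQ hchar μ, ρ b w = w → w = 0 := by
      intro w hw hbw
      apply hfixm w hw
      intro c hc
      rw [hAmb] at hc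
      obtain ⟨j, rfl⟩ := exists_npow hc
      clear hc
      induction j with
      | zero => rw [pow_zero, map_one]; rfl
      | succ j ih => rw [pow_succ, map_mul, Module.End.mul_apply, hbw, ih]
    have hSχ : ∀ x ∈ S, ∀ c ∈ Zq, χ (x⁻¹ * c * x) = χ c := by
      intro x hx c hc
      rw [← hC] at hc
      have h1 : x * c = c * x := mem_centralizer_iff.mp hc.2 x hx
      have h2 : x⁻¹ * c * x = c := by
        rw [mul_assoc, ← h1, inv_mul_cancel_left]
      rw [h2]
    by_cases hba : b ∈ zpowers a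
    · -- config 4
      have haz : a ∈ zpowers b := haord b hba hb1
      refine config4 (ρ := ρ) (p := p) (q := q) (s := s) hsp hqp hQQ hQq hchar hRdne hμ (hcastQ Q le_rfl) hpK
        (hAQ hbA) (hAp b hbA) hb1 hbχ hbW hbfix hS hSQ hSχ ?_ ?_ hQS.ge
      · intro x hx
        obtain ⟨k, rfl⟩ := exists_npow hba
        exact Commute.pow_left (haS x hx) k
      · intro N hNQ hQN hZN hbN x hx hxb
        obtain ⟨c, hc, hxc⟩ := H1.Coprime.exists_fixed_of_coset_fixed (zpowers b) Q
          (by rw [zpowers_le]; exact hAQ hbA) (hcopA _ (by rw [zpowers_le]; exact hbA) Q le_rfl) (Or.inr hQs) N hNQ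
          hQN (by rw [zpowers_le]; exact hbN) x hx (by
            intro e he
            have h1 := fix_pow (hQN hx) hbN hxb he
            have h2 := N.inv_mem h1
            rwa [commutatorElement_inv] at h2)
        have h1 : c ∈ N := by
          apply hZN
          have h0 : c ∈ Q ⊓ centralizer (S : Set X) := by
            apply haQS
            refine ⟨hc.1, ?_⟩
            exact centralizer_le (by rw [Set.singleton_subset_iff]; exact haz) hc.2
          rw [hC] at h0
          exact h0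
        have h2 := N.mul_mem h1 (N.inv_mem hxc)
        rwa [mul_inv_rev, inv_inv, mul_inv_cancel_left] at h2
    · -- config 3
      have hSn : Group.IsNilpotent S := hS.isNilpotent
      refine config3 (ρ := ρ) (p := p) hQQ hchar hRdne hμ hQs (hcastQ Q le_rfl) hpK (hAQ hbA) (hAp b hbA) hb1 hbχ
        hbW hbfix (S := S) inferInstance hSQ hSχ ?_ ?_ ?_ ?_
      · intro x hx
        exact (mem_normalizer_iff.mp (hAS hbA) x).mp hx
      · exact hbSfix b hbA hba
      · rw [hC]; exact hZRd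
      · obtain ⟨n, hn⟩ := IsPGroup.iff_card.mp hQq
        rw [hn]
        apply Nat.Coprime.pow_left
        rw [Nat.Prime.coprime_iff_not_dvd hq.out]
        apply H26.SupCard.not_dvd_card_sup hq.out
        · rw [zpowers_le]; exact hAS hbA
        · intro h
          obtain ⟨m, hm⟩ := IsPGroup.iff_card.mp hS
          rw [hm] at h
          exact hsq ((Nat.prime_dvd_prime_iff_eq hq.out hs.out).mp (hq.out.dvd_of_dvd_pow h)).symm
        · rw [Nat.card_zpowers, hbord]
          intro h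
          exact hqp ((Nat.prime_dvd_prime_iff_eq hq.out hp.out).mp h)

end H66.Ward
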