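import Cfsg.Agent.Lib.H66.EF
import Cfsg.Agent.Lib.H66.WardC

/-!
Three-level lemma for cyclic `2`-groups.
-/

set_option autoImplicit false

open Subgroup H66.Weights H66.Crit H66.MinQ H66.Rad
open scoped commutatorElement Pointwise

namespace H66.HomMod

variable {X : Type*} [Group X] (R : Subgroup X) [hRn : R.Normal] (K : Type*) [Field K]

/-- nonzero homomorphisms killing a proper subgroup -/
theorem exists_ne_zero [Finite X] {r : ℕ} [hr : Fact r.Prime] [CharP K r] (hR : IsPGroup r R)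
    (L : Subgroup R) (hL : L ≠ ⊤) : ∃ f : V R K, (∀ x ∈ L, f (Additive.ofMul x) = 0) ∧ f ≠ 0 := by
  classical
  obtain ⟨M, hM, hLM⟩ : ∃ M : Subgroup R, IsCoatom M ∧ L ≤ M := by
    rcases IsCoatomic.eq_top_or_exists_le_coatom L with h | h
    · exact absurd h hL
    · exact h
  have hRnil : Group.IsNilpotent R := hR.isNilpotent
  have hMn : M.Normal := H1.Frat.normal_of_isCoatom hM
  have hidx : M.index = r := H1.Frat.index_eq_of_isCoatom hR hM
  have hc1 : Nat.card (R ⧸ M) = r := hidx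
  have hc2 : Nat.card (Multiplicative (ZMod r)) = r := by
    rw [Nat.card_congr Multiplicative.toAdd, Nat.card_zmod]
  let e : (R ⧸ M) ≃* Multiplicative (ZMod r) := mulEquivOfPrimeCardEq hc1 hc2
  let c : ZMod r →+ K := (ZMod.castHom (dvd_refl r) K).toAddMonoidHom
  let f : V R K := c.comp (MonoidHom.toAdditiveLeft (e.toMonoidHom.comp (QuotientGroup.mk' M)))
  have hf : ∀ x : R, f (Additive.ofMul x) = 0 ↔ x ∈ M := by
    intro x
    have h1 : f (Additive.ofMul x) = c (Multiplicative.toAdd (e (QuotientGroup.mk' M x))) := rfl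
    rw [h1]
    have hcinj : Function.Injective c := (ZMod.castHom (dvd_refl r) K).injective
    rw [map_eq_zero_iff c hcinj]
    constructor
    · intro h
      have h2 : e (QuotientGroup.mk' M x) = 1 := h
      rw [map_eq_one_iff e e.injective] at h2
      exact (QuotientGroup.eq_one_iff x).mp h2
    · intro h
      have h2 : QuotientGroup.mk' M x = 1 := (QuotientGroup.eq_one_iff x).mpr h
      rw [h2, map_one]; rfl
  refine ⟨f, fun x hx => (hf x).mpr (hLM hx), ?_⟩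
  intro h0
  apply hM.1
  rw [eq_top_iff]
  intro x _
  rw [← hf, h0]; rfl

section ev

variable {X : Type*} [Group X] {Q N : Subgroup X} (hQN : Q ≤ N) [hn : (Q.subgroupOf N).Normal] {K : Type*} [Field K]

/-- evaluation -/
def ev (f : V (Q.subgroupOf N) K) (y : X) (hy : y ∈ Q) : K := f (Additive.ofMul ⟨⟨y, hQN hy⟩, hy⟩)

theorem ev_mul (f : V (Q.subgroupOf N) K) {x y : X} (hx : x ∈ Q) (hy : y ∈ Q) :
    ev hQN f (x * y) (mul_mem hx hy) = ev hQN f x hx + ev hQN f y hy := by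
  rw [ev, ev, ev, ← map_add]; rfl

theorem ev_one (f : V (Q.subgroupOf N) K) : ev hQN f 1 (one_mem Q) = 0 := map_zero f

theorem ev_inv (f : V (Q.subgroupOf N) K) {x : X} (hx : x ∈ Q) :
    ev hQN f x⁻¹ (inv_mem hx) = - ev hQN f x hx := by
  rw [ev, ev, ← map_neg]; rfl

theorem ev_congr (f : V (Q.subgroupOf N) K) {x y : X} (hx : x ∈ Q) (h : x = y) :
    ev hQN f x hx = ev hQN f y (h ▸ hx) := by
  subst h; rfl

include hQN in
theorem conj_mem' {x : X} (hx : x ∈ N) {y : X} (hy : y ∈ Q) : x⁻¹ * y * x ∈ Q := by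
  have := hn.conj_mem ⟨y, hQN hy⟩ hy ⟨x⁻¹, inv_mem hx⟩
  have h2 : x⁻¹ * y * x⁻¹⁻¹ ∈ Q := this
  rwa [inv_inv] at h2

theorem ev_rep (f : V (Q.subgroupOf N) K) {x : X} (hx : x ∈ N) {y : X} (hy : y ∈ Q) :
    ev hQN (rep (Q.subgroupOf N) K ⟨x, hx⟩ f) y hy = ev hQN f (x⁻¹ * y * x) (conj_mem' hQN hx hy) := by
  rw [ev, rep_apply]
  rfl

theorem ext_ev {f f' : V (Q.subgroupOf N) K} (h : ∀ y (hy : y ∈ Q), ev hQN f y hy = ev hQN f' y hy) : f = f' := by
  refine AddMonoidHom.ext (fun r => ?_)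
  exact h (((Additive.toMul r : Q.subgroupOf N) : N) : X) (Additive.toMul r : Q.subgroupOf N).2

/-- subgroup of elements killed by `f` -/
def ker (f : V (Q.subgroupOf N) K) : Subgroup X where
  carrier := {y | ∃ hy : y ∈ Q, ev hQN f y hy = 0}
  one_mem' := ⟨one_mem Q, ev_one hQN f⟩
  mul_mem' := by
    rintro a b ⟨ha, ha'⟩ ⟨hb, hb'⟩
    exact ⟨mul_mem ha hb, by rw [ev_mul hQN f ha hb, ha', hb', add_zero]⟩
  inv_mem' := by
    rintro a ⟨ha, ha'⟩
    exact ⟨inv_mem ha, by rw [ev_inv hQN f ha, ha', neg_zero]⟩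

theorem mem_ker {f : V (Q.subgroupOf N) K} {y : X} : y ∈ ker hQN f ↔ ∃ hy : y ∈ Q, ev hQN f y hy = 0 := Iff.rfl

/-- if `f` is fixed by `x` then commutators `[y, x]` are killed -/
theorem comm_mem_ker {f : V (Q.subgroupOf N) K} {x : X} (hx : x ∈ N)
    (hf : rep (Q.subgroupOf N) K ⟨x, hx⟩ f = f) {y : X} (hy : y ∈ Q) : ⁅y, x⁆ ∈ ker hQN f := by
  have h1 : x * y⁻¹ * x⁻¹ ∈ Q := by
    have := conj_mem' hQN (inv_mem hx) (inv_mem hy)
    rwa [inv_inv] at this
  have h2 := congrArg (fun f' => ev hQN f' (x * y⁻¹ * x⁻¹) h1) hf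
  rw [ev_rep] at h2
  have e : x⁻¹ * (x * y⁻¹ * x⁻¹) * x = y⁻¹ := by group
  rw [ev_congr hQN f _ e, ev_inv hQN f hy] at h2
  have e2 : ⁅y, x⁆ = y * (x * y⁻¹ * x⁻¹) := by rw [commutatorElement_def]; group
  rw [e2]
  refine ⟨mul_mem hy h1, ?_⟩
  rw [ev_mul hQN f hy h1, ← h2, add_neg_cancel]

end ev

end H66.HomMod

namespace H66.Gross

variable {X : Type*} [Group X] [Finite X]

theorem claimA {q r t : ℕ} [hq : Fact q.Prime] [hr : Fact r.Prime] [ht : Fact t.Prime] (hq2 : q ≠ 2)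
    (hr2 : r ≠ 2) (ht2 : t ≠ 2) (hqr : q ≠ r) (htq : t ≠ q) (R : Subgroup X) [R.Normal] (hR : IsPGroup r R)
    (Q0 : Subgroup X) (hQ0 : IsPGroup q Q0) (hQR : Q0 ⊓ centralizer (R : Set X) = ⊥)
    (σ : X) (m : ℕ) (hσ : σ ^ 2 ^ (m + 1) = 1) (hσQ : σ ∈ normalizer (Q0 : Set X))
    (hσR : R ⊓ centralizer {σ} = ⊥) (T0 : Subgroup X) (hT0 : IsPGroup t T0) (hσT : σ ∈ normalizer (T0 : Set X))
    (hTQ : T0 ≤ normalizer (Q0 : Set X)) : ⁅T0, zpowers (σ ^ 2 ^ m)⁆ ≤ centralizer (Q0 : Set X) := by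
  classical
  have h2f : Fact (Nat.Prime 2) := ⟨Nat.prime_two⟩
  by_contra hcon0
  set z := σ ^ 2 ^ m with hzdef
  set A := zpowers σ with hA
  set D := zpowers z with hD
  set T := ⁅T0, D⁆ with hT
  have hDA : D ≤ A := by rw [hD, zpowers_le]; exact npow_mem_zpowers σ _
  have hzD : z ∈ D := mem_zpowers z
  have hzz : z * z = 1 := by
    rw [hzdef, ← pow_add, ← two_mul, ← pow_succ', hσ]
  have hAcomm : ∀ a ∈ A, ∀ b ∈ A, a * b = b * a := by
    intro a ha b hb
    obtain ⟨i, rfl⟩ := mem_zpowers_iff.mp ha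
    obtain ⟨j, rfl⟩ := mem_zpowers_iff.mp hb
    rw [← zpow_add, ← zpow_add, add_comm]
  have hAD : A ≤ normalizer (D : Set X) := by
    apply H1.Coprime.le_normalizer_of_conj_mem
    intro a ha d hd
    rw [hAcomm a ha d (hDA hd), mul_inv_cancel_right]; exact hd
  have hAQ0 : A ≤ normalizer (Q0 : Set X) := by rw [hA, zpowers_le]; exact hσQ
  have hAT0 : A ≤ normalizer (T0 : Set X) := by rw [hA, zpowers_le]; exact hσT
  have hAT : A ≤ normalizer (T : Set X) := H1.Coprime2.le_normalizer_commutator hAT0 hAD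
  have hTT0 : T ≤ T0 := H1.Coprime2.commutator_le_left (hDA.trans hAT0)
  have hA2 : IsPGroup 2 A := by
    intro a
    obtain ⟨i, hi⟩ := mem_zpowers_iff.mp a.2
    refine ⟨m + 1, Subtype.ext ?_⟩
    change (a : X) ^ 2 ^ (m + 1) = 1
    rw [← hi, ← zpow_natCast, ← zpow_mul, mul_comm, zpow_mul, zpow_natCast, hσ, one_zpow]
  have hTt : IsPGroup t T := hT0.to_le hTT0
  have hT0s : Group.IsSolvable T0 := by
    have : Group.IsNilpotent T0 := hT0.isNilpotent
    infer_instance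
  have hTD : ⁅T, D⁆ = T := H1.Coprime2.commutator_commutator_eq D T0 (hDA.trans hAT0)
    (IsPGroup.coprime_card_of_ne 2 t ht2.symm D T0 (hA2.to_le hDA) hT0) (Or.inr hT0s)
  -- minimal Q
  obtain ⟨Q, hQQ0, hMQ⟩ := exists_MQ (C := T ⊔ A) (D := T) (Q0 := Q0) le_sup_left
    (sup_le le_normalizer hAT) (sup_le (hTT0.trans hTQ) hAQ0) hcon0
  have hQq : IsPGroup q Q := hQ0.to_le hQQ0
  have hQnil : Group.IsNilpotent Q := hQq.isNilpotent
  have hQs : Group.IsSolvable Q := inferInstance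
  have hcopT : (Nat.card T).Coprime (Nat.card Q) := IsPGroup.coprime_card_of_ne t q htq T Q hTt hQq
  have hcopA : ∀ B : Subgroup X, B ≤ A → ∀ Y : Subgroup X, Y ≤ Q → (Nat.card B).Coprime (Nat.card Y) := by
    intro B hB Y hY
    exact IsPGroup.coprime_card_of_ne 2 q hq2.symm B Y (hA2.to_le hB) (hQq.to_le hY)
  have hcopDQ := hcopA D hDA Q le_rfl
  have hAQ : A ≤ normalizer (Q : Set X) := le_sup_right.trans hMQ.inv
  have hTQ' : T ≤ normalizer (Q : Set X) := le_sup_left.trans hMQ.inv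
  have hQT : ⁅Q, T⁆ = Q := hMQ.commutator_eq hcopT hQs
  -- z does not centralize Q
  have hDQ : ¬ D ≤ centralizer (Q : Set X) := by
    intro h
    apply hMQ.ne
    rw [← hTD, commutator_le]
    intro x hx d hd
    have h1 : x * d * x⁻¹ ∈ centralizer (Q : Set X) :=
      (mem_normalizer_iff.mp ((H1.Coprime2.le_normalizer_centralizer hTQ') hx) d).mp (h hd)
    rw [commutatorElement_def]
    exact mul_mem h1 (inv_mem (h hd))
  set Q1 := ⁅Q, D⁆ with hQ1
  have hQ1Q : Q1 ≤ Q := H1.Coprime2.commutator_le_left (hDA.trans hAQ)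
  have hQ1ne : Q1 ≠ ⊥ := by
    intro h
    rw [hQ1, commutator_eq_bot_iff_le_centralizer] at h
    exact hDQ (Subgroup.le_centralizer_iff.mp h)
  have hQ1D : ⁅Q1, D⁆ = Q1 := H1.Coprime2.commutator_commutator_eq D Q (hDA.trans hAQ) hcopDQ (Or.inr hQs)
  -- field
  let K := AlgebraicClosure (ZMod r)
  have : CharP K r := charP_of_injective_algebraMap (algebraMap (ZMod r) K).injective r
  have hcast : ∀ n : ℕ, ¬ r ∣ n → (n : K) ≠ 0 := by
    intro n hn h
    exact hn ((CharP.cast_eq_zero_iff K r n).mp h)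
  have hcastA : ∀ B : Subgroup X, B ≤ A → (Nat.card B : K) ≠ 0 := by
    intro B hB
    apply hcast
    obtain ⟨n, hn⟩ := IsPGroup.iff_card.mp (hA2.to_le hB)
    rw [hn]
    intro h
    exact hr2 ((Nat.prime_dvd_prime_iff_eq hr.out Nat.prime_two).mp (hr.out.dvd_of_dvd_pow h))
  have hcastQ : ∀ B : Subgroup X, B ≤ Q → (Nat.card B : K) ≠ 0 := by
    intro B hB
    apply hcast
    obtain ⟨n, hn⟩ := IsPGroup.iff_card.mp (hQq.to_le hB)
    rw [hn]
    intro h
    exact hqr ((Nat.prime_dvd_prime_iff_eq hr.out hq.out).mp (hr.out.dvd_of_dvd_pow h)).symm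
  let ρ := H66.HomMod.rep R K
  -- faithfulness
  have hfaith : ∀ Y : Subgroup X, Y ≤ Q → (∀ y ∈ Y, ∀ f : H66.HomMod.V R K, ρ y f = f) → Y = ⊥ := by
    intro Y hY htriv
    have h1 := H66.HomMod.le_centralizer R K hR Y (by
      obtain ⟨n, hn⟩ := IsPGroup.iff_card.mp (hQq.to_le hY)
      rw [hn]
      exact Nat.Coprime.pow_left _ ((Nat.coprime_primes hq.out hr.out).mpr hqr)) htriv
    rw [eq_bot_iff, ← hQR]
    exact le_inf (hY.trans hQQ0) h1
  have hcmt : ∀ Y : Subgroup X, Y ≤ Q → Y ≠ ⊥ → cmt ρ Y ≠ ⊥ := by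
    intro Y hY hne hcon
    apply hne
    apply hfaith Y hY
    intro y hy f
    have := mem_cmt (ρ := ρ) hy f
    rw [hcon, Submodule.mem_bot, sub_eq_zero] at this
    exact this
  -- no fixed vectors
  have hcentA : centralizer (A : Set X) ≤ centralizer {σ} :=
    centralizer_le (by rw [Set.singleton_subset_iff]; exact mem_zpowers σ)
  have hfix : ∀ f : H66.HomMod.V R K, (∀ a ∈ A, ρ a f = f) → f = 0 := by
    intro f hf
    apply H66.HomMod.eq_zero_of_fixed R K A _ _ _ f hf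
    · exact IsPGroup.coprime_card_of_ne 2 r hr2.symm A R hA2 hR
    · have : Group.IsNilpotent R := hR.isNilpotent
      exact Or.inr inferInstance
    · rw [eq_bot_iff, ← hσR]
      exact inf_le_inf le_rfl hcentA
  have hzmem : ∀ B : Subgroup X, B ≤ A → B ≠ ⊥ → z ∈ B := fun B hB hne =>
    H66.ShultGross.mem_of_ne_bot (p := 2) (m := m) hσ hB hne
  -- z stabilizes all weights of A-invariant subgroups of Q
  have hstab : ∀ (B : Subgroup X) (hBQ : B ≤ Q) (hAB : A ≤ normalizer (B : Set X)) (χ : X → K)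
      (v : H66.HomMod.V R K), v ∈ wt ρ B χ → v ≠ 0 → D ≤ stb A B hAB χ := by
    intro B hBQ hAB χ v hv hv0
    rw [hD, zpowers_le]
    apply hzmem _ (stb_le hAB)
    intro hcon
    apply hv0
    apply orbit hAB (hcastA A le_rfl) (hcastQ B hBQ) (W := ⊤) (fun _ _ _ _ => trivial)
      (fun w _ hw => hfix w hw) hv trivial
    intro a ha
    rw [hcon, mem_bot] at ha
    rw [ha, map_one]; rfl
  by_cases hab : ∀ x ∈ Q, ∀ y ∈ Q, x * y = y * x
  · -- abelian case
    obtain ⟨χ, hχ⟩ := exists_weight (ρ := ρ) (B := Q) (hcmt Q1 hQ1Q hQ1ne)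
      (fun b hb w hw => cmt_invariant ((H1.Coprime2.le_normalizer_commutator_left Q D) hb) hw)
      (fun b hb c hc w _ => by
        rw [← Module.End.mul_apply, ← map_mul, hab b hb c hc, map_mul]; rfl)
    obtain ⟨v, hv, hv0⟩ := (Submodule.ne_bot_iff _).mp hχ
    have hchar := isChar_of_mem hv.1 hv0
    have hDs := hstab Q le_rfl hAQ χ v hv.1 hv0
    apply hv0
    apply eq_zero_of_mem_cmt (hcastQ Q1 hQ1Q) hv.2
    intro b hb
    rw [hv.1 b (hQ1Q hb), trivial_on_commutator hchar (hDA.trans hAQ) (fun d hd => (hDs hd).2) hb, one_smul]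
  -- nonabelian case
  have hC := hMQ.nonabelian hcopT hQnil hab
  have hQQ : ⁅Q, Q⁆ ≤ Q ⊓ centralizer (Q : Set X) := by rw [← hC]; exact hMQ.derived hQnil
  set Zq := Q ⊓ centralizer (Q : Set X) with hZq
  have hAZ : A ≤ normalizer (Zq : Set X) :=
    H1.Coprime2.le_normalizer_inf hAQ (H1.Coprime2.le_normalizer_centralizer hAQ)
  have hZab : ∀ b ∈ Zq, ∀ c ∈ Zq, b * c = c * b := fun b hb c hc => mem_centralizer_iff.mp hc.2 b hb.1
  have hZn : ∀ Y : Subgroup X, Y ≤ Zq → Zq ≤ normalizer (Y : Set X) := by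
    intro Y hY
    apply H1.Coprime.le_normalizer_of_conj_mem
    intro b hb y hy
    rw [hZab b hb y (hY hy), mul_inv_cancel_right]; exact hy
  have hZcomm : ∀ b ∈ Zq, ∀ c ∈ Zq, ∀ w : H66.HomMod.V R K, ρ b (ρ c w) = ρ c (ρ b w) := by
    intro b hb c hc w
    rw [← Module.End.mul_apply, ← map_mul, hZab b hb c hc, map_mul]; rfl
  -- z centralizes Zq
  have hZD : ⁅Zq, D⁆ = ⊥ := by
    by_contra hne
    have hle : ⁅Zq, D⁆ ≤ Zq := H1.Coprime2.commutator_le_left (hDA.trans hAZ)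
    obtain ⟨χ, hχ⟩ := exists_weight (ρ := ρ) (B := Zq) (hcmt _ (hle.trans inf_le_left) hne)
      (fun b hb w hw => cmt_invariant ((hZn _ hle) hb) hw) (fun b hb c hc w _ => hZcomm b hb c hc w)
    obtain ⟨v, hv, hv0⟩ := (Submodule.ne_bot_iff _).mp hχ
    have hchar := isChar_of_mem hv.1 hv0
    have hDs := hstab Zq inf_le_left hAZ χ v hv.1 hv0
    apply hv0
    apply eq_zero_of_mem_cmt (hcastQ _ (hle.trans inf_le_left)) hv.2
    intro b hb
    rw [hv.1 b (hle hb), trivial_on_commutator hchar (hDA.trans hAZ) (fun d hd => (hDs hd).2) hb, one_smul]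
  set Y := ⁅Q1, Q⁆ with hY
  have hYZ : Y ≤ Zq := (commutator_mono hQ1Q le_rfl).trans hQQ
  have hYne : Y ≠ ⊥ := by
    intro h
    rw [hY, commutator_eq_bot_iff_le_centralizer] at h
    apply hQ1ne
    rw [eq_bot_iff, ← hZD]
    calc Q1 = ⁅Q1, D⁆ := hQ1D.symm
      _ ≤ ⁅Zq, D⁆ := commutator_mono (le_inf hQ1Q h) le_rfl
  obtain ⟨χ, hχ⟩ := exists_weight (ρ := ρ) (B := Zq) (hcmt Y (hYZ.trans inf_le_left) hYne)
    (fun b hb w hw => cmt_invariant ((hZn _ hYZ) hb) hw) (fun b hb c hc w _ => hZcomm b hb c hc w)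
  obtain ⟨v0, hv0, hv00⟩ := (Submodule.ne_bot_iff _).mp hχ
  have hchar : IsChar Zq χ := isChar_of_mem hv0.1 hv00
  set Rd := rad hQQ hchar with hRd
  have hRdle : Rd ≤ Q := rad_le hQQ hchar
  have hZRd : Zq ≤ Rd := center_le hQQ hchar
  have hQRd : Q ≤ normalizer (Rd : Set X) := le_normalizer_rad hQQ hchar
  have hQ1Rd : ¬ Q1 ≤ Rd := by
    intro h
    apply hv00
    apply eq_zero_of_mem_cmt (hcastQ Y (hYZ.trans inf_le_left)) hv0.2
    have h1 : Y ≤ Zq ⊓ centralizer (Q : Set X) := le_inf hYZ (hYZ.trans inf_le_right)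
    let S : Subgroup X :=
      { carrier := {b | b ∈ Zq ∧ χ b = 1}
        one_mem' := ⟨one_mem _, hchar.one⟩
        mul_mem' := by
          rintro a c ⟨ha, h1⟩ ⟨hc, h2⟩
          exact ⟨mul_mem ha hc, by rw [hchar.mul a ha c hc, h1, h2, one_mul]⟩
        inv_mem' := by
          rintro a ⟨ha, h1⟩
          refine ⟨inv_mem ha, ?_⟩
          have := hchar.mul_inv ha
          rwa [h1, one_mul] at this }
    have h2 : Y ≤ S := by
      rw [hY, commutator_le]
      intro x hx y hy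
      exact ⟨comm_mem hQQ (hQ1Q hx) hy, (h hx).2 y hy⟩
    intro b hb
    rw [hv0.1 b (hYZ hb), (h2 hb).2, one_smul]
  have hRdne : Rd ≠ Q := fun h => hQ1Rd (by rw [h]; exact hQ1Q)
  obtain ⟨μ, hμ⟩ := exists_mu (ρ := ρ) hQQ hchar (by
    rw [Submodule.ne_bot_iff]; exact ⟨v0, hv0.1, hv00⟩)
  -- stabilizers
  set Al := stb A Zq hAZ χ with hAl
  have hAlA : Al ≤ A := stb_le hAZ
  have hAlRd : Al ≤ normalizer (Rd : Set X) := by
    intro a ha
    exact mem_normalizer_rad hQQ hchar (hAQ (hAlA ha)) ha.2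
  set Am := stb Al Rd hAlRd μ with hAm
  have hAmAl : Am ≤ Al := stb_le hAlRd
  have hAmA : Am ≤ A := hAmAl.trans hAlA
  have hfixl : ∀ w ∈ wt ρ Zq χ, (∀ a ∈ Al, ρ a w = w) → w = 0 := by
    intro w hw hwA
    exact orbit hAZ (hcastA A le_rfl) (hcastQ Zq inf_le_left) (W := ⊤) (fun _ _ _ _ => trivial)
      (fun w _ hw => hfix w hw) hw trivial hwA
  have hfixm : ∀ w ∈ W ρ hQQ hchar μ, (∀ a ∈ Am, ρ a w = w) → w = 0 := by
    intro w hw hwA
    exact orbit hAlRd (hcastA Al hAlA) (hcastQ Rd hRdle) (W := wt ρ Zq χ)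
      (fun a ha w hw => map_wt_stb ha hw) hfixl hw.1 hw.2 hwA
  have hAmne : Am ≠ ⊥ := by
    intro hcon
    obtain ⟨w, hw, hw0⟩ := (Submodule.ne_bot_iff _).mp hμ
    apply hw0
    apply hfixm w hw
    intro a ha
    rw [hcon, mem_bot] at ha
    rw [ha, map_one]; rfl
  -- generator of Am
  obtain ⟨g, hg'⟩ : ∃ g' : X, Am = zpowers g' := by
    have hcyc : IsCyclic A := inferInstance
    have : IsCyclic (Am.subgroupOf A) := inferInstance
    obtain ⟨y, hy⟩ := IsCyclic.exists_generator (α := Am.subgroupOf A)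
    refine ⟨((y : A) : X), le_antisymm ?_ ?_⟩
    · intro a ha
      obtain ⟨k, hk⟩ := mem_zpowers_iff.mp (hy ⟨⟨a, hAmA ha⟩, ha⟩)
      rw [mem_zpowers_iff]
      refine ⟨k, ?_⟩
      have := congrArg (fun t : Am.subgroupOf A => ((t : A) : X)) hk
      simpa using this
    · rw [zpowers_le]; exact y.2
  have hgm : g ∈ Am := by rw [hg']; exact mem_zpowers g
  obtain ⟨M, hM⟩ : ∃ M, M = Nat.card Am := ⟨_, rfl⟩
  have hMord : orderOf g = M := by rw [hM, hg', Nat.card_zpowers]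
  obtain ⟨n1, hn1⟩ := IsPGroup.iff_card.mp (hA2.to_le hAmA)
  rw [← hM] at hn1
  have hgM : g ^ M = 1 := by rw [← hMord]; exact pow_orderOf_eq_one g
  have hzne : z ≠ 1 := by
    intro h
    apply hDQ
    rw [hD, h, zpowers_one_eq_bot]; exact bot_le
  have hzpow : ∀ i : ℕ, 0 < i → i < M → z ∈ zpowers (g ^ i) := by
    intro i hi0 hiM
    apply hzmem _ (by rw [zpowers_le]; exact A.pow_mem (hAmA hgm) i)
    rw [Ne, zpowers_eq_bot]
    intro h
    have := orderOf_dvd_of_pow_eq_one h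
    rw [hMord] at this
    exact absurd (Nat.le_of_dvd hi0 this) (by omega)
  have hgW : ∀ w ∈ W ρ hQQ hchar μ, ρ g w ∈ W ρ hQQ hchar μ := by
    intro w hw
    exact ⟨map_wt_stb (hAB := hAlRd) hgm hw.1, map_wt_stb (hAB := hAZ) (hAmAl hgm) hw.2⟩
  have hgfix : ∀ w ∈ W ρ hQQ hchar μ, ρ g w = w → w = 0 := by
    intro w hw hbw
    apply hfixm w hw
    intro c hc
    rw [hg', mem_zpowers_iff_mem_range_orderOf] at hc
    obtain ⟨j, _, rfl⟩ := Finset.mem_image.mp hc
    clear hc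
    induction j with
    | zero => rw [pow_zero, map_one]; rfl
    | succ j ih =>
      rw [pow_succ, map_mul, Module.End.mul_apply, hbw]
      exact ih (by
        rename_i h
        have := Finset.mem_range.mp h
        exact Finset.mem_range.mpr (by omega))
  obtain ⟨hM3, hcardE, hF⟩ := H66.EF.main (ρ := ρ) hQQ hchar hμ hQs (hcastQ Q le_rfl) (g := g) (M := M)
    (by rw [hM]; exact hcastA Am hAmA) (hAQ (hAmA hgm)) hgM (hAmAl hgm).2 hgW hgfix
    (z := z) (by rw [← hg']; exact hzmem Am hAmA hAmne) hzpow hcopDQ hQ1Rd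
  -- M = 2 ^ (k + 2)
  obtain ⟨k, hk⟩ : ∃ k, n1 = k + 2 := by
    refine ⟨n1 - 2, ?_⟩
    have : 2 ≤ n1 := by
      by_contra hcon
      push Not at hcon
      have : n1 ≤ 1 := by omega
      have h1 : 2 ^ n1 ≤ 2 ^ 1 := Nat.pow_le_pow_right (by norm_num) this
      omega
    omega
  have hMk : M = 2 ^ (k + 2) := by rw [hn1, hk]
  have hzeq : z = g ^ 2 ^ (k + 1) := by
    have h1 := hzpow (2 ^ (k + 1)) (by positivity) (by
      rw [hMk]; exact Nat.pow_lt_pow_right (by norm_num) (by omega))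
    obtain ⟨i, hi⟩ := H66.Ward.exists_npow h1
    have h2 : (g ^ 2 ^ (k + 1)) ^ 2 = 1 := by
      rw [← pow_mul, ← pow_succ, ← hMk, hgM]
    rcases Nat.even_or_odd i with ⟨j, hj⟩ | ⟨j, hj⟩
    · exfalso
      apply hzne
      rw [hi, hj, ← two_mul, pow_mul, h2, one_pow]
    · rw [hi, hj, pow_succ, pow_mul, h2, one_pow, one_mul]
  -- second level
  have hTRd : T ≤ normalizer (Rd : Set X) := by
    intro x hx
    apply mem_normalizer_rad hQQ hchar (hTQ' hx)
    intro c hc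
    have hc' : c ∈ Q ⊓ centralizer (T : Set X) := by rw [hC]; exact hc
    have h1 : x * c = c * x := mem_centralizer_iff.mp hc'.2 x hx
    rw [mul_assoc, ← h1, inv_mul_cancel_left]
  set N := normalizer (Q : Set X) ⊓ normalizer (Rd : Set X) with hN
  have hQN : Q ≤ N := le_inf le_normalizer hQRd
  have hTN : T ≤ N := le_inf hTQ' hTRd
  have hgN : g ∈ N := ⟨hAQ (hAmA hgm), hAlRd (hAmAl hgm)⟩
  have hQnn : (Q.subgroupOf N).Normal :=
    (Subgroup.normal_subgroupOf_iff_le_normalizer hQN).mpr inf_le_left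
  let K' := AlgebraicClosure (ZMod q)
  have : CharP K' q := charP_of_injective_algebraMap (algebraMap (ZMod q) K').injective q
  let ρ1 := H66.HomMod.rep (Q.subgroupOf N) K'
  let W0 : Submodule K' (H66.HomMod.V (Q.subgroupOf N) K') :=
    { carrier := {f | ∀ y (hy : y ∈ Q), y ∈ Rd → H66.HomMod.ev hQN f y hy = 0}
      zero_mem' := fun y hy _ => rfl
      add_mem' := by
        intro a b ha hb y hy hyR
        have h1 : H66.HomMod.ev hQN (a + b) y hy = H66.HomMod.ev hQN a y hy + H66.HomMod.ev hQN b y hy := rfl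
        rw [h1, ha y hy hyR, hb y hy hyR, add_zero]
      smul_mem' := by
        intro c a ha y hy hyR
        have h1 : H66.HomMod.ev hQN (c • a) y hy = c * H66.HomMod.ev hQN a y hy := rfl
        rw [h1, ha y hy hyR, mul_zero] }
  have hW0 : ∀ x : N, ∀ f ∈ W0, ρ1 x f ∈ W0 := by
    rintro ⟨x, hx⟩ f hf y hy hyR
    rw [H66.HomMod.ev_rep hQN f hx hy]
    apply hf
    have := (mem_normalizer_iff.mp (inv_mem hx.2) y).mp hyR
    rwa [inv_inv] at this
  let ρ0 : Representation K' N W0 :=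
    { toFun := fun x => (ρ1 x).restrict (hW0 x)
      map_one' := by ext f; simp
      map_mul' := by intro x y; ext f; simp }
  have hρ0 : ∀ (x : N) (f : W0), ((ρ0 x f : W0) : H66.HomMod.V (Q.subgroupOf N) K') = ρ1 x f := fun _ _ => rfl
  have hcast' : ∀ n : ℕ, ¬ q ∣ n → (n : K') ≠ 0 := by
    intro n hn h
    exact hn ((CharP.cast_eq_zero_iff K' q n).mp h)
  have hzN : z ∈ N := by rw [hzeq]; exact N.pow_mem hgN _
  have hg'z : (⟨g, hgN⟩ : N) ^ 2 ^ (k + 1) = ⟨z, hzN⟩ := Subtype.ext hzeq.symm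
  have hQkill : ∀ f : W0, (∀ x ∈ T, ∀ hx : x ∈ N, ρ1 ⟨x, hx⟩ f = f) → (f : H66.HomMod.V (Q.subgroupOf N) K') = 0 := by
    intro f hf
    apply H66.HomMod.ext_ev hQN
    intro y hy
    have h1 : Q ≤ H66.HomMod.ker hQN (f : H66.HomMod.V (Q.subgroupOf N) K') := by
      conv_lhs => rw [← hQT]
      rw [commutator_le]
      intro y hy x hx
      exact H66.HomMod.comm_mem_ker hQN (hTN hx) (hf x hx (hTN hx)) hy
    obtain ⟨_, h2⟩ := h1 hy
    rw [h2]; rfl
  have hDz : ∀ d ∈ D, d = 1 ∨ d = z := by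
    intro d hd
    obtain ⟨i, rfl⟩ := H66.Ward.exists_npow hd
    have h2 : z ^ 2 = 1 := by rw [sq, hzz]
    rcases Nat.even_or_odd i with ⟨j, hj⟩ | ⟨j, hj⟩
    · left; rw [hj, ← two_mul, pow_mul, h2, one_pow]
    · right; rw [hj, pow_succ, pow_mul, h2, one_pow, one_mul]
  have hfix2 : ∀ f : W0, ρ0 ((⟨g, hgN⟩ : N) ^ 2 ^ (k + 1)) f = f → ρ0 ⟨g, hgN⟩ f = f := by
    intro f hf
    rw [hg'z] at hf
    have hf' : ρ1 ⟨z, hzN⟩ (f : H66.HomMod.V (Q.subgroupOf N) K') = (f : H66.HomMod.V (Q.subgroupOf N) K') := by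
      rw [← hρ0, hf]
    apply Subtype.ext
    rw [hρ0]
    apply H66.HomMod.ext_ev hQN
    intro y hy
    rw [H66.HomMod.ev_rep hQN _ hgN hy]
    have hQ1k : Q1 ≤ H66.HomMod.ker hQN (f : H66.HomMod.V (Q.subgroupOf N) K') := by
      rw [hQ1, commutator_le]
      intro y hy d hd
      rcases hDz d hd with h | h
      · rw [h, commutatorElement_one_right]; exact one_mem _
      · rw [h]
        exact H66.HomMod.comm_mem_ker hQN hzN hf' hy
    obtain ⟨u, hu, c, hc, rfl⟩ := H1.Coprime2.exists_mul_of_mem D Q (hDA.trans hAQ) hcopDQ (Or.inr hQs) hy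
    have hgQ1 : g ∈ normalizer (Q1 : Set X) :=
      (H1.Coprime2.le_normalizer_commutator hAQ hAD) (hAmA hgm)
    have hu' : g⁻¹ * u * g ∈ Q1 := by
      have := (mem_normalizer_iff.mp (inv_mem hgQ1) u).mp hu
      rwa [inv_inv] at this
    have hgC : g ∈ normalizer ((Q ⊓ centralizer (D : Set X) : Subgroup X) : Set X) :=
      (H1.Coprime2.le_normalizer_inf hAQ (H1.Coprime2.le_normalizer_centralizer hAD)) (hAmA hgm)
    have hc' : g⁻¹ * c * g ∈ Q ⊓ centralizer (D : Set X) := by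
      have := (mem_normalizer_iff.mp (inv_mem hgC) c).mp hc
      rwa [inv_inv] at this
    have hR := hF _ hc'
    have e1 : ⁅g⁻¹ * c * g, g⁆ = (g⁻¹ * c * g) * c⁻¹ := by rw [commutatorElement_def]; group
    rw [e1] at hR
    have h1 := f.2 _ (hRdle hR) hR
    rw [H66.HomMod.ev_mul hQN _ hc'.1 (inv_mem hc.1), H66.HomMod.ev_inv hQN _ hc.1, add_neg_eq_zero] at h1
    have e2 : g⁻¹ * (u * c) * g = (g⁻¹ * u * g) * (g⁻¹ * c * g) := by group
    obtain ⟨_, h2⟩ := hQ1k hu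
    obtain ⟨_, h3⟩ := hQ1k hu'
    rw [H66.HomMod.ev_congr hQN _ _ e2, H66.HomMod.ev_mul hQN _ (hQ1Q hu') hc'.1,
      H66.HomMod.ev_mul hQN _ (hQ1Q hu) hc.1, h1, h2, h3]
  have hz2 : ¬ ∀ x ∈ T.subgroupOf N, ∀ f : W0, ρ0 ⁅x, (⟨g, hgN⟩ : N) ^ 2 ^ (k + 1)⁆ f = f := by
    intro h
    rw [hg'z] at h
    have h1 : T ≤ (MonoidHom.ker ρ0).map N.subtype := by
      conv_lhs => rw [← hTD]
      rw [commutator_le]
      intro x hx d hd
      rcases hDz d hd with h' | h'
      · rw [h', commutatorElement_one_right]; exact one_mem _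
      · rw [h']
        refine ⟨⁅(⟨x, hTN hx⟩ : N), (⟨z, hzN⟩ : N)⁆, ?_, rfl⟩
        rw [SetLike.mem_coe, MonoidHom.mem_ker]
        apply LinearMap.ext
        intro v
        rw [h ⟨x, hTN hx⟩ hx v]; rfl
    have hQq' : IsPGroup q (Q.subgroupOf N) := hQq.comap_of_injective N.subtype N.subtype_injective
    obtain ⟨f, hf, hf0⟩ := H66.HomMod.exists_ne_zero (Q.subgroupOf N) K' hQq'
      ((Rd.subgroupOf N).subgroupOf (Q.subgroupOf N)) (by
        intro htop
        apply hRdne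
        apply le_antisymm hRdle
        intro y hy
        have : (⟨⟨y, hQN hy⟩, hy⟩ : Q.subgroupOf N) ∈ (Rd.subgroupOf N).subgroupOf (Q.subgroupOf N) := by
          rw [htop]; trivial
        exact this)
    have hfW : f ∈ W0 := by
      intro y hy hyR
      exact hf ⟨⟨y, hQN hy⟩, hy⟩ hyR
    let fW : W0 := ⟨f, hfW⟩
    have hfin := hQkill fW (by
      intro x hx hxN
      obtain ⟨x', hx', e⟩ := h1 hx
      rw [SetLike.mem_coe, MonoidHom.mem_ker] at hx'
      have e' : x' = ⟨x, hxN⟩ := Subtype.ext e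
      rw [e'] at hx'
      rw [← hρ0, hx']; rfl)
    exact hf0 hfin
  have htK' : (t : K') ≠ 0 := hcast' t (by
      intro h
      exact htq ((Nat.prime_dvd_prime_iff_eq hq.out ht.out).mp h).symm)
  have h2K' : (2 : K') ≠ 0 := by
    have := hcast' 2 (by
      intro h
      exact hq2 ((Nat.prime_dvd_prime_iff_eq hq.out Nat.prime_two).mp h))
    exact_mod_cast this
  have hgT' : (⟨g, hgN⟩ : N) ∈ normalizer ((T.subgroupOf N : Subgroup N) : Set N) := by
    have hgT : g ∈ normalizer (T : Set X) := hAT (hAmA hgm)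
    rw [mem_normalizer_iff]
    intro x
    exact mem_normalizer_iff.mp hgT x
  obtain ⟨ht3, hk0⟩ := H66.Level2.general (K := K') (V := W0) (Γ := N) ρ0 (t := t) ht2 htK' h2K' (T := T.subgroupOf N)
    (hTt.comap_of_injective N.subtype N.subtype_injective) (g := ⟨g, hgN⟩) (k := k) (by
      apply Subtype.ext
      change g ^ 2 ^ (k + 2) = 1
      rw [← hMk, hgM]) hgT' hfix2 hz2
  -- contradiction
  have hM4 : M = 4 := by rw [hMk, hk0]; norm_num
  rw [hM4] at hcardE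
  have h3 : 3 ∣ Nat.card Q := by
    have h4 : Nat.card (⁅Q, zpowers z⁆ ⊔ rad hQQ hchar : Subgroup X) ∣ Nat.card Q :=
      card_dvd_of_le (sup_le hQ1Q hRdle)
    refine Dvd.dvd.trans ?_ h4
    rw [← hcardE]
    exact ⟨3 * Nat.card (rad hQQ hchar), by ring⟩
  obtain ⟨n, hn⟩ := IsPGroup.iff_card.mp hQq
  rw [hn] at h3
  have h5 := (Nat.prime_dvd_prime_iff_eq Nat.prime_three hq.out).mp (Nat.prime_three.dvd_of_dvd_pow h3)
  exact htq (ht3.trans h5)

end H66.Gross
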