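import Cfsg.Agent.Lib.H66.GrossA

/-!
Three-level lemma for a cyclic group of order 4.
-/

set_option autoImplicit false

open Subgroup H66.Weights H66.Crit H66.MinQ H66.Rad
open scoped commutatorElement Pointwise

namespace H66.Gross

variable {X : Type*} [Group X] [Finite X]

theorem inverts {σ : X} {K : Subgroup X} (hσK : σ ∈ normalizer (K : Set X)) (hfix : K ⊓ centralizer {σ} = ⊥)
    (h2 : ∀ x ∈ K, σ ^ 2 * x = x * σ ^ 2) : ∀ x ∈ K, σ * x * σ⁻¹ = x⁻¹ := by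
  have hmem : ∀ x ∈ K, σ * x * σ⁻¹ ∈ K := fun x hx => (mem_normalizer_iff.mp hσK x).mp hx
  let f : K → K := fun x => x⁻¹ * ⟨σ * x * σ⁻¹, hmem x x.2⟩
  have hinj : Function.Injective f := by
    intro x y hxy
    have h1 : (x : X)⁻¹ * (σ * x * σ⁻¹) = (y : X)⁻¹ * (σ * y * σ⁻¹) := congrArg Subtype.val hxy
    have h3 : (y : X) * (x : X)⁻¹ ∈ K ⊓ centralizer {σ} := by
      refine ⟨K.mul_mem y.2 (K.inv_mem x.2), mem_centralizer_singleton_iff.mpr ?_⟩
      calc (y : X) * (x : X)⁻¹ * σ = y * ((x : X)⁻¹ * (σ * x * σ⁻¹)) * σ * (x : X)⁻¹ := by group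
        _ = y * ((y : X)⁻¹ * (σ * y * σ⁻¹)) * σ * (x : X)⁻¹ := by rw [h1]
        _ = σ * ((y : X) * (x : X)⁻¹) := by group
    rw [hfix, mem_bot, mul_inv_eq_one] at h3
    exact Subtype.ext h3.symm
  have hsurj : Function.Surjective f := Finite.injective_iff_surjective.mp hinj
  intro y hy
  obtain ⟨x, hx⟩ := hsurj ⟨y, hy⟩
  have h1 : (x : X)⁻¹ * (σ * x * σ⁻¹) = y := congrArg Subtype.val hx
  have h3 := h2 x x.2
  have h4 : σ * (σ * x * σ⁻¹) * σ⁻¹ = x := by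
    calc σ * (σ * x * σ⁻¹) * σ⁻¹ = (σ ^ 2 * x) * (σ ^ 2)⁻¹ := by rw [sq]; group
      _ = x := by rw [h3, mul_inv_cancel_right]
  calc σ * y * σ⁻¹ = (σ * (x : X) * σ⁻¹)⁻¹ * (σ * (σ * x * σ⁻¹) * σ⁻¹) := by rw [← h1]; group
    _ = (σ * (x : X) * σ⁻¹)⁻¹ * x := by rw [h4]
    _ = y⁻¹ := by rw [← h1]; group

theorem claimB {q r t : ℕ} [hq : Fact q.Prime] [hr : Fact r.Prime] [ht : Fact t.Prime] (hq2 : q ≠ 2)
    (hr2 : r ≠ 2) (ht2 : t ≠ 2) (hqr : q ≠ r) (htq : t ≠ q) (R : Subgroup X) [R.Normal] (hR : IsPGroup r R)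
    (Q0 : Subgroup X) (hQ0 : IsPGroup q Q0) (hQR : Q0 ⊓ centralizer (R : Set X) = ⊥)
    (σ : X) (hσ0 : σ ^ 2 ^ (1 + 1) = 1) (hσQ : σ ∈ normalizer (Q0 : Set X))
    (hσR : R ⊓ centralizer {σ} = ⊥) (hσQ' : Q0 ⊓ centralizer {σ} = ⊥) (T0 : Subgroup X) (hT0 : IsPGroup t T0)
    (hσT : σ ∈ normalizer (T0 : Set X)) (hσT' : T0 ⊓ centralizer {σ} = ⊥)
    (hTQ : T0 ≤ normalizer (Q0 : Set X)) : T0 ≤ centralizer (Q0 : Set X) := by
  classical
  have h2f : Fact (Nat.Prime 2) := ⟨Nat.prime_two⟩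
  obtain ⟨m, hm⟩ : ∃ m : ℕ, m = 1 := ⟨1, rfl⟩
  have hσ : σ ^ 2 ^ (m + 1) = 1 := by rw [hm]; exact hσ0
  have hclA := claimA hq2 hr2 ht2 hqr htq R hR Q0 hQ0 hQR σ m hσ hσQ hσR T0 hT0 hσT hTQ
  set z := σ ^ 2 ^ m with hzdef
  set A := zpowers σ with hA
  set D := zpowers z with hD
  have hDA : D ≤ A := by rw [hD, zpowers_le]; exact npow_mem_zpowers σ _
  have hzD : z ∈ D := mem_zpowers z
  have hzsq : z = σ ^ 2 := by rw [hzdef, hm, pow_one]
  have hzz : z * z = 1 := by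
    rw [hzdef, ← pow_add, ← two_mul, ← pow_succ', hσ]
  have hAcomm : ∀ a ∈ A, ∀ b ∈ A, a * b = b * a := by
    intro a ha b hb
    obtain ⟨i, rfl⟩ := mem_zpowers_iff.mp ha
    obtain ⟨j, rfl⟩ := mem_zpowers_iff.mp hb
    rw [← zpow_add, ← zpow_add, add_comm]
  have hAD : A ≤ normalizer (D : Set X) := by
    apply H1.Coprime.le_normalizer_of_conj_mem
    intro a ha d hd
    rw [hAcomm a ha d (hDA hd), mul_inv_cancel_right]; exact hd
  have hAQ0 : A ≤ normalizer (Q0 : Set X) := by rw [hA, zpowers_le]; exact hσQ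
  have hAT0 : A ≤ normalizer (T0 : Set X) := by rw [hA, zpowers_le]; exact hσT
  have hA2 : IsPGroup 2 A := by
    intro a
    obtain ⟨i, hi⟩ := mem_zpowers_iff.mp a.2
    refine ⟨m + 1, Subtype.ext ?_⟩
    change (a : X) ^ 2 ^ (m + 1) = 1
    rw [← hi, ← zpow_natCast, ← zpow_mul, mul_comm, zpow_mul, zpow_natCast, hσ, one_zpow]
  have hT0s : Group.IsSolvable T0 := by
    have : Group.IsNilpotent T0 := hT0.isNilpotent
    infer_instance
  have hcopDT : (Nat.card D).Coprime (Nat.card T0) :=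
    IsPGroup.coprime_card_of_ne 2 t ht2.symm D T0 (hA2.to_le hDA) hT0
  -- reduction to the centralizer of z
  set T := T0 ⊓ centralizer (D : Set X) with hT
  have hTT0 : T ≤ T0 := inf_le_left
  suffices hcon0' : T ≤ centralizer (Q0 : Set X) by
    intro x hx
    obtain ⟨u, hu, d, hd, rfl⟩ := H1.Coprime2.exists_mul_of_mem D T0 (hDA.trans hAT0) hcopDT (Or.inr hT0s) hx
    exact mul_mem (hclA hu) (hcon0' hd)
  by_contra hcon0
  have hAT : A ≤ normalizer (T : Set X) :=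
    H1.Coprime2.le_normalizer_inf hAT0 (H1.Coprime2.le_normalizer_centralizer hAD)
  have hTt : IsPGroup t T := hT0.to_le hTT0
  -- minimal Q
  obtain ⟨Q, hQQ0, hMQ⟩ := exists_MQ (C := T ⊔ A) (D := T) (Q0 := Q0) le_sup_left
    (sup_le le_normalizer hAT) (sup_le (hTT0.trans hTQ) hAQ0) hcon0
  have hQq : IsPGroup q Q := hQ0.to_le hQQ0
  have hQnil : Group.IsNilpotent Q := hQq.isNilpotent
  have hQs : Group.IsSolvable Q := inferInstance
  have hcopT : (Nat.card T).Coprime (Nat.card Q) := IsPGroup.coprime_card_of_ne t q htq T Q hTt hQq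
  have hcopA : ∀ B : Subgroup X, B ≤ A → ∀ Y : Subgroup X, Y ≤ Q → (Nat.card B).Coprime (Nat.card Y) := by
    intro B hB Y hY
    exact IsPGroup.coprime_card_of_ne 2 q hq2.symm B Y (hA2.to_le hB) (hQq.to_le hY)
  have hcopDQ := hcopA D hDA Q le_rfl
  have hAQ : A ≤ normalizer (Q : Set X) := le_sup_right.trans hMQ.inv
  have hTQ' : T ≤ normalizer (Q : Set X) := le_sup_left.trans hMQ.inv
  have hQT : ⁅Q, T⁆ = Q := hMQ.commutator_eq hcopT hQs
  have hσTinv : ∀ x ∈ T, σ * x * σ⁻¹ = x⁻¹ := by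
    apply inverts (hAT (mem_zpowers σ))
    · rw [eq_bot_iff, ← hσT']; exact inf_le_inf hTT0 le_rfl
    · intro x hx
      rw [← hzsq]
      exact mem_centralizer_iff.mp hx.2 z hzD
  have hσQinv : ∀ Y : Subgroup X, Y ≤ Q → A ≤ normalizer (Y : Set X) → Y ≤ centralizer (D : Set X) →
      ∀ x ∈ Y, σ * x * σ⁻¹ = x⁻¹ := by
    intro Y hY hAY hYD
    apply inverts (hAY (mem_zpowers σ))
    · rw [eq_bot_iff, ← hσQ']; exact inf_le_inf (hY.trans hQQ0) le_rfl
    · intro x hx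
      rw [← hzsq]
      exact mem_centralizer_iff.mp (hYD hx) z hzD
  have hTAD : T ⊔ A ≤ normalizer (D : Set X) := by
    apply sup_le _ hAD
    apply H1.Coprime.le_normalizer_of_conj_mem
    intro x hx d hd
    rw [← mem_centralizer_iff.mp hx.2 d hd, mul_inv_cancel_right]; exact hd
  set Q1 := ⁅Q, D⁆ with hQ1
  have hQ1Q : Q1 ≤ Q := H1.Coprime2.commutator_le_left (hDA.trans hAQ)
  -- case C_Q(D) = Q
  have hQD : ¬ Q ≤ centralizer (D : Set X) := by
    intro h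
    apply hMQ.ne
    have hinv := hσQinv Q le_rfl hAQ h
    intro x hx
    rw [mem_centralizer_iff]
    intro y hy
    have h1 : x * y * x⁻¹ ∈ Q := (mem_normalizer_iff.mp (hTQ' hx) y).mp hy
    have h2 := hinv _ h1
    have h3 : σ * (x * y * x⁻¹) * σ⁻¹ = (σ * x * σ⁻¹) * (σ * y * σ⁻¹) * (σ * x * σ⁻¹)⁻¹ := by group
    rw [h3, hσTinv x hx, hinv y hy] at h2
    have h4 : x ^ 2 * y⁻¹ = y⁻¹ * x ^ 2 := by
      have h5 : x⁻¹ * y⁻¹ * x⁻¹⁻¹ = x * y⁻¹ * x⁻¹ := by rw [h2]; group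
      calc x ^ 2 * y⁻¹ = x * (x * y⁻¹ * x⁻¹) * x := by rw [sq]; group
        _ = x * (x⁻¹ * y⁻¹ * x⁻¹⁻¹) * x := by rw [h5]
        _ = y⁻¹ * x ^ 2 := by rw [sq]; group
    have h5 : Commute (x ^ 2) y := by
      have : Commute (x ^ 2) y⁻¹ := h4
      exact Commute.inv_right_iff.mp this
    -- x is a power of x^2
    obtain ⟨n, hn⟩ := hTt ⟨x, hx⟩
    have hn' : x ^ t ^ n = 1 := congrArg Subtype.val hn
    obtain ⟨c, hc⟩ : Odd (t ^ n) := (ht.out.odd_of_ne_two ht2).pow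
    have h6 : x = (x ^ 2) ^ (c + 1) := by
      rw [← pow_mul]
      have : 2 * (c + 1) = t ^ n + 1 := by omega
      rw [this, pow_add, hn', one_mul, pow_one]
    rw [h6]
    exact (h5.pow_left (c + 1)).symm
  have hTC1 : T ≤ centralizer ((Q ⊓ centralizer (D : Set X) : Subgroup X) : Set X) := by
    apply hMQ.min _ inf_le_left
    · intro h
      apply hQD
      rw [inf_eq_left] at h
      exact h
    · exact H1.Coprime2.le_normalizer_inf hMQ.inv (H1.Coprime2.le_normalizer_centralizer hTAD)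
  have hQ1eq : Q1 = Q := by
    by_contra hne
    have h1 := hMQ.min Q1 hQ1Q hne (H1.Coprime2.le_normalizer_commutator hMQ.inv hTAD)
    apply hMQ.ne
    intro x hx
    rw [mem_centralizer_iff]
    intro y hy
    obtain ⟨u, hu, d, hd, rfl⟩ := H1.Coprime2.exists_mul_of_mem D Q (hDA.trans hAQ) hcopDQ (Or.inr hQs) hy
    have h2 : u * x = x * u := mem_centralizer_iff.mp (h1 hx) u hu
    have h3 : d * x = x * d := mem_centralizer_iff.mp (hTC1 hx) d hd
    rw [mul_assoc, h3, ← mul_assoc, h2, mul_assoc]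
  have hQ1ne : Q1 ≠ ⊥ := by rw [hQ1eq]; exact hMQ.ne_bot
  have hQ1D : ⁅Q1, D⁆ = Q1 := H1.Coprime2.commutator_commutator_eq D Q (hDA.trans hAQ) hcopDQ (Or.inr hQs)
  have hDQ : ¬ D ≤ centralizer (Q : Set X) := fun h => hQD (Subgroup.le_centralizer_iff.mp h)
  -- field
  let K := AlgebraicClosure (ZMod r)
  have : CharP K r := charP_of_injective_algebraMap (algebraMap (ZMod r) K).injective r
  have hcast : ∀ n : ℕ, ¬ r ∣ n → (n : K) ≠ 0 := by
    intro n hn h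
    exact hn ((CharP.cast_eq_zero_iff K r n).mp h)
  have hcastA : ∀ B : Subgroup X, B ≤ A → (Nat.card B : K) ≠ 0 := by
    intro B hB
    apply hcast
    obtain ⟨n, hn⟩ := IsPGroup.iff_card.mp (hA2.to_le hB)
    rw [hn]
    intro h
    exact hr2 ((Nat.prime_dvd_prime_iff_eq hr.out Nat.prime_two).mp (hr.out.dvd_of_dvd_pow h))
  have hcastQ : ∀ B : Subgroup X, B ≤ Q → (Nat.card B : K) ≠ 0 := by
    intro B hB
    apply hcast
    obtain ⟨n, hn⟩ := IsPGroup.iff_card.mp (hQq.to_le hB)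
    rw [hn]
    intro h
    exact hqr ((Nat.prime_dvd_prime_iff_eq hr.out hq.out).mp (hr.out.dvd_of_dvd_pow h)).symm
  let ρ := H66.HomMod.rep R K
  -- faithfulness
  have hfaith : ∀ Y : Subgroup X, Y ≤ Q → (∀ y ∈ Y, ∀ f : H66.HomMod.V R K, ρ y f = f) → Y = ⊥ := by
    intro Y hY htriv
    have h1 := H66.HomMod.le_centralizer R K hR Y (by
      obtain ⟨n, hn⟩ := IsPGroup.iff_card.mp (hQq.to_le hY)
      rw [hn]
      exact Nat.Coprime.pow_left _ ((Nat.coprime_primes hq.out hr.out).mpr hqr)) htriv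
    rw [eq_bot_iff, ← hQR]
    exact le_inf (hY.trans hQQ0) h1
  have hcmt : ∀ Y : Subgroup X, Y ≤ Q → Y ≠ ⊥ → cmt ρ Y ≠ ⊥ := by
    intro Y hY hne hcon
    apply hne
    apply hfaith Y hY
    intro y hy f
    have := mem_cmt (ρ := ρ) hy f
    rw [hcon, Submodule.mem_bot, sub_eq_zero] at this
    exact this
  -- no fixed vectors
  have hcentA : centralizer (A : Set X) ≤ centralizer {σ} :=
    centralizer_le (by rw [Set.singleton_subset_iff]; exact mem_zpowers σ)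
  have hfix : ∀ f : H66.HomMod.V R K, (∀ a ∈ A, ρ a f = f) → f = 0 := by
    intro f hf
    apply H66.HomMod.eq_zero_of_fixed R K A _ _ _ f hf
    · exact IsPGroup.coprime_card_of_ne 2 r hr2.symm A R hA2 hR
    · have : Group.IsNilpotent R := hR.isNilpotent
      exact Or.inr inferInstance
    · rw [eq_bot_iff, ← hσR]
      exact inf_le_inf le_rfl hcentA
  have hzmem : ∀ B : Subgroup X, B ≤ A → B ≠ ⊥ → z ∈ B := fun B hB hne =>
    H66.ShultGross.mem_of_ne_bot (p := 2) (m := m) hσ hB hne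
  -- z stabilizes all weights of A-invariant subgroups of Q
  have hstab : ∀ (B : Subgroup X) (hBQ : B ≤ Q) (hAB : A ≤ normalizer (B : Set X)) (χ : X → K)
      (v : H66.HomMod.V R K), v ∈ wt ρ B χ → v ≠ 0 → D ≤ stb A B hAB χ := by
    intro B hBQ hAB χ v hv hv0
    rw [hD, zpowers_le]
    apply hzmem _ (stb_le hAB)
    intro hcon
    apply hv0
    apply orbit hAB (hcastA A le_rfl) (hcastQ B hBQ) (W := ⊤) (fun _ _ _ _ => trivial)
      (fun w _ hw => hfix w hw) hv trivial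
    intro a ha
    rw [hcon, mem_bot] at ha
    rw [ha, map_one]; rfl
  by_cases hab : ∀ x ∈ Q, ∀ y ∈ Q, x * y = y * x
  · -- abelian case
    obtain ⟨χ, hχ⟩ := exists_weight (ρ := ρ) (B := Q) (hcmt Q1 hQ1Q hQ1ne)
      (fun b hb w hw => cmt_invariant ((H1.Coprime2.le_normalizer_commutator_left Q D) hb) hw)
      (fun b hb c hc w _ => by
        rw [← Module.End.mul_apply, ← map_mul, hab b hb c hc, map_mul]; rfl)
    obtain ⟨v, hv, hv0⟩ := (Submodule.ne_bot_iff _).mp hχ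
    have hchar := isChar_of_mem hv.1 hv0
    have hDs := hstab Q le_rfl hAQ χ v hv.1 hv0
    apply hv0
    apply eq_zero_of_mem_cmt (hcastQ Q1 hQ1Q) hv.2
    intro b hb
    rw [hv.1 b (hQ1Q hb), trivial_on_commutator hchar (hDA.trans hAQ) (fun d hd => (hDs hd).2) hb, one_smul]
  -- nonabelian case
  have hC := hMQ.nonabelian hcopT hQnil hab
  have hQQ : ⁅Q, Q⁆ ≤ Q ⊓ centralizer (Q : Set X) := by rw [← hC]; exact hMQ.derived hQnil
  set Zq := Q ⊓ centralizer (Q : Set X) with hZq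
  have hAZ : A ≤ normalizer (Zq : Set X) :=
    H1.Coprime2.le_normalizer_inf hAQ (H1.Coprime2.le_normalizer_centralizer hAQ)
  have hZab : ∀ b ∈ Zq, ∀ c ∈ Zq, b * c = c * b := fun b hb c hc => mem_centralizer_iff.mp hc.2 b hb.1
  have hZn : ∀ Y : Subgroup X, Y ≤ Zq → Zq ≤ normalizer (Y : Set X) := by
    intro Y hY
    apply H1.Coprime.le_normalizer_of_conj_mem
    intro b hb y hy
    rw [hZab b hb y (hY hy), mul_inv_cancel_right]; exact hy
  have hZcomm : ∀ b ∈ Zq, ∀ c ∈ Zq, ∀ w : H66.HomMod.V R K, ρ b (ρ c w) = ρ c (ρ b w) := by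
    intro b hb c hc w
    rw [← Module.End.mul_apply, ← map_mul, hZab b hb c hc, map_mul]; rfl
  -- z centralizes Zq
  have hZD : ⁅Zq, D⁆ = ⊥ := by
    by_contra hne
    have hle : ⁅Zq, D⁆ ≤ Zq := H1.Coprime2.commutator_le_left (hDA.trans hAZ)
    obtain ⟨χ, hχ⟩ := exists_weight (ρ := ρ) (B := Zq) (hcmt _ (hle.trans inf_le_left) hne)
      (fun b hb w hw => cmt_invariant ((hZn _ hle) hb) hw) (fun b hb c hc w _ => hZcomm b hb c hc w)
    obtain ⟨v, hv, hv0⟩ := (Submodule.ne_bot_iff _).mp hχ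
    have hchar := isChar_of_mem hv.1 hv0
    have hDs := hstab Zq inf_le_left hAZ χ v hv.1 hv0
    apply hv0
    apply eq_zero_of_mem_cmt (hcastQ _ (hle.trans inf_le_left)) hv.2
    intro b hb
    rw [hv.1 b (hle hb), trivial_on_commutator hchar (hDA.trans hAZ) (fun d hd => (hDs hd).2) hb, one_smul]
  set Y := ⁅Q1, Q⁆ with hY
  have hYZ : Y ≤ Zq := (commutator_mono hQ1Q le_rfl).trans hQQ
  have hYne : Y ≠ ⊥ := by
    intro h
    rw [hY, commutator_eq_bot_iff_le_centralizer] at h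
    apply hQ1ne
    rw [eq_bot_iff, ← hZD]
    calc Q1 = ⁅Q1, D⁆ := hQ1D.symm
      _ ≤ ⁅Zq, D⁆ := commutator_mono (le_inf hQ1Q h) le_rfl
  obtain ⟨χ, hχ⟩ := exists_weight (ρ := ρ) (B := Zq) (hcmt Y (hYZ.trans inf_le_left) hYne)
    (fun b hb w hw => cmt_invariant ((hZn _ hYZ) hb) hw) (fun b hb c hc w _ => hZcomm b hb c hc w)
  obtain ⟨v0, hv0, hv00⟩ := (Submodule.ne_bot_iff _).mp hχ
  have hchar : IsChar Zq χ := isChar_of_mem hv0.1 hv00
  set Rd := rad hQQ hchar with hRd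
  have hRdle : Rd ≤ Q := rad_le hQQ hchar
  have hZRd : Zq ≤ Rd := center_le hQQ hchar
  have hQRd : Q ≤ normalizer (Rd : Set X) := le_normalizer_rad hQQ hchar
  have hQ1Rd : ¬ Q1 ≤ Rd := by
    intro h
    apply hv00
    apply eq_zero_of_mem_cmt (hcastQ Y (hYZ.trans inf_le_left)) hv0.2
    have h1 : Y ≤ Zq ⊓ centralizer (Q : Set X) := le_inf hYZ (hYZ.trans inf_le_right)
    let S : Subgroup X :=
      { carrier := {b | b ∈ Zq ∧ χ b = 1}
        one_mem' := ⟨one_mem _, hchar.one⟩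
        mul_mem' := by
          rintro a c ⟨ha, h1⟩ ⟨hc, h2⟩
          exact ⟨mul_mem ha hc, by rw [hchar.mul a ha c hc, h1, h2, one_mul]⟩
        inv_mem' := by
          rintro a ⟨ha, h1⟩
          refine ⟨inv_mem ha, ?_⟩
          have := hchar.mul_inv ha
          rwa [h1, one_mul] at this }
    have h2 : Y ≤ S := by
      rw [hY, commutator_le]
      intro x hx y hy
      exact ⟨comm_mem hQQ (hQ1Q hx) hy, (h hx).2 y hy⟩
    intro b hb
    rw [hv0.1 b (hYZ hb), (h2 hb).2, one_smul]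
  have hRdne : Rd ≠ Q := fun h => hQ1Rd (by rw [h]; exact hQ1Q)
  obtain ⟨μ, hμ⟩ := exists_mu (ρ := ρ) hQQ hchar (by
    rw [Submodule.ne_bot_iff]; exact ⟨v0, hv0.1, hv00⟩)
  -- stabilizers
  set Al := stb A Zq hAZ χ with hAl
  have hAlA : Al ≤ A := stb_le hAZ
  have hAlRd : Al ≤ normalizer (Rd : Set X) := by
    intro a ha
    exact mem_normalizer_rad hQQ hchar (hAQ (hAlA ha)) ha.2
  set Am := stb Al Rd hAlRd μ with hAm
  have hAmAl : Am ≤ Al := stb_le hAlRd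
  have hAmA : Am ≤ A := hAmAl.trans hAlA
  have hfixl : ∀ w ∈ wt ρ Zq χ, (∀ a ∈ Al, ρ a w = w) → w = 0 := by
    intro w hw hwA
    exact orbit hAZ (hcastA A le_rfl) (hcastQ Zq inf_le_left) (W := ⊤) (fun _ _ _ _ => trivial)
      (fun w _ hw => hfix w hw) hw trivial hwA
  have hfixm : ∀ w ∈ W ρ hQQ hchar μ, (∀ a ∈ Am, ρ a w = w) → w = 0 := by
    intro w hw hwA
    exact orbit hAlRd (hcastA Al hAlA) (hcastQ Rd hRdle) (W := wt ρ Zq χ)
      (fun a ha w hw => map_wt_stb ha hw) hfixl hw.1 hw.2 hwA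
  have hAmne : Am ≠ ⊥ := by
    intro hcon
    obtain ⟨w, hw, hw0⟩ := (Submodule.ne_bot_iff _).mp hμ
    apply hw0
    apply hfixm w hw
    intro a ha
    rw [hcon, mem_bot] at ha
    rw [ha, map_one]; rfl
  -- generator of Am
  obtain ⟨g, hg'⟩ : ∃ g' : X, Am = zpowers g' := by
    have hcyc : IsCyclic A := inferInstance
    have : IsCyclic (Am.subgroupOf A) := inferInstance
    obtain ⟨y, hy⟩ := IsCyclic.exists_generator (α := Am.subgroupOf A)
    refine ⟨((y : A) : X), le_antisymm ?_ ?_⟩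
    · intro a ha
      obtain ⟨k, hk⟩ := mem_zpowers_iff.mp (hy ⟨⟨a, hAmA ha⟩, ha⟩)
      rw [mem_zpowers_iff]
      refine ⟨k, ?_⟩
      have := congrArg (fun t : Am.subgroupOf A => ((t : A) : X)) hk
      simpa using this
    · rw [zpowers_le]; exact y.2
  have hgm : g ∈ Am := by rw [hg']; exact mem_zpowers g
  obtain ⟨M, hM⟩ : ∃ M, M = Nat.card Am := ⟨_, rfl⟩
  have hMord : orderOf g = M := by rw [hM, hg', Nat.card_zpowers]
  obtain ⟨n1, hn1⟩ := IsPGroup.iff_card.mp (hA2.to_le hAmA)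
  rw [← hM] at hn1
  have hgM : g ^ M = 1 := by rw [← hMord]; exact pow_orderOf_eq_one g
  have hzne : z ≠ 1 := by
    intro h
    apply hDQ
    rw [hD, h, zpowers_one_eq_bot]; exact bot_le
  have hzpow : ∀ i : ℕ, 0 < i → i < M → z ∈ zpowers (g ^ i) := by
    intro i hi0 hiM
    apply hzmem _ (by rw [zpowers_le]; exact A.pow_mem (hAmA hgm) i)
    rw [Ne, zpowers_eq_bot]
    intro h
    have := orderOf_dvd_of_pow_eq_one h
    rw [hMord] at this
    exact absurd (Nat.le_of_dvd hi0 this) (by omega)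
  have hgW : ∀ w ∈ W ρ hQQ hchar μ, ρ g w ∈ W ρ hQQ hchar μ := by
    intro w hw
    exact ⟨map_wt_stb (hAB := hAlRd) hgm hw.1, map_wt_stb (hAB := hAZ) (hAmAl hgm) hw.2⟩
  have hgfix : ∀ w ∈ W ρ hQQ hchar μ, ρ g w = w → w = 0 := by
    intro w hw hbw
    apply hfixm w hw
    intro c hc
    rw [hg', mem_zpowers_iff_mem_range_orderOf] at hc
    obtain ⟨j, _, rfl⟩ := Finset.mem_image.mp hc
    clear hc
    induction j with
    | zero => rw [pow_zero, map_one]; rfl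
    | succ j ih =>
      rw [pow_succ, map_mul, Module.End.mul_apply, hbw]
      exact ih (by
        rename_i h
        have := Finset.mem_range.mp h
        exact Finset.mem_range.mpr (by omega))
  obtain ⟨hM3, hcardE, hF⟩ := H66.EF.main (ρ := ρ) hQQ hchar hμ hQs (hcastQ Q le_rfl) (g := g) (M := M)
    (by rw [hM]; exact hcastA Am hAmA) (hAQ (hAmA hgm)) hgM (hAmAl hgm).2 hgW hgfix
    (z := z) (by rw [← hg']; exact hzmem Am hAmA hAmne) hzpow hcopDQ hQ1Rd
  -- contradiction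
  have hAlne : Al ≠ A := by
    intro hcon
    have hσAl : σ ∈ Al := by rw [hcon]; exact mem_zpowers σ
    have hZqD : Zq ≤ centralizer (D : Set X) := by
      rw [← commutator_eq_bot_iff_le_centralizer]; exact hZD
    have hinv := hσQinv Zq inf_le_left hAZ hZqD
    apply hv00
    apply eq_zero_of_mem_cmt (hcastQ Y (hYZ.trans inf_le_left)) hv0.2
    intro b hb
    have hbZ : b ∈ Zq := hYZ hb
    have h1 := hσAl.2 b hbZ
    have h2 : σ⁻¹ * b * σ = b⁻¹ := by
      have h3 := hinv b⁻¹ (inv_mem hbZ)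
      rw [inv_inv] at h3
      calc σ⁻¹ * b * σ = σ⁻¹ * (σ * b⁻¹ * σ⁻¹) * σ := by rw [h3]
        _ = b⁻¹ := by group
    rw [h2] at h1
    have h3 := hchar.mul_inv hbZ
    rw [h1] at h3
    -- χ b ^ 2 = 1 and odd order
    obtain ⟨n, hn⟩ := hQq ⟨b, hbZ.1⟩
    have hn' : b ^ q ^ n = 1 := congrArg Subtype.val hn
    obtain ⟨c, hc⟩ : Odd (q ^ n) := (hq.out.odd_of_ne_two hq2).pow
    have hpow : ∀ i : ℕ, χ (b ^ i) = χ b ^ i := by
      intro i
      induction i with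
      | zero => rw [pow_zero, pow_zero, hchar.one]
      | succ i ih => rw [pow_succ, pow_succ, hchar.mul _ (Zq.pow_mem hbZ i) _ hbZ, ih]
    have h4 := hpow (q ^ n)
    rw [hn', hchar.one, hc, pow_succ, pow_mul, sq, h3, one_pow, one_mul] at h4
    rw [hv0.1 b hbZ, ← h4, one_smul]
  have hcardA : Nat.card A ∣ 4 := by
    rw [hA, Nat.card_zpowers]
    apply orderOf_dvd_of_pow_eq_one
    have : (4 : ℕ) = 2 ^ (m + 1) := by rw [hm]; norm_num
    rw [this]; exact hσ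
  have hAl2 : Nat.card Al ≤ 2 := by
    have h1 : Nat.card Al ∣ Nat.card A := card_dvd_of_le hAlA
    have h2 : Nat.card Al ≠ Nat.card A := fun h => hAlne (Subgroup.eq_of_le_of_card_ge hAlA h.ge)
    obtain ⟨c, hc⟩ := h1
    have h3 := Nat.le_of_dvd (by norm_num) hcardA
    have hc2 : 2 ≤ c := by
      by_contra hcon
      have h4 : c = 0 ∨ c = 1 := by omega
      rcases h4 with h4 | h4
      · rw [h4, mul_zero] at hc
        exact absurd hc Nat.card_pos.ne'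
      · rw [h4, mul_one] at hc
        exact h2 hc.symm
    have h5 : Nat.card Al * 2 ≤ 4 := by
      calc Nat.card Al * 2 ≤ Nat.card Al * c := Nat.mul_le_mul le_rfl hc2
        _ = Nat.card A := hc.symm
        _ ≤ 4 := h3
    omega
  have h6 : Nat.card Am ≤ Nat.card Al := Nat.le_of_dvd Nat.card_pos (card_dvd_of_le hAmAl)
  omega

end H66.Gross
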