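import Cfsg.Agent.Lib.H1.Cores
import Cfsg.Agent.Lib.H1.Coprime2
import Cfsg.Agent.Lib.H1.Solv

/-!
A solvable group `H` with `H / C_H(O_q(H))` a `q`-group for all primes `q` is nilpotent.
-/

set_option autoImplicit false

open Subgroup Cfsg
open scoped commutatorElement

namespace H66.NilCrit

variable {H : Type*} [Group H] [Finite H]

theorem pCore_eq_bot {q : ℕ} (hq : q.Prime) (h : ¬ q ∣ Nat.card H) : pCore q H = ⊥ := by
  have := Fact.mk hq
  obtain ⟨k, hk⟩ := IsPGroup.iff_card.mp (H1.Cores.isPGroup_pCore (G := H) q)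
  rw [← Subgroup.card_eq_one, hk]
  rcases Nat.eq_zero_or_pos k with h0 | h0
  · rw [h0, pow_zero]
  · exfalso
    apply h
    refine Dvd.dvd.trans ?_ (Subgroup.card_subgroup_dvd_card (pCore q H))
    rw [hk]
    exact dvd_pow_self q h0.ne'

/-- the `q`-core is hypercentral -/
theorem pCore_le_upper {q : ℕ} (hq : q.Prime) {n : ℕ}
    (h : (centralizer (pCore q H : Set H)).index = q ^ n) : ∃ l, pCore q H ≤ Subgroup.upperCentralSeries H l := by
  classical
  have := Fact.mk hq
  set C := centralizer (pCore q H : Set H) with hC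
  obtain ⟨T⟩ : Nonempty (Sylow q H) := inferInstance
  have hTC : (T : Subgroup H) ⊔ C = ⊤ := by
    rw [← index_eq_one]
    have h1 : ((T : Subgroup H) ⊔ C).index ∣ q ^ n := by
      rw [← h]; exact index_dvd_of_le le_sup_right
    have h2 : ((T : Subgroup H) ⊔ C).index ∣ (T : Subgroup H).index := index_dvd_of_le le_sup_left
    have h3 : ¬ q ∣ (T : Subgroup H).index := T.not_dvd_index
    obtain ⟨c, _, hc⟩ := (Nat.dvd_prime_pow hq).mp h1
    rcases Nat.eq_zero_or_pos c with h4 | h4
    · rw [hc, h4, pow_zero]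
    · exfalso
      apply h3
      refine Dvd.dvd.trans ?_ h2
      rw [hc]; exact dvd_pow_self q h4.ne'
  have key : ∀ m : ℕ, ∀ U : Subgroup H, Nat.card U = m → U.Normal → U ≤ pCore q H →
      ∃ l, U ≤ Subgroup.upperCentralSeries H l := by
    intro m
    induction m using Nat.strong_induction_on with
    | _ m ih =>
      intro U hUm hUn hU
      by_cases hbot : U = ⊥
      · exact ⟨0, by rw [hbot]; exact bot_le⟩
      have hlt : ⁅U, (⊤ : Subgroup H)⁆ < U := by
        refine lt_of_le_of_lt ?_ (H1.Coprime2.commutator_lt_of_isPGroup T.isPGroup'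
          ((H1.Cores.isPGroup_pCore (G := H) q).to_le hU) (by rw [normalizer_eq_top]; exact le_top) hbot)
        rw [commutator_le]
        intro u hu g _
        have hg : g ∈ (T : Subgroup H) ⊔ C := by rw [hTC]; trivial
        rw [mem_sup_of_normal_right] at hg
        obtain ⟨t, ht, c, hc, rfl⟩ := hg
        have h1 : u * c = c * u := mem_centralizer_iff.mp hc u (hU hu)
        have h2 : ⁅u, t * c⁆ = ⁅u, t⁆ := by
          rw [commutatorElement_def, commutatorElement_def]
          calc u * (t * c) * u⁻¹ * (t * c)⁻¹ = u * t * (c * u⁻¹) * c⁻¹ * t⁻¹ := by group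
            _ = u * t * (u⁻¹ * c) * c⁻¹ * t⁻¹ := by
              have : c * u⁻¹ = u⁻¹ * c := by
                rw [eq_inv_mul_iff_mul_eq, ← mul_assoc, h1, mul_inv_cancel_right]
              rw [this]
            _ = u * t * u⁻¹ * t⁻¹ := by group
        rw [h2]
        exact commutator_mem_commutator hu ht
      have hcard : Nat.card (⁅U, (⊤ : Subgroup H)⁆ : Subgroup H) < m := by
        rw [← hUm]
        by_contra hcon
        push Not at hcon
        exact hlt.ne (Subgroup.eq_of_le_of_card_ge hlt.le hcon)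
      obtain ⟨l, hl⟩ := ih _ hcard _ rfl inferInstance (hlt.le.trans hU)
      refine ⟨l + 1, ?_⟩
      intro u hu
      rw [Subgroup.mem_upperCentralSeries_succ_iff]
      intro y
      exact hl (commutator_mem_commutator hu (mem_top y))
  exact key _ _ rfl inferInstance le_rfl

theorem isNilpotent_of_index (hH : Group.IsSolvable H)
    (h : ∀ q : ℕ, q.Prime → ∃ n, (centralizer (pCore q H : Set H)).index = q ^ n) : Group.IsNilpotent H := by
  classical
  -- bounds
  have h1 : ∀ q : ℕ, q.Prime → ∃ l, pCore q H ≤ Subgroup.upperCentralSeries H l := by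
    intro q hq
    obtain ⟨n, hn⟩ := h q hq
    exact pCore_le_upper hq hn
  have h2 : ∀ q : ℕ, q.Prime → ∃ k, (⊤ : Subgroup H).lowerCentralSeries k ≤ centralizer (pCore q H : Set H) := by
    intro q hq
    have := Fact.mk hq
    obtain ⟨n, hn⟩ := h q hq
    set C := centralizer (pCore q H : Set H) with hC
    have hp : IsPGroup q (H ⧸ C) := IsPGroup.of_card (n := n) (by rw [← hn]; rfl)
    have hnil : Group.IsNilpotent (H ⧸ C) := hp.isNilpotent
    obtain ⟨k, hk⟩ := Subgroup.nilpotent_iff_lowerCentralSeries.mp hnil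
    refine ⟨k, ?_⟩
    have h3 : ((⊤ : Subgroup H).lowerCentralSeries k).map (QuotientGroup.mk' C) = ⊥ := by
      rw [map_lowerCentralSeries, ← MonoidHom.range_eq_map, QuotientGroup.range_mk', hk]
    rw [Subgroup.map_eq_bot_iff, QuotientGroup.ker_mk'] at h3
    exact h3
  choose! l hl using h1
  choose! k hk using h2
  set L := ∑ q ∈ (Nat.card H).primeFactors, l q with hL
  set M := ∑ q ∈ (Nat.card H).primeFactors, k q with hM
  have h3 : fittingSubgroup H ≤ Subgroup.upperCentralSeries H L := by
    rw [H1.Cores.fittingSubgroup_eq_iSup_pCore, iSup_le_iff]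
    rintro ⟨q, hq⟩
    change pCore q H ≤ _
    by_cases hqd : q ∣ Nat.card H
    · have hmem : q ∈ (Nat.card H).primeFactors := by
        rw [Nat.mem_primeFactors]; exact ⟨hq, hqd, Nat.card_pos.ne'⟩
      have hle : l q ≤ L := Finset.single_le_sum (f := l) (fun _ _ => Nat.zero_le _) hmem
      exact (hl q hq).trans (Subgroup.upperCentralSeries_mono H hle)
    · rw [pCore_eq_bot hq hqd]; exact bot_le
  have h4 : (⊤ : Subgroup H).lowerCentralSeries M ≤ fittingSubgroup H := by
    refine le_trans ?_ (H1.Solv.centralizer_fitting_le hH)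
    rw [Subgroup.le_centralizer_iff, H1.Cores.fittingSubgroup_eq_iSup_pCore, iSup_le_iff]
    rintro ⟨q, hq⟩
    change pCore q H ≤ _
    by_cases hqd : q ∣ Nat.card H
    · have hmem : q ∈ (Nat.card H).primeFactors := by
        rw [Nat.mem_primeFactors]; exact ⟨hq, hqd, Nat.card_pos.ne'⟩
      have hle : k q ≤ M := Finset.single_le_sum (f := k) (fun _ _ => Nat.zero_le _) hmem
      rw [Subgroup.le_centralizer_iff]
      exact (Subgroup.lowerCentralSeries_antitone _ hle).trans (hk q hq)
    · rw [pCore_eq_bot hq hqd]; exact bot_le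
  rw [Subgroup.nilpotent_iff_lowerCentralSeries]
  refine ⟨M + L, ?_⟩
  have h5 : ∀ i : ℕ, i ≤ L → (⊤ : Subgroup H).lowerCentralSeries (M + i) ≤ Subgroup.upperCentralSeries H (L - i) := by
    intro i
    induction i with
    | zero => intro _; exact h4.trans h3
    | succ i ih =>
      intro hi
      rw [← add_assoc, Subgroup.lowerCentralSeries_succ]
      have h6 := ih (by omega)
      refine (commutator_mono h6 le_rfl).trans ?_
      have e : L - i = (L - (i + 1)) + 1 := by omega
      rw [e]
      exact Subgroup.commutator_upperCentralSeries_top_le H _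
  have h6 := h5 L le_rfl
  rw [Nat.sub_self, Subgroup.upperCentralSeries_zero] at h6
  exact le_bot_iff.mp h6

end H66.NilCrit
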