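import Mathlib
import Cfsg.Agent.Lib.H1.Cores

/-!
A normal subgroup `D ≤ O_{p',p}(G)` for all `p` is nilpotent.
-/

set_option autoImplicit false

open Subgroup Cfsg

namespace H66.NilCore

variable {G : Type*} [Group G] [Finite G]

/-- If for each prime `p` some term of the lower central series of `D` lies in `O_{p'}(G)` then `D` is
nilpotent. -/
theorem isNilpotent_of_lcs (D : Subgroup G)
    (h : ∀ p : ℕ, p.Prime → ∃ n, D.lowerCentralSeries n ≤ pPrimeCore p G) : Group.IsNilpotent D := by
  classical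
  choose! n hn using h
  rw [Subgroup.isNilpotent_iff_lowerCentralSeries]
  refine ⟨∑ p ∈ (Nat.card G).primeFactors, n p, ?_⟩
  set N := ∑ p ∈ (Nat.card G).primeFactors, n p with hN
  have h1 : ∀ p ∈ (Nat.card G).primeFactors, D.lowerCentralSeries N ≤ pPrimeCore p G := by
    intro p hp
    have hle : n p ≤ N := Finset.single_le_sum (f := n) (fun _ _ => Nat.zero_le _) hp
    exact (Subgroup.lowerCentralSeries_antitone D hle).trans (hn p (Nat.prime_of_mem_primeFactors hp))
  rw [← Subgroup.card_eq_one]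
  by_contra hne
  obtain ⟨p, hp, hpd⟩ := Nat.exists_prime_and_dvd hne
  have hpG : p ∈ (Nat.card G).primeFactors := by
    rw [Nat.mem_primeFactors]
    exact ⟨hp, hpd.trans (Subgroup.card_subgroup_dvd_card _), Nat.card_pos.ne'⟩
  have h2 := (H1.Cores.coprime_card_pPrimeCore (G := G) p).coprime_dvd_left
    (Subgroup.card_dvd_of_le (h1 p hpG))
  have h3 : p ∣ 1 := by rw [← h2]; exact Nat.dvd_gcd hpd dvd_rfl
  exact hp.one_lt.ne' (Nat.dvd_one.mp h3)

/-- If the image of `D` in `G / O_{p'}(G)` lies in a nilpotent normal subgroup for each `p`, then `D` is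
nilpotent. -/
theorem isNilpotent_of_map (D : Subgroup G)
    (h : ∀ p : ℕ, p.Prime → Group.IsNilpotent (D.map (QuotientGroup.mk' (pPrimeCore p G)))) :
    Group.IsNilpotent D := by
  apply isNilpotent_of_lcs
  intro p hp
  obtain ⟨n, hn⟩ := (Subgroup.isNilpotent_iff_lowerCentralSeries _).mp (h p hp)
  refine ⟨n, ?_⟩
  rw [← Subgroup.map_lowerCentralSeries, Subgroup.map_eq_bot_iff, QuotientGroup.ker_mk'] at hn
  exact hn

end H66.NilCore
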