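import Mathlib

/-!
The semidirect product `G ⋊ A` for a subgroup `A` of `MulAut G`, and Fitting-type chains.
-/

set_option autoImplicit false

open Subgroup
open scoped commutatorElement

namespace H66.Semi

variable {G : Type*} [Group G] (A : Subgroup (MulAut G))

/-- the semidirect product -/
abbrev X := G ⋊[A.subtype] A

/-- inclusion of `G` -/
abbrev i : G →* X A := SemidirectProduct.inl

/-- inclusion of `A` -/
abbrev j : A →* X A := SemidirectProduct.inr

theorem i_injective : Function.Injective (i A) := SemidirectProduct.inl_injective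

theorem j_injective : Function.Injective (j A) := SemidirectProduct.inr_injective

instance [Finite G] : Finite (X A) := by
  have : Finite (MulAut G) := Finite.of_injective (fun e => (e : G → G)) DFunLike.coe_injective
  exact Finite.of_equiv _ SemidirectProduct.equivProd.symm

theorem conj_i (a : A) (x : G) : j A a * i A x * (j A a)⁻¹ = i A ((a : MulAut G) x) := by
  rw [← map_inv]
  exact (SemidirectProduct.inl_aut (φ := A.subtype) a x).symm

theorem conj_mem {N : Subgroup G} {a : A} (h : ∀ x ∈ N, (a : MulAut G) x ∈ N) {y : X A} (hy : y ∈ N.map (i A)) :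
    j A a * y * (j A a)⁻¹ ∈ N.map (i A) := by
  obtain ⟨x, hx, rfl⟩ := hy
  rw [conj_i]
  exact ⟨_, h x hx, rfl⟩

theorem normal_map (N : Subgroup G) [hN : N.Normal] (h : ∀ a ∈ A, ∀ x ∈ N, a x ∈ N) : (N.map (i A)).Normal := by
  constructor
  rintro _ ⟨x, hx, rfl⟩ y
  rw [← SemidirectProduct.inl_left_mul_inr_right y]
  have h1 : (SemidirectProduct.inl y.left * SemidirectProduct.inr y.right) * i A x *
      (SemidirectProduct.inl y.left * SemidirectProduct.inr y.right)⁻¹ =
      i A y.left * (j A y.right * i A x * (j A y.right)⁻¹) * (i A y.left)⁻¹ := by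
    simp only [mul_inv_rev, mul_assoc]
  rw [h1, conj_i]
  refine ⟨y.left * ((y.right : MulAut G) x) * y.left⁻¹, hN.conj_mem _ (h _ y.right.2 x hx) _, ?_⟩
  simp

theorem range_j_le_normalizer (N : Subgroup G) (h : ∀ a ∈ A, ∀ x ∈ N, a x ∈ N) :
    (j A).range ≤ normalizer ((N.map (i A) : Subgroup (X A)) : Set (X A)) := by
  rintro _ ⟨a, rfl⟩
  rw [mem_normalizer_iff]
  intro y
  constructor
  · intro hy; exact conj_mem A (h a a.2) hy
  · intro hy
    have h1 := conj_mem A (a := a⁻¹) (h _ (a⁻¹).2) hy
    have h2 : j A a⁻¹ * (j A a * y * (j A a)⁻¹) * (j A a⁻¹)⁻¹ = y := by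
      rw [map_inv]; group
    rwa [h2] at h1

theorem commute_iff (a : A) (x : G) : Commute (j A a) (i A x) ↔ (a : MulAut G) x = x := by
  constructor
  · intro h
    have h1 := conj_i A a x
    rw [h.eq, mul_inv_cancel_right] at h1
    exact (i_injective A h1).symm
  · intro h
    have h1 := conj_i A a x
    rw [h, mul_inv_eq_iff_eq_mul] at h1
    exact h1

/-- elements of the form `i x` -/
theorem mem_map_iff {N : Subgroup G} {x : G} : i A x ∈ N.map (i A) ↔ x ∈ N := by
  constructor
  · rintro ⟨y, hy, h⟩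
    rwa [← i_injective A h]
  · intro h; exact ⟨x, h, rfl⟩

end H66.Semi

namespace H66.FH

/-- chain of length `n` of normal subgroups with nilpotent factors -/
def FH (n : ℕ) (G : Type*) [Group G] : Prop :=
  ∃ F : Fin (n + 1) → Subgroup G, F 0 = ⊥ ∧ F (Fin.last n) = ⊤ ∧ Monotone F ∧ (∀ i, (F i).Normal) ∧
    ∀ i : Fin n, ∃ k : ℕ, (F i.succ).lowerCentralSeries k ≤ F i.castSucc

variable {G : Type*} [Group G]

theorem zero_of_subsingleton (h : ∀ g : G, g = 1) : FH 0 G := by
  refine ⟨fun _ => ⊥, rfl, ?_, fun _ _ _ => le_rfl, fun _ => inferInstance, fun i => i.elim0⟩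
  rw [eq_comm, eq_bot_iff]
  intro g _
  rw [mem_bot]; exact h g

/-- extension by a nilpotent normal subgroup -/
theorem succ_of {n : ℕ} (N : Subgroup G) [N.Normal] (hN : Group.IsNilpotent N) (h : FH n (G ⧸ N)) :
    FH (n + 1) G := by
  obtain ⟨F, h0, h1, hmono, hnorm, hk⟩ := h
  refine ⟨Fin.cons ⊥ (fun i => (F i).comap (QuotientGroup.mk' N)), rfl, ?_, ?_, ?_, ?_⟩
  · have : Fin.last (n + 1) = (Fin.last n).succ := rfl
    rw [this, Fin.cons_succ, h1, comap_top]
  · rw [Fin.monotone_iff_le_succ]
    intro i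
    refine Fin.cases ?_ ?_ i
    · exact bot_le
    · intro i
      have e : (i.succ).castSucc = (i.castSucc).succ := rfl
      rw [e, Fin.cons_succ, Fin.cons_succ]
      exact comap_mono (hmono (Fin.castSucc_le_succ i))
  · intro i
    refine Fin.cases ?_ ?_ i
    · exact (inferInstance : (⊥ : Subgroup G).Normal)
    · intro i
      rw [Fin.cons_succ]
      exact (hnorm i).comap _
  · intro i
    refine Fin.cases ?_ ?_ i
    · obtain ⟨k, hk⟩ := (Subgroup.isNilpotent_iff_lowerCentralSeries N).mp hN
      refine ⟨k, ?_⟩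
      change ((F 0).comap (QuotientGroup.mk' N)).lowerCentralSeries k ≤ _
      rw [h0, MonoidHom.comap_bot, QuotientGroup.ker_mk', hk]
      exact bot_le
    · intro i
      obtain ⟨k, hk⟩ := hk i
      refine ⟨k, ?_⟩
      change ((F i.succ).comap (QuotientGroup.mk' N)).lowerCentralSeries k ≤
        (F i.castSucc).comap (QuotientGroup.mk' N)
      rw [← map_le_iff_le_comap, map_lowerCentralSeries]
      refine le_trans ?_ hk
      rw [map_comap_eq_self_of_surjective (QuotientGroup.mk'_surjective N)]

end H66.FH
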