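import Cfsg.Agent.Lib.H66.ShultGross
import Cfsg.Agent.Lib.H66.Semi
import Cfsg.Agent.Lib.H66.HKK
import Cfsg.Agent.Lib.H66.NilCore
import Cfsg.Agent.Lib.H66.Fpf
import Cfsg.Agent.Lib.H1.Solv

/-!
Reduction of the Shult–Gross theorem.
-/

set_option autoImplicit false

open Subgroup H66.Fpf
open scoped commutatorElement

namespace H66.SGRed

/-- if a coprime automorphism `τ` of prime order centralizes `F(H)` it is trivial -/
theorem trivial_of_fitting {H : Type*} [Group H] [Finite H] (hH : Group.IsSolvable H) {p : ℕ} (hp : p.Prime)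
    (τ : MulAut H) (hτ : τ ^ p = 1) (hcop : p.Coprime (Nat.card H))
    (h : ∀ x ∈ Cfsg.fittingSubgroup H, τ x = x) (x : H) : τ x = x := by
  set F := Cfsg.fittingSubgroup H with hF
  have hFchar : F.Characteristic := H1.Cores.fittingSubgroup_characteristic
  have hCF : centralizer (F : Set H) ≤ F := H1.Solv.centralizer_fitting_le hH
  have h1 : x⁻¹ * τ x ∈ F := by
    apply hCF
    rw [Subgroup.mem_centralizer_iff]
    intro f hf
    have h2 : x * f * x⁻¹ ∈ F := (inferInstance : F.Normal).conj_mem f hf x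
    have h3 := h _ h2
    rw [map_mul, map_mul, h f hf, map_inv] at h3
    calc f * (x⁻¹ * τ x) = x⁻¹ * (x * f * x⁻¹) * τ x := by group
      _ = x⁻¹ * (τ x * f * (τ x)⁻¹) * τ x := by rw [h3]
      _ = x⁻¹ * τ x * f := by group
  set y := x⁻¹ * τ x with hy
  have h2 : ∀ j : ℕ, (τ ^ j) x = x * y ^ j := by
    intro j
    induction j with
    | zero => simp
    | succ j ih =>
      rw [pow_succ', MulAut.mul_apply, ih, map_mul, map_pow, h y h1]
      have : τ x = x * y := by rw [hy]; group
      rw [this, pow_succ', mul_assoc]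
  have h3 := h2 p
  rw [hτ, MulAut.one_apply] at h3
  have h4 : y ^ p = 1 := by
    have : x * y ^ p = x * 1 := by rw [← h3, mul_one]
    exact mul_left_cancel this
  have h5 : y = 1 := by
    have h6 : orderOf y ∣ p := orderOf_dvd_of_pow_eq_one h4
    have h7 : orderOf y ∣ Nat.card H := orderOf_dvd_natCard y
    have h8 : orderOf y ∣ 1 := by rw [← hcop]; exact Nat.dvd_gcd h6 h7
    rw [← orderOf_eq_one_iff]; exact Nat.dvd_one.mp h8
  rw [hy, inv_mul_eq_one] at h5
  exact h5.symm

/-- the case `O_{r'}(G) = 1`. -/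
theorem fix_mod_pCore {G : Type*} [Group G] [Finite G] (hG : Group.IsSolvable G) {p r : ℕ}
    [hp : Fact p.Prime] [hr : Fact r.Prime] (hp2 : p ≠ 2) (σ : MulAut G) (m : ℕ)
    (hσ : σ ^ p ^ (m + 1) = 1) (hfpf : ∀ g : G, σ g = g → g = 1) (hcore : Cfsg.pPrimeCore r G = ⊥) (x : G) :
    x⁻¹ * (σ ^ p ^ m) x ∈ Cfsg.pCore r G := by
  classical
  have hcopG : p.Coprime (Nat.card G) := H66.HKK.coprime_card hfpf hσ
  by_cases hrp : r = p
  · -- G is trivial
    subst hrp
    have h1 : (⊤ : Subgroup G) ≤ Cfsg.pPrimeCore r G :=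
      H1.Cores.le_pPrimeCore inferInstance (by rw [Subgroup.card_top]; exact hcopG.symm)
    rw [hcore] at h1
    have h2 : ∀ y : G, y = 1 := fun y => h1 (mem_top y)
    rw [h2 (x⁻¹ * _)]; exact one_mem _
  set P := Cfsg.pCore r G with hP
  have hPp : IsPGroup r P := H1.Cores.isPGroup_pCore r
  have hPσ : P.map σ.toMonoidHom = P := map_char σ P
  have hCP : centralizer (P : Set G) ≤ P := H1.Solv.centralizer_pCore_le hG r hcore
  -- invariance of characteristic subgroups of quotients
  set H := G ⧸ P with hH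
  have hHs : Group.IsSolvable H := inferInstance
  let σH : MulAut H := quot σ P hPσ
  have hσH : ∀ g : G, σH (QuotientGroup.mk' P g) = QuotientGroup.mk' P (σ g) := fun g => rfl
  have hσHpow : ∀ (n : ℕ) (g : G), (σH ^ n) (QuotientGroup.mk' P g) = QuotientGroup.mk' P ((σ ^ n) g) :=
    fun n g => quot_pow_mk σ P hPσ n g
  have hcopH : p.Coprime (Nat.card H) := hcopG.coprime_dvd_right (Subgroup.card_quotient_dvd_card P)
  have hτ : (σH ^ p ^ m) ^ p = 1 := by
    rw [← pow_mul, ← pow_succ]
    exact quot_pow_eq_one σ P hPσ hσ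
  -- z centralizes O_q(H)
  have hmain : ∀ q : Nat.Primes, ∀ y ∈ Cfsg.pCore (q : ℕ) H, (σH ^ p ^ m) y = y := by
    rintro ⟨q, hq⟩ y hy
    have := Fact.mk hq
    change y ∈ Cfsg.pCore q H at hy
    by_cases hqr : q = r
    · subst hqr
      have : Cfsg.pCore q H = ⊥ := H1.Cores.pCore_quotient_pCore q
      rw [this, mem_bot] at hy
      rw [hy, map_one]
    by_cases hqp : q = p
    · subst hqp
      have h1 : IsPGroup q (Cfsg.pCore q H) := H1.Cores.isPGroup_pCore q
      obtain ⟨k, hk⟩ := IsPGroup.iff_card.mp h1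
      have h2 : Nat.card (Cfsg.pCore q H) ∣ Nat.card H := Subgroup.card_subgroup_dvd_card _
      have h3 : Nat.card (Cfsg.pCore q H) = 1 := by
        rw [hk]
        rcases Nat.eq_zero_or_pos k with h | h
        · rw [h, pow_zero]
        · exfalso
          rw [hk] at h2
          have h4 : q ∣ Nat.card H := (dvd_pow_self q h.ne').trans h2
          have h5 : q ∣ 1 := by
            have h6 := Nat.dvd_gcd (dvd_refl q) h4
            rwa [hcopH.gcd_eq_one] at h6
          exact hq.one_lt.ne' (Nat.dvd_one.mp h5)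
      rw [Subgroup.card_eq_one] at h3
      rw [h3, mem_bot] at hy
      rw [hy, map_one]
    -- the semidirect product
    set A := zpowers σ with hA
    set L := (Cfsg.pCore q H).comap (QuotientGroup.mk' P) with hL
    have hPL : P ≤ L := by
      rw [hL]
      intro u hu
      rw [mem_comap]
      have : QuotientGroup.mk' P u = 1 := (QuotientGroup.eq_one_iff u).mpr hu
      rw [this]; exact one_mem _
    have hinv : ∀ N : Subgroup G, (∀ u ∈ N, σ u ∈ N) → ∀ a ∈ A, ∀ u ∈ N, a u ∈ N := by
      intro N hN a ha u hu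
      have h1 : ∀ j : ℕ, ∀ u ∈ N, (σ ^ j) u ∈ N := by
        intro j
        induction j with
        | zero => intro u hu; exact hu
        | succ j ih => intro u hu; rw [pow_succ, MulAut.mul_apply]; exact ih _ (hN u hu)
      have : Finite (MulAut G) := Finite.of_injective (fun e => (e : G → G)) DFunLike.coe_injective
      rw [hA, mem_zpowers_iff_mem_range_orderOf] at ha
      obtain ⟨j, _, rfl⟩ := Finset.mem_image.mp ha
      exact h1 j u hu
    have hPinv : ∀ a ∈ A, ∀ u ∈ P, a u ∈ P := hinv P (fun u hu => apply_mem σ hPσ hu)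
    have hLσ : ∀ u ∈ L, σ u ∈ L := by
      intro u hu
      rw [hL, mem_comap] at hu ⊢
      rw [← hσH]
      exact apply_mem σH (map_char σH (Cfsg.pCore q H)) hu
    have hLinv : ∀ a ∈ A, ∀ u ∈ L, a u ∈ L := hinv L hLσ
    let X := H66.Semi.X A
    let i := H66.Semi.i A
    let g : X := H66.Semi.j A ⟨σ, mem_zpowers σ⟩
    have hiinj : Function.Injective i := H66.Semi.i_injective A
    set R : Subgroup X := P.map i with hR
    have hRn : R.Normal := H66.Semi.normal_map A P hPinv
    have hRr : IsPGroup r R := hPp.map i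
    have hg : g ^ p ^ (m + 1) = 1 := by
      have h1 : (⟨σ, mem_zpowers σ⟩ : A) ^ p ^ (m + 1) = 1 := Subtype.ext hσ
      change (H66.Semi.j A ⟨σ, mem_zpowers σ⟩) ^ p ^ (m + 1) = 1
      rw [← map_pow, h1, map_one]
    have hcard_i : ∀ N : Subgroup G, Nat.card (N.map i) = Nat.card N := fun N =>
      (Nat.card_congr (N.equivMapOfInjective i hiinj).toEquiv).symm
    have hgp : IsPGroup p (zpowers g) := by
      intro a
      obtain ⟨k, hk⟩ := mem_zpowers_iff.mp a.2
      refine ⟨m + 1, Subtype.ext ?_⟩
      change (a : X) ^ p ^ (m + 1) = 1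
      rw [← hk, ← zpow_natCast, ← zpow_mul, mul_comm, zpow_mul, zpow_natCast, hg, one_zpow]
    have hgnorm : ∀ N : Subgroup G, (∀ u ∈ N, σ u ∈ N) → zpowers g ≤ normalizer ((N.map i : Subgroup X) : Set X) := by
      intro N hN
      rw [zpowers_le]
      exact H66.Semi.range_j_le_normalizer A N (hinv N hN) ⟨_, rfl⟩
    have hcopL : (Nat.card (zpowers g)).Coprime (Nat.card (L.map i)) := by
      obtain ⟨k, hk⟩ := IsPGroup.iff_card.mp hgp
      rw [hk, hcard_i]
      exact Nat.Coprime.pow_left _ (hcopG.coprime_dvd_right (Subgroup.card_subgroup_dvd_card L))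
    have hpsolv : Group.IsSolvable (zpowers g) := by
      have : Group.IsNilpotent (zpowers g) := hgp.isNilpotent
      infer_instance
    obtain ⟨S, hS, hSg⟩ := H1.Coprime2.exists_invariant_sylow (zpowers g) (L.map i) (hgnorm L hLσ) hcopL
      (Or.inl hpsolv) q
    have hSq : IsPGroup q S := H1.Coprime2.IsSylIn.isPGroup hS
    have hSL : S ≤ L.map i := hS.1
    have hfixi : ∀ u : G, Commute g (i u) → u = 1 := by
      intro u hu
      apply hfpf
      exact (H66.Semi.commute_iff A ⟨σ, mem_zpowers σ⟩ u).mp hu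
    have hfixN : ∀ N : Subgroup G, N.map i ⊓ centralizer {g} = ⊥ := by
      intro N
      rw [eq_bot_iff]
      rintro _ ⟨⟨u, _, rfl⟩, h2⟩
      have h2' : i u ∈ centralizer {g} := h2
      rw [mem_centralizer_singleton_iff] at h2'
      have h3 := hfixi u h2'.symm
      rw [mem_bot, h3, map_one]
    have hRS : R ⊓ S = ⊥ :=
      H1.Coprime.inf_eq_bot_of_coprime_card (IsPGroup.coprime_card_of_ne r q (Ne.symm hqr) R S hRr hSq)
    have hfinal := H66.ShultGross.main (p := p) (q := q) (r := r) hp2 hqp hrp hqr R hRr S hSq (by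
        rw [eq_bot_iff]
        rintro w ⟨hw, hwc⟩
        obtain ⟨u, _, rfl⟩ := hSL hw
        have h1 : u ∈ centralizer (P : Set G) := by
          rw [mem_centralizer_iff]
          intro v hv
          have h2 := mem_centralizer_iff.mp hwc (i v) ⟨v, hv, rfl⟩
          apply hiinj
          rw [map_mul, map_mul]; exact h2
        rw [← hRS]
        exact ⟨⟨u, hCP h1, rfl⟩, hw⟩) g m hg (by rw [← zpowers_le]; exact hSg) (hfixN P) (by
        rw [eq_bot_iff, ← hfixN L]
        exact inf_le_inf hSL le_rfl)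
    -- translate
    let T : Subgroup G :=
      { carrier := {u | u ∈ L ∧ u⁻¹ * (σ ^ p ^ m) u ∈ P}
        one_mem' := ⟨one_mem _, by simp⟩
        mul_mem' := by
          rintro u v ⟨hu, hu'⟩ ⟨hv, hv'⟩
          refine ⟨mul_mem hu hv, ?_⟩
          have hPn : P.Normal := inferInstance
          have h1 := hPn.conj_mem _ hu' v⁻¹
          rw [map_mul]
          have h2 : (u * v)⁻¹ * ((σ ^ p ^ m) u * (σ ^ p ^ m) v) =
              (v⁻¹ * (u⁻¹ * (σ ^ p ^ m) u) * v⁻¹⁻¹) * (v⁻¹ * (σ ^ p ^ m) v) := by group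
          rw [h2]; exact mul_mem h1 hv'
        inv_mem' := by
          rintro u ⟨hu, hu'⟩
          refine ⟨inv_mem hu, ?_⟩
          have hPn : P.Normal := inferInstance
          have h1 := hPn.conj_mem _ (P.inv_mem hu') u
          rw [map_inv]
          have h2 : u⁻¹⁻¹ * ((σ ^ p ^ m) u)⁻¹ = u * (u⁻¹ * (σ ^ p ^ m) u)⁻¹ * u⁻¹ := by group
          rw [h2]; exact h1 }
    have hTL : T ≤ L := fun u hu => hu.1
    have hPT : P ≤ T := by
      intro u hu
      exact ⟨hPL hu, mul_mem (P.inv_mem hu) (hPinv _ (A.pow_mem (mem_zpowers σ) _) u hu)⟩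
    have hST : S.comap i ≤ T := by
      intro u hu
      have huL : u ∈ L := by
        have := hSL hu
        rwa [H66.Semi.mem_map_iff] at this
      refine ⟨huL, ?_⟩
      have h1 := mem_centralizer_iff.mp hfinal (i u) hu
      have h2 : Commute (H66.Semi.j A (⟨σ, mem_zpowers σ⟩ ^ p ^ m)) (i u) := by
        rw [map_pow]; exact h1.symm
      have h3 := (H66.Semi.commute_iff A _ u).mp h2
      have h4 : (σ ^ p ^ m) u = u := h3
      rw [h4, inv_mul_cancel]; exact one_mem _
    have hTL' : T = L := by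
      apply le_antisymm hTL
      rw [← relIndex_eq_one]
      -- the index divides a q-power and is prime to q
      have h1 : T.relIndex L ∣ P.relIndex L := relIndex_dvd_of_le_left L hPT
      have h2 : P.relIndex L = Nat.card (Cfsg.pCore q H) := by
        have h3 : Nat.card L = Nat.card P * Nat.card (Cfsg.pCore q H) :=
          H1.Cores.card_comap_mk' P (Cfsg.pCore q H)
        have h4 := Subgroup.card_mul_index (P.subgroupOf L)
        have h5 : Nat.card (P.subgroupOf L) = Nat.card P := Nat.card_congr (subgroupOfEquivOfLe hPL).toEquiv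
        rw [h5, h3] at h4
        exact Nat.eq_of_mul_eq_mul_left Nat.card_pos h4
      have h3 : T.relIndex L ∣ (S.comap i).relIndex L := relIndex_dvd_of_le_left L hST
      have hSi : (S.comap i).map i = S := by
        apply le_antisymm (map_comap_le i S)
        intro w hw
        obtain ⟨u, _, rfl⟩ := hSL hw
        exact ⟨u, hw, rfl⟩
      have hSiL : S.comap i ≤ L := hST.trans hTL
      have h4 : ¬ q ∣ (S.comap i).relIndex L := by
        have h5 := Subgroup.card_mul_index ((S.comap i).subgroupOf L)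
        have h6 : Nat.card ((S.comap i).subgroupOf L) = Nat.card (S.comap i) :=
          Nat.card_congr (subgroupOfEquivOfLe hSiL).toEquiv
        have h7 : Nat.card (S.comap i) = q ^ (Nat.card L).factorization q := by
          rw [← hcard_i (S.comap i), hSi, hS.2, hcard_i]
        rw [h6, h7] at h5
        intro hd
        have h8 : q ^ ((Nat.card L).factorization q + 1) ∣ Nat.card L := by
          have h9 : q ^ (Nat.card L).factorization q * q ∣ q ^ (Nat.card L).factorization q *
              ((S.comap i).subgroupOf L).index := Nat.mul_dvd_mul_left _ hd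
          rw [h5] at h9
          rw [pow_succ]; exact h9
        have h9 := (hq.pow_dvd_iff_le_factorization Nat.card_pos.ne').mp h8
        omega
      obtain ⟨k, hk⟩ := IsPGroup.iff_card.mp (H1.Cores.isPGroup_pCore (G := H) q)
      rw [h2, hk] at h1
      obtain ⟨c, _, hc⟩ := (Nat.dvd_prime_pow hq).mp h1
      rcases Nat.eq_zero_or_pos c with h | h
      · rw [hc, h, pow_zero]
      · exfalso
        apply h4
        refine Dvd.dvd.trans ?_ h3
        rw [hc]; exact dvd_pow_self q h.ne'
    obtain ⟨u, rfl⟩ := QuotientGroup.mk'_surjective P y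
    have hu : u ∈ L := hy
    rw [← hTL'] at hu
    rw [hσHpow]
    have h1 : QuotientGroup.mk' P (u⁻¹ * (σ ^ p ^ m) u) = 1 := (QuotientGroup.eq_one_iff _).mpr hu.2
    rw [map_mul, map_inv, inv_mul_eq_one] at h1
    exact h1.symm
  have hF : ∀ y ∈ Cfsg.fittingSubgroup H, (σH ^ p ^ m) y = y := by
    let T : Subgroup H :=
      { carrier := {y | (σH ^ p ^ m) y = y}
        one_mem' := map_one _
        mul_mem' := by
          intro a b ha hb
          change (σH ^ p ^ m) (a * b) = a * b
          rw [map_mul, show (σH ^ p ^ m) a = a from ha, show (σH ^ p ^ m) b = b from hb]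
        inv_mem' := by
          intro a ha
          change (σH ^ p ^ m) a⁻¹ = a⁻¹
          rw [map_inv, show (σH ^ p ^ m) a = a from ha] }
    have h1 : Cfsg.fittingSubgroup H ≤ T := by
      rw [H1.Cores.fittingSubgroup_eq_iSup_pCore, iSup_le_iff]
      intro q y hy
      exact hmain q y hy
    exact fun y hy => h1 hy
  have h1 := trivial_of_fitting hHs hp.out (σH ^ p ^ m) hτ hcopH hF (QuotientGroup.mk' P x)
  rw [hσHpow] at h1
  have h2 : QuotientGroup.mk' P (x⁻¹ * (σ ^ p ^ m) x) = 1 := by
    rw [map_mul, map_inv, h1, inv_mul_cancel]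
  exact (QuotientGroup.eq_one_iff _).mp h2

end H66.SGRed

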