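import Cfsg.Agent.Lib.H66.GrossB
import Cfsg.Agent.Lib.H66.SGRed
import Cfsg.Agent.Lib.H66.NilCrit

/-!
Reduction of Gross's theorem.
-/

set_option autoImplicit false

open Subgroup H66.Fpf
open scoped commutatorElement

namespace H66.Gross

variable {G : Type*} [Group G] [Finite G]

theorem exists_data (hG : Group.IsSolvable G) {r : ℕ} [hr : Fact r.Prime] (σ : MulAut G) (m : ℕ)
    (hσ : σ ^ 2 ^ (m + 1) = 1) (hfpf : ∀ g : G, σ g = g → g = 1) (hcore : Cfsg.pPrimeCore r G = ⊥)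
    (q u : ℕ) [hq : Fact q.Prime] [hu : Fact u.Prime] (hqr : q ≠ r) :
    ∃ Q0 S1 : Subgroup (H66.Semi.X (zpowers σ)), IsPGroup q Q0 ∧ IsPGroup u S1 ∧
      Q0 ⊓ centralizer (((Cfsg.pCore r G).map (H66.Semi.i (zpowers σ)) : Subgroup _) : Set _) = ⊥ ∧
      H66.Semi.j (zpowers σ) ⟨σ, mem_zpowers σ⟩ ∈ normalizer (Q0 : Set (H66.Semi.X (zpowers σ))) ∧
      H66.Semi.j (zpowers σ) ⟨σ, mem_zpowers σ⟩ ∈ normalizer (S1 : Set (H66.Semi.X (zpowers σ))) ∧
      S1 ≤ normalizer (Q0 : Set (H66.Semi.X (zpowers σ))) ∧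
      Q0 ≤ (H66.Semi.i (zpowers σ)).range ∧ S1 ≤ (H66.Semi.i (zpowers σ)).range ∧
      (∀ y ∈ Cfsg.pCore q (G ⧸ Cfsg.pCore r G), ∃ w : G, QuotientGroup.mk' (Cfsg.pCore r G) w = y ∧
        H66.Semi.i (zpowers σ) w ∈ Q0) ∧
      ∃ T : Sylow u (G ⧸ Cfsg.pCore r G), ∀ y ∈ T, ∃ x : G, QuotientGroup.mk' (Cfsg.pCore r G) x = y ∧
        H66.Semi.i (zpowers σ) x ∈ S1 := by
  classical
  have h2f : Fact (Nat.Prime 2) := ⟨Nat.prime_two⟩
  have hcopG : Nat.Coprime 2 (Nat.card G) := H66.HKK.coprime_card hfpf hσ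
  set P := Cfsg.pCore r G with hP
  have hPp : IsPGroup r P := H1.Cores.isPGroup_pCore r
  have hPchar : P.Characteristic := H1.Cores.pCore_characteristic r
  have hCP : centralizer (P : Set G) ≤ P := H1.Solv.centralizer_pCore_le hG r hcore
  set A := zpowers σ with hA
  set L := (Cfsg.pCore q (G ⧸ P)).comap (QuotientGroup.mk' P) with hL
  have hLchar : L.Characteristic := Subgroup.Characteristic.comap_quotient_mk (H1.Cores.pCore_characteristic q)
  have hPL : P ≤ L := by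
    rw [hL]
    intro u hu
    rw [mem_comap]
    have : QuotientGroup.mk' P u = 1 := (QuotientGroup.eq_one_iff u).mpr hu
    rw [this]; exact one_mem _
  have hinv : ∀ N : Subgroup G, N.Characteristic → ∀ a ∈ A, ∀ u ∈ N, a u ∈ N := by
    intro N hN a _ u hu
    have := characteristic_iff_le_comap.mp hN a
    exact this hu
  let X := H66.Semi.X A
  let i := H66.Semi.i A
  let g : X := H66.Semi.j A ⟨σ, mem_zpowers σ⟩
  have hiinj : Function.Injective i := H66.Semi.i_injective A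
  set R : Subgroup X := P.map i with hR
  have hRn : R.Normal := H66.Semi.normal_map A P (hinv P hPchar)
  have hRr : IsPGroup r R := hPp.map i
  set LX : Subgroup X := L.map i with hLX
  have hLXn : LX.Normal := H66.Semi.normal_map A L (hinv L hLchar)
  have hirn : (i.range).Normal := by
    rw [MonoidHom.range_eq_map]
    exact H66.Semi.normal_map A ⊤ (fun _ _ _ _ => mem_top _)
  have hRLX : R ≤ LX := map_mono hPL
  have hLXG : LX ≤ i.range := by rintro _ ⟨x, _, rfl⟩; exact ⟨x, rfl⟩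
  have hRG : R ≤ i.range := hRLX.trans hLXG
  have hg : g ^ 2 ^ (m + 1) = 1 := by
    have h1 : (⟨σ, mem_zpowers σ⟩ : A) ^ 2 ^ (m + 1) = 1 := Subtype.ext hσ
    change (H66.Semi.j A ⟨σ, mem_zpowers σ⟩) ^ 2 ^ (m + 1) = 1
    rw [← map_pow, h1, map_one]
  have hcard_i : ∀ N : Subgroup G, Nat.card (N.map i) = Nat.card N := fun N =>
    (Nat.card_congr (N.equivMapOfInjective i hiinj).toEquiv).symm
  have hcardi : Nat.card i.range = Nat.card G := (Nat.card_congr (MonoidHom.ofInjective hiinj).toEquiv).symm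
  have hgp : IsPGroup 2 (zpowers g) := by
    intro a
    obtain ⟨k, hk⟩ := mem_zpowers_iff.mp a.2
    refine ⟨m + 1, Subtype.ext ?_⟩
    change (a : X) ^ 2 ^ (m + 1) = 1
    rw [← hk, ← zpow_natCast, ← zpow_mul, mul_comm, zpow_mul, zpow_natCast, hg, one_zpow]
  have hcop : ∀ K : Subgroup X, K ≤ i.range → (Nat.card (zpowers g)).Coprime (Nat.card K) := by
    intro K hK
    obtain ⟨k, hk⟩ := IsPGroup.iff_card.mp hgp
    rw [hk]
    apply Nat.Coprime.pow_left
    apply hcopG.coprime_dvd_right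
    rw [← hcardi]
    exact card_dvd_of_le hK
  have hpsolv : Group.IsSolvable (zpowers g) := by
    have : Group.IsNilpotent (zpowers g) := hgp.isNilpotent
    infer_instance
  obtain ⟨Q0, hQ0, hQ0A⟩ := H1.Coprime2.exists_invariant_sylow (zpowers g) LX
    (by rw [normalizer_eq_top]; exact le_top) (hcop LX hLXG) (Or.inl hpsolv) q
  have hQ0q : IsPGroup q Q0 := hQ0.isPGroup
  have hQ0L : Q0 ≤ LX := hQ0.1
  have hRQ : R ⊓ Q0 = ⊥ :=
    H1.Coprime.inf_eq_bot_of_coprime_card (IsPGroup.coprime_card_of_ne r q (Ne.symm hqr) R Q0 hRr hQ0q)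
  -- LX = Q0 ⊔ R
  have hLXeq : Q0 ⊔ R = LX := by
    have hle : Q0 ⊔ R ≤ LX := sup_le hQ0L hRLX
    apply le_antisymm hle
    rw [← relIndex_eq_one]
    have h1 : (Q0 ⊔ R).relIndex LX ∣ R.relIndex LX := relIndex_dvd_of_le_left LX le_sup_right
    have h2 : R.relIndex LX = Nat.card (Cfsg.pCore q (G ⧸ P)) := by
      have h3 : Nat.card L = Nat.card P * Nat.card (Cfsg.pCore q (G ⧸ P)) :=
        H1.Cores.card_comap_mk' P (Cfsg.pCore q (G ⧸ P))
      have h4 := Subgroup.card_mul_index (R.subgroupOf LX)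
      have h5 : Nat.card (R.subgroupOf LX) = Nat.card R := Nat.card_congr (subgroupOfEquivOfLe hRLX).toEquiv
      rw [h5, hR, hLX, hcard_i, hcard_i, h3] at h4
      exact Nat.eq_of_mul_eq_mul_left Nat.card_pos h4
    have h3 : (Q0 ⊔ R).relIndex LX ∣ Q0.relIndex LX := relIndex_dvd_of_le_left LX le_sup_left
    have h4 : ¬ q ∣ Q0.relIndex LX := by
      obtain ⟨T, hT⟩ := hQ0.exists_sylow
      have h5 : (T : Subgroup LX).index = Q0.relIndex LX := by
        rw [← hT]
        change _ = (((T : Subgroup LX).map LX.subtype).comap LX.subtype).index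
        rw [comap_map_eq_self_of_injective LX.subtype_injective]
      rw [← h5]; exact T.not_dvd_index
    obtain ⟨k, hk⟩ := IsPGroup.iff_card.mp (H1.Cores.isPGroup_pCore (G := G ⧸ P) q)
    rw [h2, hk] at h1
    obtain ⟨c, _, hc⟩ := (Nat.dvd_prime_pow hq.out).mp h1
    rcases Nat.eq_zero_or_pos c with h | h
    · rw [hc, h, pow_zero]
    · exfalso
      apply h4
      refine Dvd.dvd.trans ?_ h3
      rw [hc]; exact dvd_pow_self q h.ne'
  set N1 := i.range ⊓ normalizer (Q0 : Set X) with hN1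
  have hN1G : N1 ≤ i.range := inf_le_left
  have hfr : ∀ g ∈ i.range, ∃ n ∈ N1, ∃ u ∈ R, g = n * u := by
    intro g hg
    obtain ⟨T, hT⟩ := hQ0.exists_sylow
    have h1 := T.normalizer_sup_eq_top (N := LX)
    rw [hT] at h1
    have h2 : normalizer (Q0 : Set X) ⊔ R = ⊤ := by
      rw [eq_top_iff, ← h1, ← hLXeq]
      apply sup_le le_sup_left
      exact sup_le (le_normalizer.trans le_sup_left) le_sup_right
    have h3 : g ∈ normalizer (Q0 : Set X) ⊔ R := by rw [h2]; trivial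
    rw [mem_sup_of_normal_right] at h3
    obtain ⟨n, hn, u, hu, rfl⟩ := h3
    refine ⟨n, ⟨?_, hn⟩, u, hu, rfl⟩
    have := mul_mem hg (inv_mem (hRG hu))
    rwa [mul_inv_cancel_right] at this
  have hAN1 : zpowers g ≤ normalizer (N1 : Set X) :=
    H1.Coprime2.le_normalizer_inf (by rw [normalizer_eq_top]; exact le_top)
      (H1.Coprime2.le_normalizer_normalizer hQ0A)
  obtain ⟨S1, hS1, hS1A⟩ := H1.Coprime2.exists_invariant_sylow (zpowers g) N1 hAN1 (hcop N1 hN1G) (Or.inl hpsolv) u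
  refine ⟨Q0, S1, hQ0q, hS1.isPGroup, ?_, hQ0A (mem_zpowers g), hS1A (mem_zpowers g), hS1.1.trans inf_le_right,
    hQ0L.trans hLXG, hS1.1.trans hN1G, ?_, ?_⟩
  · rw [eq_bot_iff, ← hRQ]
    rintro w ⟨hw, hwc⟩
    obtain ⟨v, _, rfl⟩ := hQ0L hw
    have h1 : v ∈ centralizer (P : Set G) := by
      rw [mem_centralizer_iff]
      intro x hx
      have h2 := mem_centralizer_iff.mp hwc (i x) ⟨x, hx, rfl⟩
      apply hiinj
      rw [map_mul, map_mul]; exact h2
    exact ⟨⟨v, hCP h1, rfl⟩, hw⟩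
  · intro y hy
    obtain ⟨l, rfl⟩ := QuotientGroup.mk'_surjective P y
    have hl : l ∈ L := hy
    have hlX : i l ∈ Q0 ⊔ R := by rw [hLXeq]; exact ⟨l, hl, rfl⟩
    rw [mem_sup_of_normal_right] at hlX
    obtain ⟨w, hw, v, hv, e⟩ := hlX
    obtain ⟨v', hv', rfl⟩ := hv
    obtain ⟨w', _, rfl⟩ := hQ0L hw
    have e1 : w' * v' = l := hiinj (by rw [map_mul]; exact e)
    refine ⟨w', ?_, hw⟩
    rw [← e1, map_mul, show QuotientGroup.mk' P v' = 1 from (QuotientGroup.eq_one_iff v').mpr hv', mul_one]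
  · obtain ⟨T, hT⟩ := hS1.exists_sylow
    let ψ : i.range ≃* G := (MonoidHom.ofInjective hiinj).symm
    have hψ : ∀ x : i.range, i (ψ x) = x := fun x => congrArg Subtype.val ((MonoidHom.ofInjective hiinj).apply_symm_apply x)
    let φ : N1 →* G ⧸ P := (QuotientGroup.mk' P).comp (ψ.toMonoidHom.comp (inclusion hN1G))
    have hφ : Function.Surjective φ := by
      intro y
      obtain ⟨g', rfl⟩ := QuotientGroup.mk'_surjective P y
      obtain ⟨n, hn, v, hv, e⟩ := hfr (i g') ⟨g', rfl⟩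
      refine ⟨⟨n, hn⟩, ?_⟩
      change QuotientGroup.mk' P (ψ ⟨n, hN1G hn⟩) = QuotientGroup.mk' P g'
      rw [QuotientGroup.mk'_apply, QuotientGroup.mk'_apply, QuotientGroup.eq]
      obtain ⟨v', hv', rfl⟩ := hv
      have e2 : (ψ ⟨n, hN1G hn⟩)⁻¹ * g' = v' := by
        apply hiinj
        rw [map_mul, map_inv, hψ, e]
        exact inv_mul_cancel_left n (i v')
      rw [e2]; exact hv'
    refine ⟨T.mapSurjective hφ, ?_⟩
    rintro y ⟨t, ht, rfl⟩
    refine ⟨ψ (inclusion hN1G t), rfl, ?_⟩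
    have h1 : i (ψ (inclusion hN1G t)) = (t : X) := hψ _
    change i (ψ (inclusion hN1G t)) ∈ S1
    rw [h1, ← hT]
    exact ⟨t, ht, rfl⟩

end H66.Gross
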