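import Cfsg.Agent.Lib.H66.GrossC

/-!
Reduction of Gross's theorem, second part.
-/

set_option autoImplicit false

open Subgroup H66.Fpf
open scoped commutatorElement

namespace H66.FH

/-- extension by a nilpotent kernel -/
theorem succ_of_hom {G G' : Type*} [Group G] [Group G'] {n : ℕ} (φ : G →* G') (hφ : Function.Surjective φ)
    (hN : Group.IsNilpotent φ.ker) (h : FH n G') : FH (n + 1) G := by
  obtain ⟨F, h0, h1, hmono, hnorm, hk⟩ := h
  refine ⟨Fin.cons ⊥ (fun i => (F i).comap φ), rfl, ?_, ?_, ?_, ?_⟩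
  · have : Fin.last (n + 1) = (Fin.last n).succ := rfl
    rw [this, Fin.cons_succ, h1, comap_top]
  · rw [Fin.monotone_iff_le_succ]
    intro i
    refine Fin.cases ?_ ?_ i
    · exact bot_le
    · intro i
      have e : (i.succ).castSucc = (i.castSucc).succ := rfl
      rw [e, Fin.cons_succ, Fin.cons_succ]
      exact comap_mono (hmono (Fin.castSucc_le_succ i))
  · intro i
    refine Fin.cases ?_ ?_ i
    · exact (inferInstance : (⊥ : Subgroup G).Normal)
    · intro i
      rw [Fin.cons_succ]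
      exact (hnorm i).comap _
  · intro i
    refine Fin.cases ?_ ?_ i
    · obtain ⟨k, hk⟩ := (Subgroup.isNilpotent_iff_lowerCentralSeries φ.ker).mp hN
      refine ⟨k, ?_⟩
      change ((F 0).comap φ).lowerCentralSeries k ≤ _
      rw [h0, MonoidHom.comap_bot, hk]
      exact bot_le
    · intro i
      obtain ⟨k, hk⟩ := hk i
      refine ⟨k, ?_⟩
      change ((F i.succ).comap φ).lowerCentralSeries k ≤ (F i.castSucc).comap φ
      rw [← map_le_iff_le_comap, map_lowerCentralSeries]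
      refine le_trans ?_ hk
      rw [map_comap_eq_self_of_surjective hφ]

end H66.FH

namespace H66.Gross

section abs

variable {H : Type*} [Group H] [Finite H]

theorem pCore_quot (q : ℕ) (N : Subgroup H) [N.Normal] :
    Cfsg.pCore q (H ⧸ (Cfsg.pCore q (H ⧸ N)).comap (QuotientGroup.mk' N)) = ⊥ := by
  set K := (Cfsg.pCore q (H ⧸ N)).comap (QuotientGroup.mk' N) with hK
  set L := (Cfsg.pCore q (H ⧸ K)).comap (QuotientGroup.mk' K) with hL
  have hLn : L.Normal := inferInstance
  have hLK : L ≤ K := by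
    rw [hK, ← map_le_iff_le_comap]
    have hn : (L.map (QuotientGroup.mk' N)).Normal := hLn.map _ (QuotientGroup.mk'_surjective N)
    apply H1.Cores.le_pCore hn
    rintro ⟨_, x, hx, rfl⟩
    have h1 : QuotientGroup.mk' K x ∈ Cfsg.pCore q (H ⧸ K) := hx
    obtain ⟨a, ha⟩ := H1.Cores.isPGroup_pCore (G := H ⧸ K) q ⟨_, h1⟩
    have h2 : QuotientGroup.mk' K (x ^ q ^ a) = 1 := by
      rw [map_pow]; exact congrArg Subtype.val ha
    have h3 : x ^ q ^ a ∈ K := (QuotientGroup.eq_one_iff _).mp h2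
    obtain ⟨b, hb⟩ := H1.Cores.isPGroup_pCore (G := H ⧸ N) q ⟨_, h3⟩
    have h4 : (QuotientGroup.mk' N (x ^ q ^ a)) ^ q ^ b = 1 := congrArg Subtype.val hb
    refine ⟨a + b, Subtype.ext ?_⟩
    change (QuotientGroup.mk' N x) ^ q ^ (a + b) = 1
    rw [pow_add, pow_mul, ← map_pow]
    exact h4
  rw [eq_bot_iff]
  intro y hy
  obtain ⟨x, rfl⟩ := QuotientGroup.mk'_surjective K y
  exact (QuotientGroup.eq_one_iff _).mpr (hLK hy)

theorem nilpotent_closure (hH : Group.IsSolvable H) (τ : MulAut H) (hτ : τ ^ 2 = 1)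
    (hodd : Nat.Coprime 2 (Nat.card H))
    (h : ∀ q : ℕ, q.Prime → ∀ u : ℕ, u.Prime → u ≠ q → ∃ T : Sylow u H, ∀ y ∈ T,
      y * (τ y)⁻¹ ∈ centralizer (Cfsg.pCore q H : Set H)) :
    Group.IsNilpotent (Subgroup.normalClosure {y : H | ∃ x : H, y = x⁻¹ * τ x}) := by
  classical
  set N := Subgroup.normalClosure {y : H | ∃ x : H, y = x⁻¹ * τ x} with hN
  have hNs : Group.IsSolvable N := inferInstance
  apply H66.NilCrit.isNilpotent_of_index hNs
  intro q hq
  have hqf := Fact.mk hq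
  set C := centralizer (Cfsg.pCore q H : Set H) with hC
  have hCchar : C.Characteristic := inferInstance
  set K := (Cfsg.pCore q (H ⧸ C)).comap (QuotientGroup.mk' C) with hK
  have hKchar : K.Characteristic := Subgroup.Characteristic.comap_quotient_mk (H1.Cores.pCore_characteristic q)
  have hCK : C ≤ K := by
    intro x hx
    rw [hK, mem_comap]
    have : QuotientGroup.mk' C x = 1 := (QuotientGroup.eq_one_iff x).mpr hx
    rw [this]; exact one_mem _
  have hKτ : K.map τ.toMonoidHom = K := map_char τ K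
  have hcopK : Nat.Coprime 2 (Nat.card (H ⧸ K)) := hodd.coprime_dvd_right (Subgroup.card_quotient_dvd_card K)
  have hfix := H66.SGRed.trivial_of_fitting (H := H ⧸ K) inferInstance Nat.prime_two (quot τ K hKτ)
    (quot_pow_eq_one τ K hKτ hτ) hcopK (by
      let S : Subgroup (H ⧸ K) :=
        { carrier := {y | quot τ K hKτ y = y}
          one_mem' := map_one _
          mul_mem' := by
            intro a b ha hb
            change quot τ K hKτ (a * b) = a * b
            rw [map_mul, show quot τ K hKτ a = a from ha, show quot τ K hKτ b = b from hb]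
          inv_mem' := by
            intro a ha
            change quot τ K hKτ a⁻¹ = a⁻¹
            rw [map_inv, show quot τ K hKτ a = a from ha] }
      have h1 : Cfsg.fittingSubgroup (H ⧸ K) ≤ S := by
        rw [H1.Cores.fittingSubgroup_eq_iSup_pCore, iSup_le_iff]
        rintro ⟨u, hu⟩ y hy
        have huf := Fact.mk hu
        change y ∈ Cfsg.pCore u (H ⧸ K) at hy
        by_cases huq : u = q
        · subst huq
          rw [pCore_quot u C, mem_bot] at hy
          rw [hy]; exact one_mem _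
        obtain ⟨T, hT⟩ := h q hq u hu huq
        have hy' := H1.Cores.pCore_le_sylow (T.mapSurjective (QuotientGroup.mk'_surjective K)) hy
        rw [Sylow.coe_mapSurjective] at hy'
        obtain ⟨t, ht, rfl⟩ := hy'
        have h2 := hCK (hT t ht)
        change quot τ K hKτ (QuotientGroup.mk' K t) = QuotientGroup.mk' K t
        rw [quot_mk]
        have h3 : QuotientGroup.mk' K (t * (τ t)⁻¹) = 1 := (QuotientGroup.eq_one_iff _).mpr h2
        rw [map_mul, map_inv, mul_inv_eq_one] at h3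
        exact h3.symm
      exact fun y hy => h1 hy)
  have hNK : N ≤ K := by
    rw [hN]
    apply Subgroup.normalClosure_le_normal
    rintro _ ⟨x, rfl⟩
    have h1 := hfix (QuotientGroup.mk' K x)
    rw [quot_mk] at h1
    have h2 : QuotientGroup.mk' K (x⁻¹ * τ x) = 1 := by rw [map_mul, map_inv, h1, inv_mul_cancel]
    exact (QuotientGroup.eq_one_iff _).mp h2
  -- index
  set D := centralizer (Cfsg.pCore q N : Set N) with hD
  have hDn : D.Normal := inferInstance
  have hp : IsPGroup q (N ⧸ D) := by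
    intro y
    obtain ⟨x, rfl⟩ := QuotientGroup.mk'_surjective D y
    have h1 : QuotientGroup.mk' C (x : H) ∈ Cfsg.pCore q (H ⧸ C) := hNK x.2
    obtain ⟨a, ha⟩ := H1.Cores.isPGroup_pCore (G := H ⧸ C) q ⟨_, h1⟩
    refine ⟨a, ?_⟩
    have h2 : QuotientGroup.mk' C ((x : H) ^ q ^ a) = 1 := by
      rw [map_pow]; exact congrArg Subtype.val ha
    have h3 : (x : H) ^ q ^ a ∈ C := (QuotientGroup.eq_one_iff _).mp h2
    rw [← map_pow]
    apply (QuotientGroup.eq_one_iff _).mpr
    rw [hD, mem_centralizer_iff]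
    intro w hw
    apply Subtype.ext
    have h4 : (w : H) ∈ Cfsg.pCore q H := by
      have : (w : H) ∈ (Cfsg.pCore q N).map N.subtype := ⟨w, hw, rfl⟩
      rw [H1.Cores.map_subtype_pCore] at this
      exact this.2
    exact mem_centralizer_iff.mp h3 w h4
  obtain ⟨n, hn⟩ := IsPGroup.iff_card.mp hp
  exact ⟨n, hn⟩

end abs

variable {G : Type*} [Group G] [Finite G]

theorem i_comm {σ : MulAut G} (j : ℕ) (x : G) :
    ⁅H66.Semi.i (zpowers σ) x, H66.Semi.j (zpowers σ) ⟨σ, mem_zpowers σ⟩ ^ j⁆ =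
      H66.Semi.i (zpowers σ) (x * ((σ ^ j) x)⁻¹) := by
  rw [commutatorElement_def, ← map_pow]
  have h1 := H66.Semi.conj_i (zpowers σ) (⟨σ, mem_zpowers σ⟩ ^ j) x⁻¹
  have h2 : (((⟨σ, mem_zpowers σ⟩ : zpowers σ) ^ j : zpowers σ) : MulAut G) = σ ^ j := rfl
  rw [h2, map_inv, map_inv] at h1
  rw [map_mul, map_inv, mul_assoc, mul_assoc]
  congr 1
  rw [← mul_assoc]
  rw [h1]
  simp

/-- the case `O_{r'}(G) = 1` for Claim A -/
theorem redA (hG : Group.IsSolvable G) {r : ℕ} [hr : Fact r.Prime] (σ : MulAut G) (m : ℕ)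
    (hσ : σ ^ 2 ^ (m + 1) = 1) (hfpf : ∀ g : G, σ g = g → g = 1) (hcore : Cfsg.pPrimeCore r G = ⊥) :
    Group.IsNilpotent ((Subgroup.normalClosure {y : G | ∃ x : G, y = x⁻¹ * (σ ^ 2 ^ m) x}).map
      (QuotientGroup.mk' (Cfsg.pCore r G))) := by
  classical
  have h2f : Fact (Nat.Prime 2) := ⟨Nat.prime_two⟩
  have hcopG : Nat.Coprime 2 (Nat.card G) := H66.HKK.coprime_card hfpf hσ
  have hr2 : r ≠ 2 ∨ ∀ x : G, x = 1 := by
    by_cases h : r = 2
    · right
      subst h
      have h1 : (⊤ : Subgroup G) ≤ Cfsg.pPrimeCore 2 G :=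
        H1.Cores.le_pPrimeCore inferInstance (by rw [Subgroup.card_top]; exact hcopG.symm)
      rw [hcore] at h1
      exact fun x => h1 (mem_top x)
    · exact Or.inl h
  rcases hr2 with hr2 | htriv
  swap
  · have : Subsingleton G := ⟨fun a b => by rw [htriv a, htriv b]⟩
    have : Subsingleton (G ⧸ Cfsg.pCore r G) := inferInstance
    infer_instance
  set P := Cfsg.pCore r G with hP
  have hPchar : P.Characteristic := H1.Cores.pCore_characteristic r
  have hPσ : P.map σ.toMonoidHom = P := map_char σ P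
  have hcopH : Nat.Coprime 2 (Nat.card (G ⧸ P)) := hcopG.coprime_dvd_right (Subgroup.card_quotient_dvd_card P)
  let τ : MulAut (G ⧸ P) := (quot σ P hPσ) ^ 2 ^ m
  have hτmk : ∀ x : G, τ (QuotientGroup.mk' P x) = QuotientGroup.mk' P ((σ ^ 2 ^ m) x) :=
    fun x => quot_pow_mk σ P hPσ _ x
  have hτ2 : τ ^ 2 = 1 := by
    change ((quot σ P hPσ) ^ 2 ^ m) ^ 2 = 1
    rw [← pow_mul, ← pow_succ]
    exact quot_pow_eq_one σ P hPσ hσ
  have hmain := nilpotent_closure (H := G ⧸ P) inferInstance τ hτ2 hcopH (by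
    intro q hq u hu huq
    have hqf := Fact.mk hq
    have huf := Fact.mk hu
    have htriv : ∀ hbot : Cfsg.pCore q (G ⧸ P) = ⊥, ∃ T : Sylow u (G ⧸ P), ∀ y ∈ T,
        y * (τ y)⁻¹ ∈ centralizer (Cfsg.pCore q (G ⧸ P) : Set (G ⧸ P)) := by
      intro hbot
      obtain ⟨T⟩ : Nonempty (Sylow u (G ⧸ P)) := inferInstance
      refine ⟨T, ?_⟩
      intro y _
      rw [hbot, mem_centralizer_iff]
      intro w hw
      rw [SetLike.mem_coe, mem_bot] at hw
      rw [hw, one_mul, mul_one]
    by_cases hqr : q = r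
    · subst hqr
      exact htriv (H1.Cores.pCore_quotient_pCore q)
    by_cases hq2 : q = 2
    · subst hq2
      exact htriv (H66.NilCrit.pCore_eq_bot Nat.prime_two ((Nat.Prime.coprime_iff_not_dvd Nat.prime_two).mp hcopH))
    by_cases hu2 : u = 2
    · subst hu2
      obtain ⟨T⟩ : Nonempty (Sylow 2 (G ⧸ P)) := inferInstance
      refine ⟨T, ?_⟩
      intro y hy
      have h1 : y = 1 := by
        obtain ⟨a, ha⟩ := T.isPGroup' ⟨y, hy⟩
        have ha' : y ^ 2 ^ a = 1 := congrArg Subtype.val ha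
        have h2 : orderOf y ∣ 2 ^ a := orderOf_dvd_of_pow_eq_one ha'
        have h3 : orderOf y ∣ Nat.card (G ⧸ P) := orderOf_dvd_natCard y
        have h4 : orderOf y ∣ 1 := by
          have h5 : Nat.Coprime (2 ^ a) (Nat.card (G ⧸ P)) := Nat.Coprime.pow_left _ hcopH
          rw [← h5]; exact Nat.dvd_gcd h2 h3
        rw [← orderOf_eq_one_iff]; exact Nat.dvd_one.mp h4
      rw [h1, map_one, inv_one, mul_one]; exact one_mem _
    obtain ⟨Q0, S1, hQ0, hS1, hQR, hgQ, hgS, hSQ, hQi, hSi, hpre, T, hT⟩ :=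
      exists_data hG σ m hσ hfpf hcore q u hqr
    have hRn : (P.map (H66.Semi.i (zpowers σ))).Normal := H66.Semi.normal_map _ P (by
      intro a _ u hu
      have := characteristic_iff_le_comap.mp hPchar a
      exact this hu)
    have hs : (H66.Semi.j (zpowers σ) ⟨σ, mem_zpowers σ⟩) ^ 2 ^ (m + 1) = 1 := by
      have h1 : (⟨σ, mem_zpowers σ⟩ : zpowers σ) ^ 2 ^ (m + 1) = 1 := Subtype.ext hσ
      rw [← map_pow, h1, map_one]
    have hfixi : P.map (H66.Semi.i (zpowers σ)) ⊓ centralizer {H66.Semi.j (zpowers σ) ⟨σ, mem_zpowers σ⟩} = ⊥ := by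
      rw [eq_bot_iff]
      rintro _ ⟨⟨u, _, rfl⟩, h2⟩
      have h2' := mem_centralizer_singleton_iff.mp h2
      have h3 := hfpf u ((H66.Semi.commute_iff _ ⟨σ, mem_zpowers σ⟩ u).mp h2'.symm)
      rw [mem_bot, h3, map_one]
    have hcl := claimA (q := q) (r := r) (t := u) hq2 hr2 hu2 hqr huq (P.map (H66.Semi.i (zpowers σ)))
      ((H1.Cores.isPGroup_pCore (G := G) r).map _) Q0 hQ0 hQR (H66.Semi.j (zpowers σ) ⟨σ, mem_zpowers σ⟩) m hs hgQ
      hfixi S1 hS1 hgS hSQ
    refine ⟨T, ?_⟩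
    intro y hy
    obtain ⟨x, rfl, hx⟩ := hT y hy
    rw [mem_centralizer_iff]
    intro w' hw'
    obtain ⟨w, rfl, hw⟩ := hpre w' hw'
    have h1 : ⁅H66.Semi.i (zpowers σ) x, H66.Semi.j (zpowers σ) ⟨σ, mem_zpowers σ⟩ ^ 2 ^ m⁆ ∈
        centralizer (Q0 : Set (H66.Semi.X (zpowers σ))) :=
      hcl (commutator_mem_commutator hx (mem_zpowers _))
    rw [i_comm] at h1
    have h2 := mem_centralizer_iff.mp h1 _ hw
    rw [← map_mul, ← map_mul] at h2
    have h3 := H66.Semi.i_injective _ h2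
    rw [hτmk, ← map_inv, ← map_mul, ← map_mul, ← map_mul, h3])
  have hle : (Subgroup.normalClosure {y : G | ∃ x : G, y = x⁻¹ * (σ ^ 2 ^ m) x}).map (QuotientGroup.mk' P) ≤
      Subgroup.normalClosure {y : G ⧸ P | ∃ x : G ⧸ P, y = x⁻¹ * τ x} := by
    rw [map_le_iff_le_comap]
    apply Subgroup.normalClosure_le_normal
    rintro _ ⟨x, rfl⟩
    rw [SetLike.mem_coe, mem_comap]
    apply Subgroup.subset_normalClosure
    exact ⟨QuotientGroup.mk' P x, by rw [hτmk, map_mul, map_inv]⟩
  obtain ⟨k, hk⟩ := (Subgroup.isNilpotent_iff_lowerCentralSeries _).mp hmain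
  rw [Subgroup.isNilpotent_iff_lowerCentralSeries]
  refine ⟨k, ?_⟩
  rw [eq_bot_iff, ← hk]
  exact Subgroup.lowerCentralSeries_mono k hle

end H66.Gross
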