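import Cfsg.Agent.Lib.H66.GrossD

/-!
Reduction of Gross's theorem, third part.
-/

set_option autoImplicit false

open Subgroup H66.Fpf
open scoped commutatorElement

namespace H66.Gross

variable {G : Type*} [Group G] [Finite G]

/-- the case `O_{r'}(G) = 1` for Claim B -/
theorem redB (hG : Group.IsSolvable G) {r : ℕ} [hr : Fact r.Prime] (σ : MulAut G)
    (hσ : σ ^ 2 ^ (1 + 1) = 1) (hfpf : ∀ g : G, σ g = g → g = 1) (hcore : Cfsg.pPrimeCore r G = ⊥) :
    Group.IsNilpotent (G ⧸ Cfsg.pCore r G) := by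
  classical
  have h2f : Fact (Nat.Prime 2) := ⟨Nat.prime_two⟩
  have hcopG : Nat.Coprime 2 (Nat.card G) := H66.HKK.coprime_card hfpf hσ
  have hr2 : r ≠ 2 ∨ ∀ x : G, x = 1 := by
    by_cases h : r = 2
    · right
      subst h
      have h1 : (⊤ : Subgroup G) ≤ Cfsg.pPrimeCore 2 G :=
        H1.Cores.le_pPrimeCore inferInstance (by rw [Subgroup.card_top]; exact hcopG.symm)
      rw [hcore] at h1
      exact fun x => h1 (mem_top x)
    · exact Or.inl h
  rcases hr2 with hr2 | htriv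
  swap
  · have : Subsingleton G := ⟨fun a b => by rw [htriv a, htriv b]⟩
    have : Subsingleton (G ⧸ Cfsg.pCore r G) := inferInstance
    infer_instance
  set P := Cfsg.pCore r G with hP
  have hPchar : P.Characteristic := H1.Cores.pCore_characteristic r
  have hcopH : Nat.Coprime 2 (Nat.card (G ⧸ P)) := hcopG.coprime_dvd_right (Subgroup.card_quotient_dvd_card P)
  have hmain : ∀ q : ℕ, q.Prime → ∀ u : ℕ, u.Prime → u ≠ q → ∃ T : Sylow u (G ⧸ P),
      (T : Subgroup (G ⧸ P)) ≤ centralizer (Cfsg.pCore q (G ⧸ P) : Set (G ⧸ P)) := by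
    intro q hq u hu huq
    have hqf := Fact.mk hq
    have huf := Fact.mk hu
    have htriv : ∀ hbot : Cfsg.pCore q (G ⧸ P) = ⊥, ∃ T : Sylow u (G ⧸ P),
        (T : Subgroup (G ⧸ P)) ≤ centralizer (Cfsg.pCore q (G ⧸ P) : Set (G ⧸ P)) := by
      intro hbot
      obtain ⟨T⟩ : Nonempty (Sylow u (G ⧸ P)) := inferInstance
      refine ⟨T, ?_⟩
      intro y _
      rw [hbot, mem_centralizer_iff]
      intro w hw
      rw [SetLike.mem_coe, mem_bot] at hw
      rw [hw, one_mul, mul_one]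
    by_cases hqr : q = r
    · subst hqr
      exact htriv (H1.Cores.pCore_quotient_pCore q)
    by_cases hq2 : q = 2
    · subst hq2
      exact htriv (H66.NilCrit.pCore_eq_bot Nat.prime_two ((Nat.Prime.coprime_iff_not_dvd Nat.prime_two).mp hcopH))
    by_cases hu2 : u = 2
    · subst hu2
      obtain ⟨T⟩ : Nonempty (Sylow 2 (G ⧸ P)) := inferInstance
      refine ⟨T, ?_⟩
      intro y hy
      have h1 : y = 1 := by
        obtain ⟨a, ha⟩ := T.isPGroup' ⟨y, hy⟩
        have ha' : y ^ 2 ^ a = 1 := congrArg Subtype.val ha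
        have h2 : orderOf y ∣ 2 ^ a := orderOf_dvd_of_pow_eq_one ha'
        have h3 : orderOf y ∣ Nat.card (G ⧸ P) := orderOf_dvd_natCard y
        have h4 : orderOf y ∣ 1 := by
          have h5 : Nat.Coprime (2 ^ a) (Nat.card (G ⧸ P)) := Nat.Coprime.pow_left _ hcopH
          rw [← h5]; exact Nat.dvd_gcd h2 h3
        rw [← orderOf_eq_one_iff]; exact Nat.dvd_one.mp h4
      rw [h1]; exact one_mem _
    obtain ⟨Q0, S1, hQ0, hS1, hQR, hgQ, hgS, hSQ, hQi, hSi, hpre, T, hT⟩ :=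
      exists_data hG σ 1 hσ hfpf hcore q u hqr
    have hRn : (P.map (H66.Semi.i (zpowers σ))).Normal := H66.Semi.normal_map _ P (by
      intro a _ u hu
      have := characteristic_iff_le_comap.mp hPchar a
      exact this hu)
    have hs : (H66.Semi.j (zpowers σ) ⟨σ, mem_zpowers σ⟩) ^ 2 ^ (1 + 1) = 1 := by
      have h1 : (⟨σ, mem_zpowers σ⟩ : zpowers σ) ^ 2 ^ (1 + 1) = 1 := Subtype.ext hσ
      rw [← map_pow, h1, map_one]
    have hfixK : ∀ K : Subgroup (H66.Semi.X (zpowers σ)), K ≤ (H66.Semi.i (zpowers σ)).range →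
        K ⊓ centralizer {H66.Semi.j (zpowers σ) ⟨σ, mem_zpowers σ⟩} = ⊥ := by
      intro K hK
      rw [eq_bot_iff]
      rintro y ⟨h1, h2⟩
      obtain ⟨u, rfl⟩ := hK h1
      have h2' := mem_centralizer_singleton_iff.mp h2
      have h3 := hfpf u ((H66.Semi.commute_iff _ ⟨σ, mem_zpowers σ⟩ u).mp h2'.symm)
      rw [mem_bot, h3, map_one]
    have hcl := claimB (q := q) (r := r) (t := u) hq2 hr2 hu2 hqr huq (P.map (H66.Semi.i (zpowers σ)))
      ((H1.Cores.isPGroup_pCore (G := G) r).map _) Q0 hQ0 hQR (H66.Semi.j (zpowers σ) ⟨σ, mem_zpowers σ⟩) hs hgQ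
      (hfixK _ (by rintro _ ⟨x, _, rfl⟩; exact ⟨x, rfl⟩)) (hfixK _ hQi) S1 hS1 hgS (hfixK _ hSi) hSQ
    refine ⟨T, ?_⟩
    intro y hy
    obtain ⟨x, rfl, hx⟩ := hT y hy
    rw [mem_centralizer_iff]
    intro w' hw'
    obtain ⟨w, rfl, hw⟩ := hpre w' hw'
    have h1 := hcl hx
    have h2 := mem_centralizer_iff.mp h1 _ hw
    rw [← map_mul, ← map_mul] at h2
    have h3 := H66.Semi.i_injective _ h2
    rw [← map_mul, ← map_mul, h3]
  apply H66.NilCrit.isNilpotent_of_index inferInstance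
  intro q hq
  have hqf := Fact.mk hq
  have hidx : (centralizer (Cfsg.pCore q (G ⧸ P) : Set (G ⧸ P))).index ≠ 0 := index_ne_zero_of_finite
  refine ⟨_, Nat.eq_prime_pow_of_unique_prime_dvd hidx ?_⟩
  intro u hu hdvd
  by_contra huq
  obtain ⟨T, hT⟩ := hmain q hq u hu huq
  have huf := Fact.mk hu
  exact T.not_dvd_index (hdvd.trans (index_dvd_of_le hT))

end H66.Gross
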