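import Cfsg.Agent.Lib.H66.Rad
import Cfsg.Agent.Lib.H66.HomMod
import Cfsg.Agent.Lib.H66.MinQ
import Cfsg.Agent.Lib.H66.FreeAct

/-!
The Hall–Higman type theorem behind the Shult–Gross theorem: `g` of order `p^(m+1)` acting without fixed
points on the `r`-group `R` and the `q`-group `Q` acting faithfully on `R`; then `g^(p^m)` centralizes `Q`.
-/

set_option autoImplicit false

open Subgroup H66.Weights H66.Crit H66.MinQ H66.Rad
open scoped commutatorElement

namespace H66.ShultGross

variable {X : Type*} [Group X]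

/-- nontrivial subgroups of a cyclic `p`-group contain the last nontrivial power of the generator. -/
theorem mem_of_ne_bot {p : ℕ} [hp : Fact p.Prime] {g : X} {m : ℕ} (hg : g ^ p ^ (m + 1) = 1) {B : Subgroup X}
    (hB : B ≤ zpowers g) (hne : B ≠ ⊥) : g ^ p ^ m ∈ B := by
  obtain ⟨⟨b, hb⟩, hb1'⟩ := Subgroup.ne_bot_iff_exists_ne_one.mp hne
  have hb1 : b ≠ 1 := fun h' => hb1' (Subtype.ext h')
  obtain ⟨k, hk⟩ := mem_zpowers_iff.mp (hB hb)
  -- k mod p^{m+1}
  have hpp : 0 < p ^ (m + 1) := pow_pos hp.out.pos _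
  obtain ⟨k', hk', hb'⟩ : ∃ k' : ℕ, ¬ p ^ (m + 1) ∣ k' ∧ b = g ^ k' := by
    refine ⟨(k % (p ^ (m + 1) : ℕ)).toNat, ?_, ?_⟩
    · intro hd
      apply hb1
      have h1 : b = g ^ ((k % (p ^ (m + 1) : ℕ)).toNat) := by
        rw [← hk, ← zpow_natCast, Int.toNat_of_nonneg (Int.emod_nonneg _ (by exact_mod_cast hpp.ne'))]
        conv_lhs => rw [← Int.emod_add_mul_ediv k (p ^ (m + 1) : ℕ)]
        rw [zpow_add, zpow_mul, zpow_natCast, hg, one_zpow, mul_one]
      obtain ⟨c, hc⟩ := hd
      rw [h1, hc, pow_mul, hg, one_pow]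
    · rw [← hk, ← zpow_natCast, Int.toNat_of_nonneg (Int.emod_nonneg _ (by exact_mod_cast hpp.ne'))]
      conv_lhs => rw [← Int.emod_add_mul_ediv k (p ^ (m + 1) : ℕ)]
      rw [zpow_add, zpow_mul, zpow_natCast, hg, one_zpow, mul_one]
  have hk0 : k' ≠ 0 := by rintro rfl; exact hk' (dvd_zero _)
  obtain ⟨i, u, hu, rfl⟩ := Nat.exists_eq_pow_mul_and_not_dvd hk0 p hp.out.ne_one
  have him : i ≤ m := by
    by_contra hcon
    push Not at hcon
    exact hk' ((pow_dvd_pow p hcon).mul_right u)
  -- (g^(p^i u))^(p^(m-i)) = (g^(p^m))^u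
  have h1 : (g ^ p ^ m) ^ u ∈ B := by
    have h2 : (g ^ p ^ m) ^ u = b ^ p ^ (m - i) := by
      rw [hb', ← pow_mul, ← pow_mul]
      congr 1
      have : p ^ m = p ^ i * p ^ (m - i) := by rw [← pow_add, Nat.add_sub_cancel' him]
      rw [this]; ring
    rw [h2]; exact B.pow_mem hb _
  have hcop : Nat.Coprime u p := (Nat.coprime_comm.mp ((Nat.Prime.coprime_iff_not_dvd hp.out).mpr hu))
  have hzp : (g ^ p ^ m) ^ p = 1 := by rw [← pow_mul, ← pow_succ, hg]
  -- Bezout
  have h3 : (g ^ p ^ m) = ((g ^ p ^ m) ^ u) ^ (Nat.gcdA u p) := by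
    have h4 := Nat.gcd_eq_gcd_ab u p
    rw [hcop.gcd_eq_one] at h4
    have h5 : (g ^ p ^ m) = (g ^ p ^ m) ^ ((u : ℤ) * Nat.gcdA u p + p * Nat.gcdB u p) := by
      rw [← h4]; simp
    conv_lhs => rw [h5]
    rw [zpow_add, zpow_mul, zpow_mul, zpow_natCast, zpow_natCast, hzp, one_zpow, mul_one]
  rw [h3]
  exact B.zpow_mem h1 _

/-- conjugation-stability of `{h | h x h⁻¹ x⁻¹ ∈ N}` -/
def fixSub (N : Subgroup X) (x : X) (_hx : x ∈ normalizer (N : Set X)) : Subgroup X where
  carrier := {h | h ∈ normalizer (N : Set X) ∧ h * x * h⁻¹ * x⁻¹ ∈ N}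
  one_mem' := ⟨one_mem _, by simp⟩
  mul_mem' := by
    rintro a b ⟨ha, ha'⟩ ⟨hb, hb'⟩
    refine ⟨mul_mem ha hb, ?_⟩
    have h1 := (mem_normalizer_iff.mp ha _).mp hb'
    have h2 : a * b * x * (a * b)⁻¹ * x⁻¹ = (a * (b * x * b⁻¹ * x⁻¹) * a⁻¹) * (a * x * a⁻¹ * x⁻¹) := by group
    rw [h2]; exact mul_mem h1 ha'
  inv_mem' := by
    rintro a ⟨ha, ha'⟩
    refine ⟨inv_mem ha, ?_⟩
    have h1 := (mem_normalizer_iff.mp (inv_mem ha) _).mp (N.inv_mem ha')
    have h2 : a⁻¹ * x * a⁻¹⁻¹ * x⁻¹ = a⁻¹ * (a * x * a⁻¹ * x⁻¹)⁻¹ * a⁻¹⁻¹ := by group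
    rw [h2]; exact h1

theorem conj_pow (g b : X) (j : ℕ) : g⁻¹ ^ j * b * g ^ j = (g ^ j)⁻¹ * b * g ^ j := by rw [inv_pow]

variable [Finite X]

theorem main {p q r : ℕ} [hp : Fact p.Prime] [hq : Fact q.Prime] [hr : Fact r.Prime] (hp2 : p ≠ 2)
    (hqp : q ≠ p) (hrp : r ≠ p) (hqr : q ≠ r) (R : Subgroup X) [R.Normal] (hR : IsPGroup r R)
    (Q0 : Subgroup X) (hQ0 : IsPGroup q Q0) (hQR : Q0 ⊓ centralizer (R : Set X) = ⊥)
    (g : X) (m : ℕ) (hg : g ^ p ^ (m + 1) = 1) (hgQ : g ∈ normalizer (Q0 : Set X))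
    (hgR : R ⊓ centralizer {g} = ⊥) (hgQ' : Q0 ⊓ centralizer {g} = ⊥) :
    g ^ p ^ m ∈ centralizer (Q0 : Set X) := by
  classical
  by_contra hz
  set A := zpowers g with hA
  set z := g ^ p ^ m with hzdef
  set D := zpowers z with hD
  have hDA : D ≤ A := by rw [hD, zpowers_le]; exact npow_mem_zpowers g _
  have hAcomm : ∀ a ∈ A, ∀ b ∈ A, a * b = b * a := by
    intro a ha b hb
    obtain ⟨i, rfl⟩ := mem_zpowers_iff.mp ha
    obtain ⟨j, rfl⟩ := mem_zpowers_iff.mp hb
    rw [← zpow_add, ← zpow_add, add_comm]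
  have hAD : A ≤ normalizer (D : Set X) := by
    apply H1.Coprime.le_normalizer_of_conj_mem
    intro a ha d hd
    rw [hAcomm a ha d (hDA hd), mul_inv_cancel_right]; exact hd
  have hAQ0 : A ≤ normalizer (Q0 : Set X) := by rw [hA, zpowers_le]; exact hgQ
  have hzD : z ∈ D := mem_zpowers z
  have hApG : IsPGroup p A := by
    intro a
    obtain ⟨i, hi⟩ := mem_zpowers_iff.mp a.2
    refine ⟨m + 1, Subtype.ext ?_⟩
    change (a : X) ^ p ^ (m + 1) = 1
    rw [← hi, ← zpow_natCast, ← zpow_mul, mul_comm, zpow_mul, zpow_natCast, hg, one_zpow]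
  have hsub : ∀ B : Subgroup X, B ≤ A → IsPGroup p B := fun B hB => hApG.to_le hB
  -- minimal Q
  obtain ⟨Q, hQQ0, hMQ⟩ := exists_MQ hDA hAD hAQ0 (fun h => hz (h hzD))
  have hQq : IsPGroup q Q := hQ0.to_le hQQ0
  have hQnil : Group.IsNilpotent Q := hQq.isNilpotent
  have hQs : Group.IsSolvable Q := inferInstance
  have hcopAQ : ∀ B : Subgroup X, B ≤ A → ∀ Y : Subgroup X, Y ≤ Q → (Nat.card B).Coprime (Nat.card Y) := by
    intro B hB Y hY
    exact IsPGroup.coprime_card_of_ne p q hqp.symm B Y (hsub B hB) (hQq.to_le hY)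
  have hcopDQ := hcopAQ D hDA Q le_rfl
  -- field
  let K := AlgebraicClosure (ZMod r)
  have : CharP K r := charP_of_injective_algebraMap (algebraMap (ZMod r) K).injective r
  have hcast : ∀ n : ℕ, ¬ r ∣ n → (n : K) ≠ 0 := by
    intro n hn h
    exact hn ((CharP.cast_eq_zero_iff K r n).mp h)
  have hcastA : ∀ B : Subgroup X, B ≤ A → (Nat.card B : K) ≠ 0 := by
    intro B hB
    apply hcast
    obtain ⟨n, hn⟩ := IsPGroup.iff_card.mp (hsub B hB)
    rw [hn]
    intro h
    exact hrp ((Nat.prime_dvd_prime_iff_eq hr.out hp.out).mp (hr.out.dvd_of_dvd_pow h))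
  have hcastQ : ∀ B : Subgroup X, B ≤ Q → (Nat.card B : K) ≠ 0 := by
    intro B hB
    apply hcast
    obtain ⟨n, hn⟩ := IsPGroup.iff_card.mp (hQq.to_le hB)
    rw [hn]
    intro h
    exact hqr ((Nat.prime_dvd_prime_iff_eq hr.out hq.out).mp (hr.out.dvd_of_dvd_pow h)).symm
  let ρ := H66.HomMod.rep R K
  -- faithfulness
  have hfaith : ∀ Y : Subgroup X, Y ≤ Q → (∀ y ∈ Y, ∀ f : H66.HomMod.V R K, ρ y f = f) → Y = ⊥ := by
    intro Y hY htriv
    have h1 := H66.HomMod.le_centralizer R K hR Y (by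
      obtain ⟨n, hn⟩ := IsPGroup.iff_card.mp (hQq.to_le hY)
      rw [hn]
      exact Nat.Coprime.pow_left _ ((Nat.coprime_primes hq.out hr.out).mpr hqr)) htriv
    rw [eq_bot_iff, ← hQR]
    exact le_inf (hY.trans hQQ0) h1
  -- no fixed vectors
  have hcentA : centralizer (A : Set X) ≤ centralizer {g} :=
    centralizer_le (by rw [Set.singleton_subset_iff]; exact mem_zpowers g)
  have hfix : ∀ f : H66.HomMod.V R K, (∀ a ∈ A, ρ a f = f) → f = 0 := by
    intro f hf
    apply H66.HomMod.eq_zero_of_fixed R K A _ _ _ f hf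
    · exact IsPGroup.coprime_card_of_ne p r hrp.symm A R hApG hR
    · have : Group.IsNilpotent R := hR.isNilpotent
      exact Or.inr inferInstance
    · rw [eq_bot_iff, ← hgR]
      exact inf_le_inf le_rfl hcentA
  -- z in nontrivial subgroups
  have hzmem : ∀ B : Subgroup X, B ≤ A → B ≠ ⊥ → z ∈ B := fun B hB hne => mem_of_ne_bot hg hB hne
  have hAQ : A ≤ normalizer (Q : Set X) := hMQ.inv
  by_cases hab : ∀ x ∈ Q, ∀ y ∈ Q, x * y = y * x
  · -- abelian case
    have hW : cmt ρ Q ≠ ⊥ := by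
      intro hcon
      have h1 := hfaith Q le_rfl (by
        intro y hy f
        have := mem_cmt (ρ := ρ) hy f
        rw [hcon, Submodule.mem_bot, sub_eq_zero] at this
        exact this)
      exact hMQ.ne_bot h1
    obtain ⟨χ, hχ⟩ := exists_weight (ρ := ρ) (B := Q) hW (fun b hb w hw => cmt_invariant (le_normalizer hb) hw)
      (fun b hb c hc w _ => by
        rw [← Module.End.mul_apply, ← map_mul, hab b hb c hc, map_mul]; rfl)
    obtain ⟨v, hv, hv0⟩ := (Submodule.ne_bot_iff _).mp hχ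
    have hchar := isChar_of_mem hv.1 hv0
    have hstb : stb A Q hAQ χ ≠ ⊥ := by
      intro hcon
      apply hv0
      apply orbit hAQ (hcastA A le_rfl) (hcastQ Q le_rfl) (W := ⊤) (fun _ _ _ _ => trivial)
        (fun w _ hw => hfix w hw) hv.1 trivial
      intro a ha
      rw [hcon, mem_bot] at ha
      rw [ha, map_one]; rfl
    have hzs := hzmem _ (stb_le hAQ) hstb
    have hDs : D ≤ stb A Q hAQ χ := by rw [hD, zpowers_le]; exact hzs
    have htriv : ∀ b ∈ Q, χ b = 1 := by
      intro b hb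
      rw [← hMQ.commutator_eq hcopDQ hQs] at hb
      exact trivial_on_commutator hchar hMQ.invD (fun d hd => (hDs hd).2) hb
    apply hv0
    apply eq_zero_of_mem_cmt (hcastQ Q le_rfl) hv.2
    intro b hb
    rw [hv.1 b hb, htriv b hb, one_smul]
  · -- nonabelian case
    have hC := hMQ.nonabelian hcopDQ hQnil hab
    have hQQ : ⁅Q, Q⁆ ≤ Q ⊓ centralizer (Q : Set X) := by rw [← hC]; exact hMQ.derived hQnil
    set Zq := Q ⊓ centralizer (Q : Set X) with hZq
    have hAZ : A ≤ normalizer (Zq : Set X) :=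
      H1.Coprime2.le_normalizer_inf hAQ (H1.Coprime2.le_normalizer_centralizer hAQ)
    have hQ'ne : ⁅Q, Q⁆ ≠ ⊥ := by
      intro hcon
      rw [commutator_eq_bot_iff_le_centralizer] at hcon
      apply hab
      intro x hx y hy
      exact mem_centralizer_iff.mp (hcon hy) x hx
    -- choice of the weight
    have hW : cmt ρ ⁅Q, Q⁆ ≠ ⊥ := by
      intro hcon
      have h1 := hfaith ⁅Q, Q⁆ (hQQ.trans inf_le_left) (by
        intro y hy f
        have := mem_cmt (ρ := ρ) hy f
        rw [hcon, Submodule.mem_bot, sub_eq_zero] at this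
        exact this)
      exact hQ'ne h1
    have hZn : Zq ≤ normalizer ((⁅Q, Q⁆ : Subgroup X) : Set X) :=
      inf_le_left.trans (H1.Coprime2.le_normalizer_commutator_left Q Q)
    obtain ⟨χ, hχ⟩ := exists_weight (ρ := ρ) (B := Zq) hW (fun b hb w hw => cmt_invariant (hZn hb) hw)
      (fun b hb c hc w _ => by
        have h1 : b * c = c * b := mem_centralizer_iff.mp hc.2 b hb.1
        rw [← Module.End.mul_apply, ← map_mul, h1, map_mul]; rfl)
    obtain ⟨v0, hv0, hv00⟩ := (Submodule.ne_bot_iff _).mp hχ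
    have hchar : IsChar Zq χ := isChar_of_mem hv0.1 hv00
    have hχne : ∃ b ∈ ⁅Q, Q⁆, χ b ≠ 1 := by
      by_contra hcon
      push Not at hcon
      apply hv00
      apply eq_zero_of_mem_cmt (hcastQ ⁅Q, Q⁆ (hQQ.trans inf_le_left)) hv0.2
      intro b hb
      rw [hv0.1 b (hQQ hb), hcon b hb, one_smul]
    set Rd := rad hQQ hchar with hRd
    have hRdne : Rd ≠ Q := rad_ne hQQ hchar hχne
    have hRdle : Rd ≤ Q := rad_le hQQ hchar
    have hZRd : Zq ≤ Rd := center_le hQQ hchar
    obtain ⟨μ, hμ⟩ := exists_mu (ρ := ρ) hQQ hchar (by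
      rw [Submodule.ne_bot_iff]; exact ⟨v0, hv0.1, hv00⟩)
    -- stabilizers
    set Al := stb A Zq hAZ χ with hAl
    have hAlA : Al ≤ A := stb_le hAZ
    have hAlRd : Al ≤ normalizer (Rd : Set X) := by
      intro a ha
      exact mem_normalizer_rad hQQ hchar (hAQ (hAlA ha)) ha.2
    set Am := stb Al Rd hAlRd μ with hAm
    have hAmAl : Am ≤ Al := stb_le hAlRd
    have hAmA : Am ≤ A := hAmAl.trans hAlA
    have hfixl : ∀ w ∈ wt ρ Zq χ, (∀ a ∈ Al, ρ a w = w) → w = 0 := by
      intro w hw hwA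
      exact orbit hAZ (hcastA A le_rfl) (hcastQ Zq inf_le_left) (W := ⊤) (fun _ _ _ _ => trivial)
        (fun w _ hw => hfix w hw) hw trivial hwA
    have hfixm : ∀ w ∈ W ρ hQQ hchar μ, (∀ a ∈ Am, ρ a w = w) → w = 0 := by
      intro w hw hwA
      exact orbit hAlRd (hcastA Al hAlA) (hcastQ Rd hRdle) (W := wt ρ Zq χ)
        (fun a ha w hw => map_wt_stb ha hw) hfixl hw.1 hw.2 hwA
    have hAmne : Am ≠ ⊥ := by
      intro hcon
      obtain ⟨w, hw, hw0⟩ := (Submodule.ne_bot_iff _).mp hμ
      apply hw0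
      apply hfixm w hw
      intro a ha
      rw [hcon, mem_bot] at ha
      rw [ha, map_one]; rfl
    -- generator of Am
    obtain ⟨g', hg'⟩ : ∃ g' : X, Am = zpowers g' := by
      have hcyc : IsCyclic A := inferInstance
      have : IsCyclic (Am.subgroupOf A) := inferInstance
      obtain ⟨y, hy⟩ := IsCyclic.exists_generator (α := Am.subgroupOf A)
      refine ⟨((y : A) : X), le_antisymm ?_ ?_⟩
      · intro a ha
        obtain ⟨k, hk⟩ := mem_zpowers_iff.mp (hy ⟨⟨a, hAmA ha⟩, ha⟩)
        rw [mem_zpowers_iff]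
        refine ⟨k, ?_⟩
        have := congrArg (fun t : Am.subgroupOf A => ((t : A) : X)) hk
        simpa using this
      · rw [zpowers_le]; exact y.2
    have hg'm : g' ∈ Am := by rw [hg']; exact mem_zpowers g'
    set M := Nat.card Am with hM
    have hMord : orderOf g' = M := by rw [hM, hg', Nat.card_zpowers]
    obtain ⟨n1, hn1⟩ := IsPGroup.iff_card.mp (hsub Am hAmA)
    have hn10 : n1 ≠ 0 := by
      rintro rfl
      rw [pow_zero] at hn1
      exact hAmne (Subgroup.card_eq_one.mp hn1)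
    -- fixed point freeness modulo N
    have hfree : ∀ (N : Subgroup X), N ≤ Q → Q ≤ normalizer (N : Set X) → Zq ≤ N → ∀ B : Subgroup X, B ≤ A →
        B ≤ normalizer (N : Set X) → ∀ a ∈ B, a ≠ 1 → ∀ x ∈ Q, ⁅x, a⁆ ∈ N → x ∈ N := by
      intro N hNQ hQN hZN B hBA hBN a ha ha1 x hx hxa
      have h1 : z ∈ zpowers a := hzmem _ (by rw [zpowers_le]; exact hBA ha) (by
        rw [Ne, zpowers_eq_bot]; exact ha1)
      have h2 : zpowers a ≤ fixSub N x (hQN hx) := by
        rw [zpowers_le]
        refine ⟨hBN ha, ?_⟩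
        have h3 := N.inv_mem hxa
        rwa [commutatorElement_inv] at h3
      have h3 : D ≤ fixSub N x (hQN hx) := by
        rw [hD, zpowers_le]; exact h2 h1
      apply hMQ.mem_of_coset hcopDQ hQs hNQ hQN (h3.trans (fun _ h => h.1)) (by rw [hC]; exact hZN) hx
      intro d hd
      exact (h3 hd).2
    -- critical lemma
    have hcd := cdata (ρ := ρ) hQQ hchar hμ
    obtain ⟨N, hN0, hN2, hNM⟩ := crit_final hcd hμ (hcastQ Q le_rfl) (g := g') (hAQ (hAmA hg'm)) (by
        intro w hw
        exact ⟨map_wt_stb (hAB := hAlRd) hg'm hw.1, map_wt_stb (hAB := hAZ) (hAmAl hg'm) hw.2⟩) (M := M)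
      (hcastA Am hAmA) (by
        intro i hi0 hiM x hx hxi
        have h1 : g' ^ i ∈ Am := Am.pow_mem hg'm i
        have h2 : g' ^ i ≠ 1 := by
          intro h
          have := orderOf_dvd_of_pow_eq_one h
          rw [hMord] at this
          exact absurd (Nat.le_of_dvd hi0 this) (by omega)
        exact hfree Rd hRdle (le_normalizer_rad hQQ hchar) hZRd Am hAmA (hAmAl.trans hAlRd) _ h1 h2 x hx hxi) (by
        intro w _
        rw [← hMord, pow_orderOf_eq_one, map_one]; rfl) (by
        intro w hw hgw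
        apply hfixm w hw
        intro a ha
        have h1 : zpowers g' ≤ (MonoidHom.ker (MonoidHom.id X) ⊔ zpowers g') := le_sup_right
        rw [hg'] at ha
        obtain ⟨k, rfl⟩ := mem_zpowers_iff.mp ha
        -- powers fix w
        have h2 : ∀ j : ℕ, ρ (g' ^ j) w = w := by
          intro j
          induction j with
          | zero => rw [pow_zero, map_one]; rfl
          | succ j ih => rw [pow_succ, map_mul, Module.End.mul_apply, hgw, ih]
        have h3 : g' ^ k ∈ zpowers g' := ha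
        rw [mem_zpowers_iff_mem_range_orderOf] at h3
        obtain ⟨j, _, hj⟩ := Finset.mem_image.mp h3
        rw [← hj]; exact h2 j)
    -- divisibility N² ≡ 1 mod M
    have hrel : Rd.relIndex Q = N ^ 2 := by
      have h1 := Subgroup.card_mul_index (Rd.subgroupOf Q)
      have h2 : Nat.card (Rd.subgroupOf Q) = Nat.card Rd := Nat.card_congr (subgroupOfEquivOfLe hRdle).toEquiv
      rw [h2, ← hN2, mul_comm] at h1
      exact Nat.eq_of_mul_eq_mul_right Nat.card_pos h1
    have hdvdM : M ∣ N ^ 2 - 1 := by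
      rw [← hrel]
      exact H66.FreeAct.card_dvd_relIndex_sub_one Am Q Rd (hAmA.trans hAQ) (hAmAl.trans hAlRd)
        (hfree Rd hRdle (le_normalizer_rad hQQ hchar) hZRd Am hAmA (hAmAl.trans hAlRd))
    have hN1 : N ≠ 1 := by
      rintro rfl
      rw [one_pow, relIndex_eq_one] at hrel
      exact hRdne (le_antisymm hRdle hrel)
    have hNeq : N + 1 = M := by
      have h1 : M ∣ (N - 1) * (N + 1) := by
        have h2 : (N - 1) * (N + 1) = N ^ 2 - 1 := by
          obtain ⟨t, rfl⟩ : ∃ t, N = t + 1 := ⟨N - 1, by omega⟩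
          rw [Nat.add_sub_cancel]
          have : (t + 1) ^ 2 = t * (t + 1 + 1) + 1 := by ring
          rw [this, Nat.add_sub_cancel]
        rw [h2]; exact hdvdM
      have h3 : M ∣ N - 1 ∨ M ∣ N + 1 := by
        by_cases hpN : p ∣ N - 1
        · left
          have h4 : ¬ p ∣ N + 1 := by
            intro h5
            have h6 : N + 1 = (N - 1) + 2 := by omega
            rw [h6] at h5
            have h7 := (Nat.dvd_add_right hpN).mp h5
            exact hp2 ((Nat.prime_dvd_prime_iff_eq hp.out Nat.prime_two).mp h7)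
          have h5 : Nat.Coprime M (N + 1) := by
            rw [hM, hn1]
            exact Nat.Coprime.pow_left _ ((Nat.Prime.coprime_iff_not_dvd hp.out).mpr h4)
          exact h5.dvd_of_dvd_mul_right h1
        · right
          have h5 : Nat.Coprime M (N - 1) := by
            rw [hM, hn1]
            exact Nat.Coprime.pow_left _ ((Nat.Prime.coprime_iff_not_dvd hp.out).mpr hpN)
          exact h5.dvd_of_dvd_mul_left h1
      rcases h3 with h3 | h3
      · have := Nat.le_of_dvd (by omega) h3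
        omega
      · have := Nat.le_of_dvd (by omega) h3
        omega
    -- q = 2 and N = 2^d
    obtain ⟨c, hc⟩ : ∃ c, N ^ 2 = q ^ c := by
      rw [← hrel]
      obtain ⟨c, hc⟩ := IsPGroup.iff_card.mp hQq
      have h1 : Rd.relIndex Q ∣ q ^ c := by rw [← hc]; exact relIndex_dvd_card Rd Q
      obtain ⟨c', _, hc'⟩ := (Nat.dvd_prime_pow hq.out).mp h1
      exact ⟨c', hc'⟩
    obtain ⟨d, hdc, hd⟩ := (Nat.dvd_prime_pow hq.out).mp (show N ∣ q ^ c by rw [← hc]; exact dvd_pow_self N two_ne_zero)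
    have hd0 : 0 < d := by
      rcases Nat.eq_zero_or_pos d with h | h
      · rw [h, pow_zero] at hd; exact absurd hd hN1
      · exact h
    have hMn1 : M = p ^ n1 := hn1
    have hq2 : q = 2 := by
      have h1 : 2 ∣ N := by
        have h2 : Odd (p ^ n1) := (hp.out.odd_of_ne_two hp2).pow
        rw [← hMn1, ← hNeq] at h2
        obtain ⟨t, ht⟩ := h2
        exact ⟨t, by omega⟩
      rw [hd] at h1
      exact ((Nat.prime_dvd_prime_iff_eq Nat.prime_two hq.out).mp (Nat.prime_two.dvd_of_dvd_pow h1)).symm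
    have hNd : N = 2 ^ d := by rw [hd, hq2]
    have hPd : 2 ^ d + 1 = p ^ n1 := by rw [← hNd, hNeq, hMn1]
    -- order of A
    obtain ⟨nA, hnA⟩ := IsPGroup.iff_card.mp hApG
    set k := Al.relIndex A with hk
    have hkcard : k * Nat.card Al = Nat.card A := by
      have h1 := Subgroup.card_mul_index (Al.subgroupOf A)
      have h2 : Nat.card (Al.subgroupOf A) = Nat.card Al := Nat.card_congr (subgroupOfEquivOfLe hAlA).toEquiv
      rw [h2, mul_comm] at h1
      exact h1
    have hk0 : 0 < k := by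
      rcases Nat.eq_zero_or_pos k with h | h
      · rw [h, zero_mul] at hkcard
        exact absurd hkcard.symm Nat.card_pos.ne'
      · exact h
    have hgk : g ^ k ∈ Al := by
      have hAc : IsMulCommutative A := inferInstance
      have h1 : ((⟨g, mem_zpowers g⟩ : A)) ^ (Al.subgroupOf A).index ∈ Al.subgroupOf A :=
        Subgroup.pow_index_mem (Al.subgroupOf A) ⟨g, mem_zpowers g⟩
      exact h1
    -- the twisted characters
    let χj : ℕ → X → K := fun j b => χ ((g ^ j)⁻¹ * b * g ^ j)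
    have hgZ : ∀ j : ℕ, ∀ b ∈ Zq, (g ^ j)⁻¹ * b * g ^ j ∈ Zq := by
      intro j b hb
      have h1 := (mem_normalizer_iff.mp (hAZ (A.inv_mem (A.pow_mem (mem_zpowers g) j))) b).mp hb
      rwa [inv_inv] at h1
    have hcharj : ∀ j, IsChar Zq (χj j) := by
      intro j
      constructor
      · change χ ((g ^ j)⁻¹ * 1 * g ^ j) = 1
        rw [mul_one, inv_mul_cancel, hchar.one]
      · intro b hb c hc
        change χ _ = χ _ * χ _
        rw [← hchar.mul _ (hgZ j b hb) _ (hgZ j c hc)]
        congr 1; group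
    have hperiod : ∀ j, ∀ b ∈ Zq, χj (j + k) b = χj j b := by
      intro j b hb
      change χ _ = χ _
      have h1 := hgk.2 _ (hgZ j b hb)
      rw [← h1]
      congr 1
      rw [pow_add]; group
    have hmod : ∀ j, ∀ b ∈ Zq, χj j b = χj (j % k) b := by
      intro j b hb
      have h1 : ∀ t s, χj (s + t * k) b = χj s b := by
        intro t
        induction t with
        | zero => intro s; simp
        | succ t ih =>
          intro s
          rw [Nat.succ_mul, ← add_assoc, hperiod _ b hb, ih]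
      conv_lhs => rw [← Nat.mod_add_div j k, mul_comm k]
      exact h1 _ _
    -- product of the conjugates is trivial
    let ψ : X → K := fun b => ∏ j ∈ Finset.range k, χj j b
    have hψchar : IsChar Zq ψ := by
      constructor
      · change ∏ j ∈ Finset.range k, χj j 1 = 1
        exact Finset.prod_eq_one (fun j _ => (hcharj j).one)
      · intro b hb c hc
        change ∏ j ∈ Finset.range k, χj j (b * c) = _
        rw [Finset.prod_congr rfl (fun j _ => (hcharj j).mul b hb c hc), Finset.prod_mul_distrib]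
    have hψg : ∀ b ∈ Zq, ψ (g⁻¹ * b * g) = ψ b := by
      intro b hb
      change ∏ j ∈ Finset.range k, χj j (g⁻¹ * b * g) = ∏ j ∈ Finset.range k, χj j b
      have h1 : ∀ j, χj j (g⁻¹ * b * g) = χj (j + 1) b := by
        intro j
        change χ _ = χ _
        congr 1
        rw [pow_succ']; group
      rw [Finset.prod_congr rfl (fun j _ => h1 j)]
      obtain ⟨k', hk'⟩ : ∃ k', k = k' + 1 := ⟨k - 1, by omega⟩
      have h2 : χj k b = χj 0 b := by
        have := hperiod 0 b hb
        rwa [zero_add] at this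
      rw [hk'] at h2 ⊢
      rw [Finset.prod_range_succ, h2, Finset.prod_range_succ' _ k']
    have hψ1 : ∀ b ∈ Zq, ψ b = 1 := by
      have h1 : A ≤ stb A Zq hAZ ψ := zpowers_le.mpr ⟨mem_zpowers g, hψg⟩
      have h2 : ⁅Zq, A⁆ = Zq := by
        have h3 := H1.Coprime2.commutator_sup_centralizer A Zq hAZ (hcopAQ A le_rfl Zq inf_le_left)
          (Or.inr (H1.Coprime.isSolvable_of_le inf_le_left hQs))
        have h4 : Zq ⊓ centralizer (A : Set X) = ⊥ := by
          rw [eq_bot_iff, ← hgQ']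
          exact le_inf ((inf_le_left.trans inf_le_left).trans hQQ0) (inf_le_right.trans hcentA)
        rwa [h4, sup_bot_eq] at h3
      intro b hb
      rw [← h2] at hb
      exact trivial_on_commutator hψchar hAZ (fun d hd => (h1 hd).2) hb
    -- the intersections of the radicals
    let Rj : ℕ → Subgroup X := fun j => rad hQQ (hcharj j)
    have hRjidx : ∀ j, (Rj j).relIndex Q = N ^ 2 := by
      intro j
      -- R_j = g^j Rd g^{-j}
      have hgj : g ^ j ∈ normalizer (Q : Set X) := hAQ (A.pow_mem (mem_zpowers g) j)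
      have h1 : Rj j = Rd.map (MulAut.conj (g ^ j)).toMonoidHom := by
        ext x
        rw [Subgroup.mem_map]
        constructor
        · rintro ⟨hx, h2⟩
          refine ⟨(g ^ j)⁻¹ * x * g ^ j, ⟨?_, ?_⟩, ?_⟩
          · have h1 := (mem_normalizer_iff.mp (inv_mem hgj) x).mp hx
            rwa [inv_inv] at h1
          · intro y hy
            have h3 := h2 (g ^ j * y * (g ^ j)⁻¹) ((mem_normalizer_iff.mp hgj y).mp hy)
            change χ _ = 1 at h3
            rw [← h3]
            congr 1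
            simp only [commutatorElement_def]; group
          · change g ^ j * ((g ^ j)⁻¹ * x * g ^ j) * (g ^ j)⁻¹ = x
            group
        · rintro ⟨y, ⟨hy, h2⟩, rfl⟩
          refine ⟨(mem_normalizer_iff.mp hgj y).mp hy, ?_⟩
          intro w hw
          have hw' : (g ^ j)⁻¹ * w * g ^ j ∈ Q := by
            have h1 := (mem_normalizer_iff.mp (inv_mem hgj) w).mp hw
            rwa [inv_inv] at h1
          have h3 := h2 _ hw'
          change χ _ = 1
          rw [← h3]
          congr 1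
          change (g ^ j)⁻¹ * ⁅g ^ j * y * (g ^ j)⁻¹, w⁆ * g ^ j = ⁅y, (g ^ j)⁻¹ * w * g ^ j⁆
          simp only [commutatorElement_def]; group
      have h2 : Nat.card (Rj j) = Nat.card Rd := by
        rw [h1]
        exact Nat.card_congr (Rd.equivMapOfInjective _ (MulAut.conj (g ^ j)).injective).toEquiv.symm
      have h3 : Rj j ≤ Q := rad_le hQQ (hcharj j)
      have h4 := Subgroup.card_mul_index ((Rj j).subgroupOf Q)
      have h5 : Nat.card ((Rj j).subgroupOf Q) = Nat.card (Rj j) := Nat.card_congr (subgroupOfEquivOfLe h3).toEquiv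
      rw [h5, h2, ← hN2, mul_comm] at h4
      exact Nat.eq_of_mul_eq_mul_right Nat.card_pos h4
    let D0 : Subgroup X := ⨅ j : Fin (k - 1), Rj (j + 1)
    have hD0idx : D0.relIndex Q ≤ (N ^ 2) ^ (k - 1) := by
      refine (relIndex_iInf_le _).trans ?_
      rw [Finset.prod_congr rfl (fun j _ => hRjidx _), Finset.prod_const, Finset.card_univ, Fintype.card_fin]
    -- D1 : intersection over all conjugates, A-invariant and proper
    let D1 : Subgroup X := (⨅ j : ℕ, Rj j) ⊓ Q
    have hD1mem : ∀ x, x ∈ D1 ↔ x ∈ Q ∧ ∀ j : ℕ, ∀ y ∈ Q, χ ((g ^ j)⁻¹ * ⁅x, y⁆ * g ^ j) = 1 := by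
      intro x
      constructor
      · rintro ⟨h1, h2⟩
        refine ⟨h2, ?_⟩
        intro j y hy
        exact ((Subgroup.mem_iInf.mp h1) j).2 y hy
      · rintro ⟨h1, h2⟩
        exact ⟨Subgroup.mem_iInf.mpr (fun j => ⟨h1, h2 j⟩), h1⟩
    have hD1inv : A ≤ normalizer (D1 : Set X) := by
      have hord : 0 < orderOf g := orderOf_pos g
      -- invariance under g: conjugation by g maps D1 into D1
      have h1 : ∀ x ∈ D1, g * x * g⁻¹ ∈ D1 := by
        intro x hx
        rw [hD1mem] at hx ⊢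
        have hgn := hAQ (mem_zpowers g)
        refine ⟨(mem_normalizer_iff.mp hgn x).mp hx.1, ?_⟩
        intro j y hy
        have hy' : g⁻¹ * y * g ∈ Q := by
          have h1 := (mem_normalizer_iff.mp (inv_mem hgn) y).mp hy
          rwa [inv_inv] at h1
        -- use exponent j + orderOf g - 1
        have h2 := hx.2 (j + (orderOf g - 1)) _ hy'
        rw [← h2]
        congr 1
        have h3 : g ^ (j + (orderOf g - 1)) = g ^ j * g⁻¹ := by
          rw [pow_add]
          congr 1
          apply eq_inv_of_mul_eq_one_left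
          rw [← pow_succ, Nat.sub_add_cancel hord, pow_orderOf_eq_one]
        have h4 : g ^ j * g⁻¹ = g⁻¹ * g ^ j := by
          rw [← zpow_natCast, ← zpow_neg_one, ← zpow_add, ← zpow_add, add_comm]
        rw [h3, h4]
        simp only [commutatorElement_def]; group
      rw [hA, zpowers_le]
      -- finite: mapping into suffices
      have h2 : D1.map (MulAut.conj g).toMonoidHom = D1 := by
        apply Subgroup.eq_of_le_of_card_ge
        · rintro _ ⟨x, hx, rfl⟩
          exact h1 x hx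
        · rw [Nat.card_congr (D1.equivMapOfInjective _ (MulAut.conj g).injective).toEquiv.symm]
      rw [mem_normalizer_iff]
      intro x
      constructor
      · exact h1 x
      · intro hx
        rw [← h2] at hx
        obtain ⟨y, hy, hyx⟩ := hx
        have : y = x := by
          have h3 : g * y * g⁻¹ = g * x * g⁻¹ := hyx
          exact mul_left_cancel (mul_right_cancel h3)
        rw [← this]; exact hy
    have hD1Q : D1 ≤ Q := inf_le_right
    have hD1ne : D1 ≠ Q := by
      intro hcon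
      apply hRdne
      apply le_antisymm hRdle
      intro x hx
      rw [← hcon, hD1mem] at hx
      refine ⟨hx.1, ?_⟩
      intro y hy
      have := hx.2 0 y hy
      simpa using this
    have hD1Z : D1 ≤ Zq := by
      have := hMQ.le_of_ne hD1Q hD1ne hD1inv
      rwa [hC] at this
    have hD0D1 : D0 ⊓ Q ≤ D1 := by
      rintro x ⟨hx, hxQ⟩
      rw [hD1mem]
      refine ⟨hxQ, ?_⟩
      have h1 : ∀ j : ℕ, 0 < j → j < k → ∀ y ∈ Q, χj j ⁅x, y⁆ = 1 := by
        intro j hj0 hjk y hy
        have h2 := (Subgroup.mem_iInf.mp hx) ⟨j - 1, by omega⟩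
        have h3 : j - 1 + 1 = j := by omega
        have h4 : x ∈ Rj j := by
          have : x ∈ Rj (j - 1 + 1) := h2
          rwa [h3] at this
        exact h4.2 y hy
      have h0 : ∀ y ∈ Q, χj 0 ⁅x, y⁆ = 1 := by
        intro y hy
        have h2 := hψ1 _ (comm_mem hQQ hxQ hy)
        change ∏ j ∈ Finset.range k, χj j ⁅x, y⁆ = 1 at h2
        obtain ⟨k', hk'⟩ : ∃ k', k = k' + 1 := ⟨k - 1, by omega⟩
        rw [hk', Finset.prod_range_succ'] at h2
        rw [Finset.prod_eq_one, one_mul] at h2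
        · exact h2
        · intro j hj
          rw [Finset.mem_range] at hj
          exact h1 (j + 1) (by omega) (by omega) y hy
      intro j y hy
      have h2 := hmod j _ (comm_mem hQQ hxQ hy)
      change χj j ⁅x, y⁆ = 1
      rw [h2]
      rcases Nat.eq_zero_or_pos (j % k) with h3 | h3
      · rw [h3]; exact h0 y hy
      · exact h1 _ h3 (Nat.mod_lt _ hk0) y hy
    -- index of Zq
    have hZidx : Zq.relIndex Q ≤ (N ^ 2) ^ (k - 1) := by
      refine le_trans ?_ hD0idx
      have h1 : (D0 ⊓ Q) ≤ Zq := hD0D1.trans hD1Z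
      have h2 : Zq.relIndex Q ∣ (D0 ⊓ Q).relIndex Q := relIndex_dvd_of_le_left Q h1
      rw [inf_relIndex_right] at h2
      apply Nat.le_of_dvd _ h2
      exact Nat.pos_of_ne_zero (Subgroup.index_ne_zero_of_finite (H := D0.subgroupOf Q))
    have hZne : Zq ≠ Q := by
      intro hcon
      apply hRdne
      apply le_antisymm hRdle
      rw [← hcon]; exact hZRd
    obtain ⟨a, ha⟩ : ∃ a, Zq.relIndex Q = 2 ^ a := by
      obtain ⟨c, hc⟩ := IsPGroup.iff_card.mp hQq
      have h1 : Zq.relIndex Q ∣ q ^ c := by rw [← hc]; exact relIndex_dvd_card Zq Q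
      obtain ⟨c', _, hc'⟩ := (Nat.dvd_prime_pow hq.out).mp h1
      exact ⟨c', by rw [hc', hq2]⟩
    have ha0 : 0 < a := by
      rcases Nat.eq_zero_or_pos a with h | h
      · rw [h, pow_zero, relIndex_eq_one] at ha
        exact absurd (le_antisymm inf_le_left ha) hZne
      · exact h
    have hQZ : Q ≤ normalizer (Zq : Set X) :=
      H1.Coprime2.le_normalizer_inf le_normalizer (H1.Coprime2.le_normalizer_centralizer le_normalizer)
    have hAdvd : Nat.card A ∣ 2 ^ a - 1 := by
      rw [← ha]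
      exact H66.FreeAct.card_dvd_relIndex_sub_one A Q Zq hAQ hAZ
        (hfree Zq inf_le_left hQZ le_rfl A le_rfl hAZ)
    -- final count
    obtain ⟨nl, hnl⟩ := IsPGroup.iff_card.mp (hsub Al hAlA)
    have hn1nl : n1 ≤ nl := by
      have h1 : Nat.card Am ∣ Nat.card Al := card_dvd_of_le hAmAl
      rw [hn1, hnl] at h1
      exact (Nat.pow_dvd_pow_iff_le_right hp.out.one_lt).mp h1
    have hnlA : nl ≤ nA := by
      have h1 : Nat.card Al ∣ Nat.card A := card_dvd_of_le hAlA
      rw [hnl, hnA] at h1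
      exact (Nat.pow_dvd_pow_iff_le_right hp.out.one_lt).mp h1
    have hkp : k = p ^ (nA - nl) := by
      rw [hnl, hnA] at hkcard
      have h1 : p ^ nA = p ^ (nA - nl) * p ^ nl := by rw [← pow_add, Nat.sub_add_cancel hnlA]
      rw [h1] at hkcard
      exact Nat.eq_of_mul_eq_mul_right (pow_pos hp.out.pos _) hkcard
    have hle := H66.FreeAct.le_of_dvd (p := p) (d := d) (n := n1) (t := nA - n1) (a := a) hp2 hd0 hPd ha0 (by
      rw [Nat.add_sub_cancel' (hn1nl.trans hnlA), ← hnA]; exact hAdvd)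
    have hkle : k ≤ p ^ (nA - n1) := by
      rw [hkp]; exact Nat.pow_le_pow_right hp.out.pos (by omega)
    rw [ha, hNd] at hZidx
    have h1 : 2 ^ a ≤ 2 ^ (2 * d * (k - 1)) := by
      calc 2 ^ a ≤ ((2 ^ d) ^ 2) ^ (k - 1) := hZidx
        _ = 2 ^ (2 * d * (k - 1)) := by rw [← pow_mul, ← pow_mul]; congr 1; ring
    have h2 : a ≤ 2 * d * (k - 1) := (Nat.pow_le_pow_iff_right (by norm_num)).mp h1
    have h3 : 2 * d * k ≤ 2 * d * p ^ (nA - n1) := Nat.mul_le_mul_left _ hkle
    have h4 : 2 * d * (k - 1) < 2 * d * k := Nat.mul_lt_mul_of_pos_left (by omega) (by omega)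
    omega

end H66.ShultGross
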