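import Cfsg.Agent.Lib.H66.Tens
import Cfsg.Agent.Lib.H66.ShultGross

/-!
A cyclic `2`-group `⟨g⟩` of order `2^(k+2)` acting on a `t`-group `T` and a representation in which the
involution `z` of `⟨g⟩` has the same fixed vectors as `g`: if `z` does not centralize `T`, then `t = 3` and `k = 0`.
-/

set_option autoImplicit false

open Subgroup H66.Weights H66.Crit H66.MinQ H66.Rad H66.EigB Module
open scoped commutatorElement

namespace H66.Level2

variable {K V Γ : Type*} [Field K] [AddCommGroup V] [Module K V] [Group Γ] [Finite Γ]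
  {ρ : Representation K Γ V}

theorem weight_dichotomy {g : Γ} {k : ℕ} (hg : g ^ 2 ^ (k + 2) = 1)
    (hfix : ∀ v, ρ (g ^ 2 ^ (k + 1)) v = v → ρ g v = v) {B : Subgroup Γ} (hgB : g ∈ normalizer (B : Set Γ))
    (hB : (Nat.card B : K) ≠ 0) {χ : Γ → K} {v : V} (hv : v ∈ wt ρ B χ) (hv0 : v ≠ 0) :
    (∀ b ∈ B, χ (g⁻¹ * b * g) = χ b) ∨ ρ (g ^ 2 ^ (k + 1)) v = -v := by
  classical
  set z := g ^ 2 ^ (k + 1) with hz
  set A := zpowers g with hA
  have hAB : A ≤ normalizer (B : Set Γ) := by rw [hA, zpowers_le]; exact hgB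
  have hzA : z ∈ A := A.pow_mem (mem_zpowers g) _
  set S := stb A B hAB χ with hS
  have hzz : z * z = 1 := by
    rw [hz, ← pow_add, ← two_mul, ← pow_succ', hg]
  by_cases hgS : g ∈ S
  · left; exact hgS.2
  right
  have hchar := isChar_of_mem hv hv0
  have hw : ρ z (v + ρ z v) = v + ρ z v := by
    rw [map_add, ← Module.End.mul_apply, ← map_mul, hzz, map_one, Module.End.one_apply, add_comm]
  have hgw := hfix _ hw
  by_cases hzS : z ∈ S
  · have h1 : v + ρ z v ∈ wt ρ B χ := (wt ρ B χ).add_mem hv (map_wt_stb hzS hv)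
    have h2 : ∃ c ∈ B, χ (g⁻¹ * c * g) ≠ χ c := by
      by_contra hcon
      push Not at hcon
      exact hgS ⟨mem_zpowers g, hcon⟩
    obtain ⟨c, hc, hne⟩ := h2
    have h3 := map_wt hgB h1 c hc
    rw [hgw, h1 c hc] at h3
    by_contra hcon
    have h4 : v + ρ z v ≠ 0 := by
      intro h
      apply hcon
      rw [add_comm] at h
      exact eq_neg_of_add_eq_zero_left h
    exact hne (smul_right_cancel' h4 h3).symm
  · exfalso
    letI := Fintype.ofFinite B
    have hnot : ∀ a ∈ A, a ∉ S → proj ρ B χ (ρ a v) = 0 := by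
      intro a ha haS
      have h2 : ∃ c ∈ B, χ (a⁻¹ * c * a) ≠ χ c := by
        by_contra hcon
        push Not at hcon
        exact haS ⟨ha, hcon⟩
      obtain ⟨c, hc, hne⟩ := h2
      exact proj_of_mem' hchar (map_wt (hAB ha) hv) hc (Ne.symm hne)
    have hgz : g * z ∉ S := by
      intro h
      apply hgS
      have h1 := S.pow_mem h (1 + 2 ^ (k + 1))
      have h2 : (g * z) ^ (1 + 2 ^ (k + 1)) = g := by
        have h3 : g * z = g ^ (1 + 2 ^ (k + 1)) := by rw [hz, pow_add g 1, pow_one]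
        rw [h3, ← pow_mul]
        have h4 : (1 + 2 ^ (k + 1)) * (1 + 2 ^ (k + 1)) = 1 + 2 ^ (k + 2) * (1 + 2 ^ k) := by ring
        rw [h4, pow_add g 1, pow_one, pow_mul, hg, one_pow, mul_one]
      rwa [h2] at h1
    have h1 : proj ρ B χ (ρ g (v + ρ z v)) = 0 := by
      rw [map_add, ← Module.End.mul_apply (ρ g), ← map_mul, map_add, hnot g (mem_zpowers g) hgS,
        hnot (g * z) (A.mul_mem (mem_zpowers g) hzA) hgz, add_zero]
    rw [hgw, map_add, hnot z hzA hzS, add_zero, proj_of_mem hchar hv, ← Nat.card_eq_fintype_card] at h1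
    exact hv0 ((smul_eq_zero.mp h1).resolve_left hB)

/-- arithmetic -/
theorem arith {a b N : ℕ} (hab : a + b = N) (hodd : Odd N) (hN1 : N ≠ 1) {c1 c2 b1 b2 : ℕ} (hb : b1 + b2 = b)
    (h1 : a ^ 2 + b ^ 2 ≤ c1) (h2 : 2 * c1 + 1 ≤ N ^ 2 + 2) (h3 : a ^ 2 + b1 ^ 2 + b2 ^ 2 ≤ c2)
    (h4 : 4 * c2 + 1 ≤ N ^ 2 + 4) : N = 3 := by
  subst hb
  subst hab
  obtain ⟨n, hn⟩ := hodd
  have h5 : 2 * (a ^ 2 + (b1 + b2) ^ 2) + 1 ≤ (a + (b1 + b2)) ^ 2 + 2 := by omega
  have h6 : 4 * (a ^ 2 + b1 ^ 2 + b2 ^ 2) + 1 ≤ (a + (b1 + b2)) ^ 2 + 4 := by omega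
  -- |a - b| ≤ 1
  rcases Nat.lt_trichotomy a (b1 + b2) with h | h | h
  · -- b = a + e
    obtain ⟨e, he⟩ : ∃ e, b1 + b2 = a + 1 + e := ⟨b1 + b2 - (a + 1), by omega⟩
    have he0 : e = 0 := by
      rw [he] at h5
      by_contra hne
      have : 1 ≤ e := Nat.pos_of_ne_zero hne
      nlinarith
    rw [he0, add_zero] at he
    have h7 : 2 * (b1 ^ 2 + b2 ^ 2) ≥ (b1 + b2) ^ 2 := by
      have := sq_nonneg ((b1 : ℤ) - b2)
      zify
      nlinarith
    rw [he] at h6 h7 ⊢
    -- 4a² + 2(a+1)² + 1 ≤ (2a+1)² + 4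
    have h8 : a ≤ 1 := by
      by_contra hcon
      push Not at hcon
      nlinarith
    interval_cases a
    · omega
    · omega
  · omega
  · obtain ⟨e, he⟩ : ∃ e, a = b1 + b2 + 1 + e := ⟨a - (b1 + b2 + 1), by omega⟩
    have he0 : e = 0 := by
      rw [he] at h5
      by_contra hne
      have : 1 ≤ e := Nat.pos_of_ne_zero hne
      nlinarith
    rw [he0, add_zero] at he
    have h7 : 2 * (b1 ^ 2 + b2 ^ 2) ≥ (b1 + b2) ^ 2 := by
      have := sq_nonneg ((b1 : ℤ) - b2)
      zify
      nlinarith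
    rw [he] at h6 ⊢
    have h8 : b1 + b2 = 0 := by
      by_contra hcon
      have : 1 ≤ b1 + b2 := Nat.pos_of_ne_zero hcon
      nlinarith
    omega

/-- the theorem for faithful representations -/
theorem faithful [IsAlgClosed K] [FiniteDimensional K V] {t : ℕ} [ht : Fact t.Prime] (ht2 : t ≠ 2)
    (hinj : Function.Injective ρ) (htK : (t : K) ≠ 0) (h2K : (2 : K) ≠ 0) {T : Subgroup Γ} (hT : IsPGroup t T)
    {g : Γ} {k : ℕ} (hg : g ^ 2 ^ (k + 2) = 1) (hgT : g ∈ normalizer (T : Set Γ))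
    (hfix : ∀ v, ρ (g ^ 2 ^ (k + 1)) v = v → ρ g v = v) (hz : g ^ 2 ^ (k + 1) ∉ centralizer (T : Set Γ)) :
    t = 3 ∧ k = 0 := by
  classical
  have : Fact (Nat.Prime 2) := ⟨Nat.prime_two⟩
  set z := g ^ 2 ^ (k + 1) with hzdef
  set A := zpowers g with hA
  set D := zpowers z with hD
  have hDA : D ≤ A := by rw [hD, zpowers_le]; exact npow_mem_zpowers g _
  have hzD : z ∈ D := mem_zpowers z
  have hAcomm : ∀ a ∈ A, ∀ b ∈ A, a * b = b * a := by
    intro a ha b hb
    obtain ⟨i, rfl⟩ := mem_zpowers_iff.mp ha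
    obtain ⟨j, rfl⟩ := mem_zpowers_iff.mp hb
    rw [← zpow_add, ← zpow_add, add_comm]
  have hAD : A ≤ normalizer (D : Set Γ) := by
    apply H1.Coprime.le_normalizer_of_conj_mem
    intro a ha d hd
    rw [hAcomm a ha d (hDA hd), mul_inv_cancel_right]; exact hd
  have hAT : A ≤ normalizer (T : Set Γ) := by rw [hA, zpowers_le]; exact hgT
  obtain ⟨Q, hQT, hMQ⟩ := exists_MQ hDA hAD hAT (fun h => hz (h hzD))
  have hA2 : IsPGroup 2 A := by
    intro a
    obtain ⟨i, hi⟩ := mem_zpowers_iff.mp a.2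
    refine ⟨k + 2, Subtype.ext ?_⟩
    change (a : Γ) ^ 2 ^ (k + 2) = 1
    rw [← hi, ← zpow_natCast, ← zpow_mul, mul_comm, zpow_mul, zpow_natCast, hg, one_zpow]
  have hQt : IsPGroup t Q := hT.to_le hQT
  have hQnil : Group.IsNilpotent Q := hQt.isNilpotent
  have hQs : Group.IsSolvable Q := inferInstance
  have hcopDQ : (Nat.card D).Coprime (Nat.card Q) :=
    IsPGroup.coprime_card_of_ne 2 t ht2.symm D Q (hA2.to_le hDA) hQt
  have hcastQ : ∀ B : Subgroup Γ, B ≤ Q → (Nat.card B : K) ≠ 0 := by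
    intro B hB
    obtain ⟨n, hn⟩ := IsPGroup.iff_card.mp (hQt.to_le hB)
    rw [hn, Nat.cast_pow]
    exact pow_ne_zero _ htK
  have hcast2 : ∀ n : ℕ, ((2 ^ n : ℕ) : K) ≠ 0 := by
    intro n
    rw [Nat.cast_pow]
    exact pow_ne_zero _ (by exact_mod_cast h2K)
  have hAQ : A ≤ normalizer (Q : Set Γ) := hMQ.inv
  have hgQ : g ∈ normalizer (Q : Set Γ) := hAQ (mem_zpowers g)
  have hzmem : ∀ B : Subgroup Γ, B ≤ A → B ≠ ⊥ → z ∈ B := fun B hB hne =>
    H66.ShultGross.mem_of_ne_bot (p := 2) (m := k + 1) hg hB hne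
  have hQD := hMQ.commutator_eq hcopDQ hQs
  have hfaith : ∀ Y : Subgroup Γ, (∀ y ∈ Y, ∀ f : V, ρ y f = f) → Y = ⊥ := by
    intro Y hY
    rw [eq_bot_iff]
    intro y hy
    rw [mem_bot]
    apply hinj
    rw [map_one]
    ext f
    exact hY y hy f
  -- key: z = -1 on a `Q`-invariant space is impossible
  have hkey : ∀ W : Submodule K V, (∀ x ∈ Q, ∀ w ∈ W, ρ x w ∈ W) → (∀ w ∈ W, ρ z w = -w) →
      ∀ x ∈ Q, ∀ w ∈ W, ρ x w = w := by
    intro W hWQ hWz
    let S : Subgroup Γ :=
      { carrier := {x | x ∈ Q ∧ ∀ w ∈ W, ρ x w = w}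
        one_mem' := ⟨one_mem Q, fun w _ => by rw [map_one]; rfl⟩
        mul_mem' := by
          rintro a b ⟨ha, ha'⟩ ⟨hb, hb'⟩
          exact ⟨mul_mem ha hb, fun w hw => by rw [map_mul, Module.End.mul_apply, hb' w hw, ha' w hw]⟩
        inv_mem' := by
          rintro a ⟨ha, ha'⟩
          refine ⟨inv_mem ha, fun w hw => ?_⟩
          have h1 := congrArg (ρ a⁻¹) (ha' w hw)
          rw [← Module.End.mul_apply, ← map_mul, inv_mul_cancel, map_one] at h1
          exact h1.symm }
    have h1 : Q ≤ S := by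
      rw [← hQD, commutator_le]
      intro x hx d hd
      rw [hD, mem_zpowers_iff_mem_range_orderOf] at hd
      obtain ⟨i, _, rfl⟩ := Finset.mem_image.mp hd
      have hzi : ∀ i : ℕ, ∀ w ∈ W, ρ (z ^ i) w = (-1 : K) ^ i • w := by
        intro i
        induction i with
        | zero => intro w _; simp
        | succ i ih =>
          intro w hw
          rw [pow_succ, map_mul, Module.End.mul_apply, hWz w hw, map_neg, ih w hw, pow_succ]
          simp
      have hzi' : ∀ i : ℕ, ∀ w ∈ W, ρ (z ^ i)⁻¹ w = ((-1 : K) ^ i) • w := by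
        intro i w hw
        have h2 : ρ (z ^ i)⁻¹ (ρ (z ^ i) (((-1 : K) ^ i) • w)) = ((-1 : K) ^ i) • w := by
          rw [← Module.End.mul_apply, ← map_mul, inv_mul_cancel, map_one]; rfl
        rw [hzi i _ (W.smul_mem _ hw), smul_smul, ← mul_pow, neg_one_mul, neg_neg, one_pow, one_smul] at h2
        exact h2
      have hiz : (z : Γ) ^ i ∈ D := D.pow_mem hzD i
      refine ⟨?_, ?_⟩
      · rw [← hQD]
        exact commutator_mem_commutator hx hiz
      · intro w hw
        rw [commutatorElement_def, map_mul, map_mul, map_mul, Module.End.mul_apply, Module.End.mul_apply,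
          Module.End.mul_apply, hzi' i w hw, map_smul, hzi i _ (W.smul_mem _ (hWQ _ (inv_mem hx) w hw)), smul_smul,
          ← mul_pow, neg_one_mul, neg_neg, one_pow, one_smul, ← Module.End.mul_apply, ← map_mul, mul_inv_cancel,
          map_one]
        rfl
    intro x hx w hw
    exact (h1 hx).2 w hw
  by_cases hab : ∀ x ∈ Q, ∀ y ∈ Q, x * y = y * x
  · -- abelian case
    exfalso
    have hW : cmt ρ Q ≠ ⊥ := by
      intro hcon
      have h1 := hfaith Q (by
        intro y hy f
        have := mem_cmt (ρ := ρ) hy f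
        rw [hcon, Submodule.mem_bot, sub_eq_zero] at this
        exact this)
      exact hMQ.ne_bot h1
    obtain ⟨χ, hχ⟩ := exists_weight (ρ := ρ) (B := Q) hW (fun b hb w hw => cmt_invariant (le_normalizer hb) hw)
      (fun b hb c hc w _ => by
        rw [← Module.End.mul_apply, ← map_mul, hab b hb c hc, map_mul]; rfl)
    obtain ⟨v, hv, hv0⟩ := (Submodule.ne_bot_iff _).mp hχ
    have hchar := isChar_of_mem hv.1 hv0
    have hstz : ∀ b ∈ Q, χ (z⁻¹ * b * z) = χ b := by
      rcases weight_dichotomy (ρ := ρ) hg hfix hgQ (hcastQ Q le_rfl) hv.1 hv0 with h | h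
      · have h1 : A ≤ stb (normalizer (Q : Set Γ)) Q le_rfl χ := by
          rw [hA, zpowers_le]; exact ⟨hgQ, h⟩
        exact (h1 (hDA hzD)).2
      · intro b hb
        have hzQ : z ∈ normalizer (Q : Set Γ) := hAQ (hDA hzD)
        have h1 := map_wt hzQ hv.1 b hb
        have h2 : ρ z v = -v := h
        rw [h2, map_neg, hv.1 b hb, smul_neg, neg_inj] at h1
        exact (smul_right_cancel' hv0 h1).symm
    have hDs : D ≤ stb (normalizer (Q : Set Γ)) Q le_rfl χ := by
      rw [hD, zpowers_le]; exact ⟨hAQ (hDA hzD), hstz⟩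
    have htriv : ∀ b ∈ Q, χ b = 1 := by
      intro b hb
      rw [← hQD] at hb
      exact trivial_on_commutator hchar hMQ.invD (fun d hd => (hDs hd).2) hb
    apply hv0
    apply eq_zero_of_mem_cmt (hcastQ Q le_rfl) hv.2
    intro b hb
    rw [hv.1 b hb, htriv b hb, one_smul]
  · -- nonabelian case
    have hC := hMQ.nonabelian hcopDQ hQnil hab
    have hQQ : ⁅Q, Q⁆ ≤ Q ⊓ centralizer (Q : Set Γ) := by rw [← hC]; exact hMQ.derived hQnil
    set Zq := Q ⊓ centralizer (Q : Set Γ) with hZq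
    have hAZ : A ≤ normalizer (Zq : Set Γ) :=
      H1.Coprime2.le_normalizer_inf hAQ (H1.Coprime2.le_normalizer_centralizer hAQ)
    have hQ'ne : ⁅Q, Q⁆ ≠ ⊥ := by
      intro hcon
      rw [commutator_eq_bot_iff_le_centralizer] at hcon
      apply hab
      intro x hx y hy
      exact mem_centralizer_iff.mp (hcon hy) x hx
    have hW : cmt ρ ⁅Q, Q⁆ ≠ ⊥ := by
      intro hcon
      have h1 := hfaith ⁅Q, Q⁆ (by
        intro y hy f
        have := mem_cmt (ρ := ρ) hy f
        rw [hcon, Submodule.mem_bot, sub_eq_zero] at this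
        exact this)
      exact hQ'ne h1
    have hZn : Zq ≤ normalizer ((⁅Q, Q⁆ : Subgroup Γ) : Set Γ) :=
      inf_le_left.trans (H1.Coprime2.le_normalizer_commutator_left Q Q)
    obtain ⟨χ, hχ⟩ := exists_weight (ρ := ρ) (B := Zq) hW (fun b hb w hw => cmt_invariant (hZn hb) hw)
      (fun b hb c hc w _ => by
        have h1 : b * c = c * b := mem_centralizer_iff.mp hc.2 b hb.1
        rw [← Module.End.mul_apply, ← map_mul, h1, map_mul]; rfl)
    obtain ⟨v0, hv0, hv00⟩ := (Submodule.ne_bot_iff _).mp hχ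
    have hchar : IsChar Zq χ := isChar_of_mem hv0.1 hv00
    have hχne : ∃ b ∈ ⁅Q, Q⁆, χ b ≠ 1 := by
      by_contra hcon
      push Not at hcon
      apply hv00
      apply eq_zero_of_mem_cmt (hcastQ ⁅Q, Q⁆ (hQQ.trans inf_le_left)) hv0.2
      intro b hb
      rw [hv0.1 b (hQQ hb), hcon b hb, one_smul]
    set Rd := rad hQQ hchar with hRd
    have hRdne : Rd ≠ Q := rad_ne hQQ hchar hχne
    have hRdle : Rd ≤ Q := rad_le hQQ hchar
    have hZRd : Zq ≤ Rd := center_le hQQ hchar
    obtain ⟨μ, hμ⟩ := exists_mu (ρ := ρ) hQQ hchar (by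
      rw [Submodule.ne_bot_iff]; exact ⟨v0, hv0.1, hv00⟩)
    obtain ⟨w0, hw0, hw00⟩ := (Submodule.ne_bot_iff _).mp hμ
    -- nontrivial action of Q on weight spaces
    have hnontriv : ∀ W' : Submodule K V, W' ≠ ⊥ → W' ≤ wt ρ Zq χ → ¬ ∀ x ∈ Q, ∀ w ∈ W', ρ x w = w := by
      intro W' hW' hle hcon
      obtain ⟨w, hw, hw0'⟩ := (Submodule.ne_bot_iff _).mp hW'
      obtain ⟨b, hb, hb1⟩ := hχne
      apply hb1
      have h1 := hcon b (hQQ hb).1 w hw
      rw [hle hw b (hQQ hb)] at h1
      exact smul_right_cancel' hw0' (by rw [one_smul]; exact h1)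
    -- g stabilizes χ
    have hgχ : ∀ b ∈ Zq, χ (g⁻¹ * b * g) = χ b := by
      by_contra hcon
      have h1 : ∀ v ∈ wt ρ Zq χ, ρ z v = -v := by
        intro v hv
        by_cases hv0' : v = 0
        · rw [hv0', map_zero, neg_zero]
        rcases weight_dichotomy (ρ := ρ) hg hfix (hAZ (mem_zpowers g)) (hcastQ Zq inf_le_left) hv hv0' with h | h
        · exact absurd h hcon
        · exact h
      refine hnontriv (wt ρ Zq χ) ?_ le_rfl (hkey _ (fun x hx w hw => wt_center_inv hx hw) h1)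
      rw [Submodule.ne_bot_iff]; exact ⟨v0, hv0.1, hv00⟩
    have hgRd : g ∈ normalizer (Rd : Set Γ) := mem_normalizer_rad hQQ hchar hgQ hgχ
    have hARd : A ≤ normalizer (Rd : Set Γ) := by rw [hA, zpowers_le]; exact hgRd
    have hgμ : ∀ b ∈ Rd, μ (g⁻¹ * b * g) = μ b := by
      by_contra hcon
      have h1 : ∀ v ∈ H66.Rad.W ρ hQQ hchar μ, ρ z v = -v := by
        intro v hv
        by_cases hv0' : v = 0
        · rw [hv0', map_zero, neg_zero]
        rcases weight_dichotomy (ρ := ρ) hg hfix hgRd (hcastQ Rd hRdle) hv.1 hv0' with h | h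
        · exact absurd h hcon
        · exact h
      exact hnontriv _ hμ (fun w hw => hw.2) (hkey _ (fun x hx w hw => W_inv hQQ hchar hx hw) h1)
    have hgW : ∀ w ∈ H66.Rad.W ρ hQQ hchar μ, ρ g w ∈ H66.Rad.W ρ hQQ hchar μ := by
      intro w hw
      exact ⟨map_wt_stb (hAB := hARd) (a := g) ⟨mem_zpowers g, hgμ⟩ hw.1,
        map_wt_stb (hAB := hAZ) (a := g) ⟨mem_zpowers g, hgχ⟩ hw.2⟩
    -- freeness
    have hfree : ∀ a ∈ A, a ≠ 1 → ∀ x ∈ Q, ⁅x, a⁆ ∈ Rd → x ∈ Rd := by
      intro a ha ha1 x hx hxa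
      have h1 : z ∈ zpowers a := hzmem _ (by rw [zpowers_le]; exact ha) (by
        rw [Ne, zpowers_eq_bot]; exact ha1)
      have h2 : zpowers a ≤ H66.ShultGross.fixSub Rd x (le_normalizer_rad hQQ hchar hx) := by
        rw [zpowers_le]
        refine ⟨hARd ha, ?_⟩
        have h3 := Rd.inv_mem hxa
        rwa [commutatorElement_inv] at h3
      have h3 : D ≤ H66.ShultGross.fixSub Rd x (le_normalizer_rad hQQ hchar hx) := by
        rw [hD, zpowers_le]; exact h2 h1
      apply hMQ.mem_of_coset hcopDQ hQs hRdle (le_normalizer_rad hQQ hchar) (h3.trans (fun _ h => h.1))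
        (by rw [hC]; exact hZRd) hx
      intro d hd
      exact (h3 hd).2
    have hzne : z ≠ 1 := by
      intro h
      apply hz
      rw [h]; exact one_mem _
    have hgpow : ∀ i : ℕ, 0 < i → i < 2 ^ (k + 2) → g ^ i ≠ 1 := by
      intro i hi0 hiM h
      have h1 : orderOf g ∣ 2 ^ (k + 2) := orderOf_dvd_of_pow_eq_one hg
      obtain ⟨e, he, he'⟩ := (Nat.dvd_prime_pow Nat.prime_two).mp h1
      have h2 : e = k + 2 := by
        by_contra hne
        apply hzne
        rw [hzdef, ← orderOf_dvd_iff_pow_eq_one, he']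
        exact pow_dvd_pow 2 (by omega)
      have h3 := orderOf_dvd_of_pow_eq_one h
      rw [he', h2] at h3
      exact absurd (Nat.le_of_dvd hi0 h3) (by omega)
    -- irreducible
    have hcd := cdata (ρ := ρ) hQQ hchar hμ
    obtain ⟨U, hUW, hU, hUg, D', hirr⟩ := hcd.exists_irr hμ (hcastQ Q le_rfl) (g := g) hgQ hgW (by
      have hg1 : g ≠ 1 := by
        have := hgpow 1 (by norm_num) (Nat.one_lt_pow (by omega) (by norm_num))
        rwa [pow_one] at this
      exact hfree g (mem_zpowers g) hg1)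
    have : Nontrivial U := by
      obtain ⟨v, hv, hv0⟩ := (Submodule.ne_bot_iff _).mp hU
      exact ⟨⟨⟨v, hv⟩, 0, fun h => hv0 (congrArg Subtype.val h)⟩⟩
    letI := Fintype.ofFinite (Q.subgroupOf (stab ρ U))
    letI := Fintype.ofFinite (Rd.subgroupOf (stab ρ U))
    have hE' : (Fintype.card (Q.subgroupOf (stab ρ U)) : K) ≠ 0 := by
      rw [← Nat.card_eq_fintype_card, D'.card_E]; exact hcastQ Q le_rfl
    have hZ' : (Fintype.card (Rd.subgroupOf (stab ρ U)) : K) ≠ 0 := by
      rw [← Nat.card_eq_fintype_card, D'.card_Z]; exact hcastQ Rd hRdle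
    have hgS : g ∈ stab ρ U := hUg
    let gS : stab ρ U := ⟨g, hgS⟩
    have hnorm : ∀ i : ℕ, gS ^ i ∈ normalizer ((Q.subgroupOf (stab ρ U) : Subgroup (stab ρ U)) : Set (stab ρ U)) := by
      intro i
      apply Subgroup.pow_mem
      rw [mem_normalizer_iff]
      intro x
      exact mem_normalizer_iff.mp hgQ x
    have hsq : finrank K U ^ 2 * Nat.card Rd = Nat.card Q := by
      have := sq_finrank_mul D'.data hirr hE' hZ'
      rwa [D'.card_E, D'.card_Z] at this
    -- dimension bounds for g^(2^e)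
    have hbound : ∀ e : ℕ, e ≤ k + 1 → 2 ^ (k + 2 - e) * finrank K (C (res ρ U (gS ^ 2 ^ e))) + 1 ≤
        finrank K U ^ 2 + 2 ^ (k + 2 - e) := by
      intro e he
      apply finrank_C_le D'.data hirr hE' hZ' (hnorm _)
      intro i hi0 hiM x hx h
      refine hfree (g ^ (2 ^ e * i)) (A.pow_mem (mem_zpowers g) _) ?_ x hx ?_
      · apply hgpow
        · positivity
        · calc 2 ^ e * i < 2 ^ e * 2 ^ (k + 2 - e) := Nat.mul_lt_mul_of_pos_left hiM (by positivity)
            _ = 2 ^ (k + 2) := by rw [← pow_add]; congr 1; omega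
      · have h1 : (⁅(x : Γ), ((gS ^ 2 ^ e) ^ i : Γ)⁆) ∈ Rd := h
        rw [pow_mul]
        exact h1
    have hb0 := hbound 0 (by omega)
    have hbk := hbound k (by omega)
    have hbk1 := hbound (k + 1) (by omega)
    have e0 : k + 2 - 0 = k + 2 := rfl
    have e1 : k + 2 - k = 2 := by omega
    have e2 : k + 2 - (k + 1) = 1 := by omega
    rw [e0, pow_zero, pow_one] at hb0
    rw [e1] at hbk
    rw [e2, pow_one] at hbk1
    -- N is odd
    set N := finrank K U with hN
    have hN0 : 0 < N := finrank_pos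
    obtain ⟨n, hn⟩ := IsPGroup.iff_card.mp hQt
    have hNt : N ∣ t ^ n := by
      rw [← hn, ← hsq]
      exact (dvd_pow_self N two_ne_zero).mul_right _
    obtain ⟨d, hdn, hd⟩ := (Nat.dvd_prime_pow ht.out).mp hNt
    have hodd : Odd N := by
      rw [hd]; exact (ht.out.odd_of_ne_two ht2).pow
    have hN1 : N ≠ 1 := by
      intro h
      apply hRdne
      apply Subgroup.eq_of_le_of_card_ge hRdle
      rw [h, one_pow, one_mul] at hsq
      exact hsq.ge
    -- eigenbasis of g^(2^k)
    have hgUpow : ∀ i : ℕ, ∀ u : U, ((res ρ U (gS ^ i) u : U) : V) = ρ (g ^ i) u := fun i u => by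
      rw [res_apply]; rfl
    obtain ⟨b, ε, hb⟩ := exists_eigenbasis (res ρ U (gS ^ 2 ^ k)) (M := 4) (by
      have := hcast2 2
      norm_num at this
      exact_mod_cast this) (by
      rw [← map_pow, ← pow_mul]
      ext u
      rw [hgUpow]
      have : 2 ^ k * 4 = 2 ^ (k + 2) := by rw [pow_add]; norm_num
      rw [this, hg, map_one]; rfl)
    have hz2 : ∀ j, res ρ U (gS ^ 2 ^ (k + 1)) (b j) = (ε j ^ 2) • b j := by
      intro j
      have h1 : gS ^ 2 ^ (k + 1) = gS ^ 2 ^ k * gS ^ 2 ^ k := by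
        rw [← pow_add]; congr 1; ring
      rw [h1, map_mul, Module.End.mul_apply, hb, map_smul, hb, smul_smul, sq]
    have hε4 : ∀ j, ε j ^ 4 = 1 := by
      intro j
      have h1 : res ρ U (gS ^ 2 ^ (k + 2)) (b j) = (ε j ^ 4) • b j := by
        have h2 : gS ^ 2 ^ (k + 2) = gS ^ 2 ^ (k + 1) * gS ^ 2 ^ (k + 1) := by
          rw [← pow_add]; congr 1; ring
        rw [h2, map_mul, Module.End.mul_apply, hz2, map_smul, hz2, smul_smul]
        congr 1; ring
      have h3 : gS ^ 2 ^ (k + 2) = 1 := Subtype.ext hg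
      rw [h3, map_one, Module.End.one_apply] at h1
      exact smul_right_injective' (b.ne_zero j) (by rw [one_smul]; exact h1.symm)
    have hε : ∀ j, ε j = 1 ∨ ε j ^ 2 = -1 := by
      intro j
      have h1 : (ε j ^ 2 - 1) * (ε j ^ 2 + 1) = 0 := by
        have := hε4 j
        linear_combination this
      rcases mul_eq_zero.mp h1 with h | h
      · left
        have h2 : ε j ^ 2 = 1 := sub_eq_zero.mp h
        have h3 : ρ (g ^ 2 ^ (k + 1)) (b j : V) = b j := by
          rw [← hgUpow, hz2, h2, one_smul]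
        have h4 := hfix _ h3
        have h5 : ∀ i : ℕ, ρ (g ^ i) (b j : V) = b j := by
          intro i
          induction i with
          | zero => rw [pow_zero, map_one]; rfl
          | succ i ih => rw [pow_succ, map_mul, Module.End.mul_apply, h4, ih]
        have h6 : res ρ U (gS ^ 2 ^ k) (b j) = b j := Subtype.ext (by rw [hgUpow]; exact h5 _)
        rw [hb] at h6
        exact smul_right_injective' (b.ne_zero j) (by rw [one_smul]; exact h6)
      · right
        exact eq_neg_of_add_eq_zero_left h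
    obtain ⟨ι, hι⟩ : ∃ ι : K, ι ^ 2 = -1 := IsAlgClosed.exists_pow_nat_eq (-1 : K) (by norm_num)
    have hιne : ι ≠ 1 := by
      rintro rfl
      rw [one_pow] at hι
      apply h2K
      linear_combination hι
    have hιne' : -ι ≠ 1 := by
      intro h
      have : ι = -1 := by linear_combination -h
      rw [this] at hι
      norm_num at hι
      apply h2K
      linear_combination hι
    have hιι : ι ≠ -ι := by
      intro h
      have h1 : 2 * ι = 0 := by linear_combination h
      rcases mul_eq_zero.mp h1 with h2 | h2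
      · exact h2K h2
      · rw [h2] at hι; norm_num at hι
    have hneg1 : (1 : K) ≠ -1 := by
      intro h
      apply h2K
      linear_combination h
    have hε3 : ∀ j, ε j = 1 ∨ ε j = ι ∨ ε j = -ι := by
      intro j
      rcases hε j with h | h
      · exact Or.inl h
      · right
        have h1 : (ε j - ι) * (ε j + ι) = 0 := by linear_combination h - hι
        rcases mul_eq_zero.mp h1 with h2 | h2
        · left; exact sub_eq_zero.mp h2
        · right; exact eq_neg_of_add_eq_zero_left h2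
    set Sa := Finset.univ.filter (fun j => ε j = 1) with hSa
    set Sb1 := Finset.univ.filter (fun j => ε j = ι) with hSb1
    set Sb2 := Finset.univ.filter (fun j => ε j = -ι) with hSb2
    have hd12 : Disjoint Sb1 Sb2 := by
      rw [Finset.disjoint_filter]
      intro j _ h h'
      exact hιι (h.symm.trans h')
    have hda : Disjoint Sa (Sb1 ∪ Sb2) := by
      rw [Finset.disjoint_left]
      intro j hj hj'
      rw [hSa, Finset.mem_filter] at hj
      rw [Finset.mem_union, hSb1, hSb2, Finset.mem_filter, Finset.mem_filter] at hj'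
      rcases hj' with h | h
      · exact hιne (by rw [← h.2, hj.2])
      · exact hιne' (by rw [← h.2, hj.2])
    have huniv : Sa ∪ (Sb1 ∪ Sb2) = Finset.univ := by
      ext j
      simp only [Finset.mem_union, hSa, hSb1, hSb2, Finset.mem_filter, Finset.mem_univ, true_and, iff_true]
      exact hε3 j
    have hsum : Sa.card + (Sb1.card + Sb2.card) = N := by
      rw [← Finset.card_union_of_disjoint hd12, ← Finset.card_union_of_disjoint hda, huniv, Finset.card_univ,
        Fintype.card_fin]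
    -- pairs
    have hpairs2 : Sa.card ^ 2 + (Sb1.card + Sb2.card) ^ 2 ≤ finrank K (C (res ρ U (gS ^ 2 ^ (k + 1)))) := by
      refine le_trans ?_ (card_pairs_le _ b (fun j => ε j ^ 2) hz2)
      rw [Fintype.card_subtype]
      have h1 : Sa ×ˢ Sa ∪ (Sb1 ∪ Sb2) ×ˢ (Sb1 ∪ Sb2) ⊆
          Finset.univ.filter (fun x : Fin N × Fin N => ε x.1 ^ 2 = ε x.2 ^ 2) := by
        rintro ⟨i, j⟩ hij
        rw [Finset.mem_filter]
        refine ⟨Finset.mem_univ _, ?_⟩
        rw [Finset.mem_union, Finset.mem_product, Finset.mem_product] at hij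
        have hB : ∀ j ∈ Sb1 ∪ Sb2, ε j ^ 2 = -1 := by
          intro j hj
          rw [Finset.mem_union, hSb1, hSb2, Finset.mem_filter, Finset.mem_filter] at hj
          rcases hj with h | h
          · rw [h.2]; exact hι
          · rw [h.2, neg_sq]; exact hι
        rcases hij with ⟨h1, h2⟩ | ⟨h1, h2⟩
        · rw [hSa, Finset.mem_filter] at h1 h2
          change ε i ^ 2 = ε j ^ 2
          rw [h1.2, h2.2]
        · change ε i ^ 2 = ε j ^ 2
          rw [hB i h1, hB j h2]
      refine le_trans ?_ (Finset.card_le_card h1)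
      rw [Finset.card_union_of_disjoint, Finset.card_product, Finset.card_product,
        Finset.card_union_of_disjoint hd12, sq, sq]
      rw [Finset.disjoint_left]
      rintro ⟨i, j⟩ h h'
      rw [Finset.mem_product] at h h'
      exact Finset.disjoint_left.mp hda h.1 h'.1
    have hpairs3 : Sa.card ^ 2 + Sb1.card ^ 2 + Sb2.card ^ 2 ≤ finrank K (C (res ρ U (gS ^ 2 ^ k))) := by
      refine le_trans ?_ (card_pairs_le _ b ε hb)
      rw [Fintype.card_subtype]
      have h1 : Sa ×ˢ Sa ∪ (Sb1 ×ˢ Sb1 ∪ Sb2 ×ˢ Sb2) ⊆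
          Finset.univ.filter (fun x : Fin N × Fin N => ε x.1 = ε x.2) := by
        rintro ⟨i, j⟩ hij
        rw [Finset.mem_filter]
        refine ⟨Finset.mem_univ _, ?_⟩
        rw [Finset.mem_union, Finset.mem_union, Finset.mem_product, Finset.mem_product, Finset.mem_product] at hij
        rcases hij with ⟨h1, h2⟩ | ⟨h1, h2⟩ | ⟨h1, h2⟩
        · rw [hSa, Finset.mem_filter] at h1 h2
          change ε i = ε j
          rw [h1.2, h2.2]
        · rw [hSb1, Finset.mem_filter] at h1 h2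
          change ε i = ε j
          rw [h1.2, h2.2]
        · rw [hSb2, Finset.mem_filter] at h1 h2
          change ε i = ε j
          rw [h1.2, h2.2]
      refine le_trans ?_ (Finset.card_le_card h1)
      rw [Finset.card_union_of_disjoint, Finset.card_union_of_disjoint, Finset.card_product, Finset.card_product,
        Finset.card_product, sq, sq, sq, add_assoc]
      · rw [Finset.disjoint_left]
        rintro ⟨i, j⟩ h h'
        rw [Finset.mem_product] at h h'
        exact Finset.disjoint_left.mp hd12 h.1 h'.1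
      · rw [Finset.disjoint_left]
        rintro ⟨i, j⟩ h h'
        rw [Finset.mem_product] at h
        rw [Finset.mem_union, Finset.mem_product, Finset.mem_product] at h'
        apply Finset.disjoint_left.mp hda h.1
        rw [Finset.mem_union]
        rcases h' with h' | h'
        · exact Or.inl h'.1
        · exact Or.inr h'.1
    have hN3 : N = 3 := arith (a := Sa.card) (b := Sb1.card + Sb2.card) hsum hodd hN1 rfl hpairs2 hbk1 hpairs3 (by
      have : (2 : ℕ) ^ 2 = 4 := by norm_num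
      rw [this] at hbk
      exact hbk)
    -- k = 0
    obtain ⟨b', ε', hb'⟩ := exists_eigenbasis (res ρ U gS) (M := 2 ^ (k + 2)) (hcast2 _) (by
      rw [← map_pow]
      ext u
      rw [hgUpow, hg, map_one]; rfl)
    have hCge := le_finrank_of_diag _ b' ε' hb'
    have hk : 2 ^ (k + 2) ≤ 4 := by
      have h1 : 2 ^ (k + 2) * N ≤ 2 ^ (k + 2) * finrank K (C (res ρ U gS)) := Nat.mul_le_mul le_rfl hCge
      rw [hN3] at h1 hb0
      omega
    have hk0 : k = 0 := by
      by_contra hne
      have : 2 ^ 3 ≤ 2 ^ (k + 2) := Nat.pow_le_pow_right (by norm_num) (by omega)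
      omega
    refine ⟨?_, hk0⟩
    have h3 : t ∣ 3 := by
      rw [← hN3, hd]
      apply dvd_pow_self
      rintro rfl
      rw [pow_zero] at hd
      exact hN1 hd
    exact (Nat.prime_dvd_prime_iff_eq ht.out Nat.prime_three).mp h3

/-- the theorem for arbitrary representations -/
theorem general [IsAlgClosed K] [FiniteDimensional K V] (ρ : Representation K Γ V) {t : ℕ} [ht : Fact t.Prime]
    (ht2 : t ≠ 2) (htK : (t : K) ≠ 0) (h2K : (2 : K) ≠ 0) {T : Subgroup Γ} (hT : IsPGroup t T)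
    {g : Γ} {k : ℕ} (hg : g ^ 2 ^ (k + 2) = 1) (hgT : g ∈ normalizer (T : Set Γ))
    (hfix : ∀ v, ρ (g ^ 2 ^ (k + 1)) v = v → ρ g v = v)
    (hz : ¬ ∀ x ∈ T, ∀ v, ρ ⁅x, g ^ 2 ^ (k + 1)⁆ v = v) : t = 3 ∧ k = 0 := by
  let θ : Γ →* (Module.End K V)ˣ := MonoidHom.toHomUnits ρ
  have hθ : ∀ x, ((θ x : (Module.End K V)ˣ) : Module.End K V) = ρ x := fun _ => rfl
  let ρ' : Representation K θ.range V := (Units.coeHom (Module.End K V)).comp θ.range.subtype
  have hρ' : ∀ x : Γ, ρ' (θ.rangeRestrict x) = ρ x := fun _ => rfl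
  have hfin : Finite θ.range := Finite.of_surjective θ.rangeRestrict θ.rangeRestrict_surjective
  refine faithful (ρ := ρ') ht2 ?_ htK h2K (T := T.map θ.rangeRestrict) (hT.map _) (g := θ.rangeRestrict g) (k := k)
    ?_ ?_ ?_ ?_
  · intro a b hab
    apply Subtype.ext
    apply Units.ext
    exact hab
  · rw [← map_pow, hg, map_one]
  · rw [mem_normalizer_iff]
    intro y
    constructor
    · rintro ⟨x, hx, rfl⟩
      exact ⟨g * x * g⁻¹, (mem_normalizer_iff.mp hgT x).mp hx, by simp⟩
    · rintro ⟨x, hx, e⟩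
      refine ⟨g⁻¹ * x * g, ?_, ?_⟩
      · have := (mem_normalizer_iff.mp (inv_mem hgT) x).mp hx
        rwa [inv_inv] at this
      · rw [map_mul, map_mul, e, map_inv]; group
  · intro v hv
    rw [← map_pow, hρ'] at hv
    rw [hρ']
    exact hfix v hv
  · intro h
    apply hz
    intro x hx v
    have h1 := mem_centralizer_iff.mp h (θ.rangeRestrict x) ⟨x, hx, rfl⟩
    rw [← map_pow] at h1
    have h2 : ρ' (⁅θ.rangeRestrict x, θ.rangeRestrict (g ^ 2 ^ (k + 1))⁆) = 1 := by
      rw [commutatorElement_eq_one_iff_mul_comm.mpr h1, map_one]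
    have h3 : ⁅θ.rangeRestrict x, θ.rangeRestrict (g ^ 2 ^ (k + 1))⁆ = θ.rangeRestrict ⁅x, g ^ 2 ^ (k + 1)⁆ := by
      rw [map_commutatorElement]
    rw [h3, hρ'] at h2
    rw [h2]; rfl

end H66.Level2
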