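import Cfsg.Agent.Lib.H66.Crit3

/-!
Third form of the critical lemma: all `M`-th roots of unity but one are eigenvalues of `g`, and everything
commuting with `E` also commutes with `g`.
-/

set_option autoImplicit false

open scoped commutatorElement
open Module H66.EigB

namespace H66.Crit

variable {K V Γ : Type*} [Field K] [AddCommGroup V] [Module K V] [Group Γ] [Finite Γ]
  {ρ : Representation K Γ V}

theorem smul_right_injective' {K V : Type*} [Field K] [AddCommGroup V] [Module K V] {v : V} (hv : v ≠ 0) {a b : K}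
    (h : a • v = b • v) : a = b := by
  have h1 : (a - b) • v = 0 := by rw [sub_smul, h, sub_self]
  exact sub_eq_zero.mp ((smul_eq_zero.mp h1).resolve_right hv)

/-- third form of the critical lemma -/
theorem crit_final3 [IsAlgClosed K] [FiniteDimensional K V] {W : Submodule K V} {E Z : Subgroup Γ}
    (D : CData ρ W E Z) (hW : W ≠ ⊥) (hE : (Nat.card E : K) ≠ 0) (hne : Z ≠ E) {g : Γ}
    (hg : g ∈ Subgroup.normalizer (E : Set Γ)) (hWg : ∀ w ∈ W, ρ g w ∈ W) {M : ℕ} (hM : (M : K) ≠ 0)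
    (hfix : ∀ i : ℕ, 0 < i → i < M → ∀ x ∈ E, ⁅x, g ^ i⁆ ∈ Z → x ∈ Z)
    (hgM : ∀ w ∈ W, ρ (g ^ M) w = w) (hv : ∀ w ∈ W, ρ g w = w → w = 0) :
    ∃ U : Submodule K V, U ≤ W ∧ U ≠ ⊥ ∧ (∀ w ∈ U, ρ g w ∈ U) ∧ (∀ x ∈ E, ∀ w ∈ U, ρ x w ∈ U) ∧
      (∀ U' : Submodule K V, U' ≤ U → (∀ x ∈ E, ∀ w ∈ U', ρ x w ∈ U') → U' = ⊥ ∨ U' = U) ∧
      (M - 1) ^ 2 * Nat.card Z = Nat.card E ∧ 3 ≤ M ∧
      (∀ c : K, c ^ M = 1 → c ≠ 1 → ∃ u ∈ U, u ≠ 0 ∧ ρ g u = c • u) := by
  classical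
  have hM1 : 1 < M := by
    by_contra hcon
    have h1 : M ≠ 0 := by rintro rfl; simp at hM
    have h2 : M = 1 := by omega
    obtain ⟨v, hv', hv0⟩ := (Submodule.ne_bot_iff _).mp hW
    apply hv0
    apply hv v hv'
    have := hgM v hv'
    rwa [h2, pow_one] at this
  obtain ⟨U, hUW, hU, hUg, D', hirr⟩ := D.exists_irr hW hE hg hWg (by
    have := hfix 1 (by norm_num) hM1
    simpa using this)
  have : Nontrivial U := by
    obtain ⟨v, hv, hv0⟩ := (Submodule.ne_bot_iff _).mp hU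
    exact ⟨⟨⟨v, hv⟩, 0, fun h => hv0 (congrArg Subtype.val h)⟩⟩
  letI := Fintype.ofFinite (E.subgroupOf (stab ρ U))
  letI := Fintype.ofFinite (Z.subgroupOf (stab ρ U))
  have hE' : (Fintype.card (E.subgroupOf (stab ρ U)) : K) ≠ 0 := by
    rw [← Nat.card_eq_fintype_card, D'.card_E]; exact hE
  have hZ' : (Fintype.card (Z.subgroupOf (stab ρ U)) : K) ≠ 0 := by
    rw [← Nat.card_eq_fintype_card, D'.card_Z]; exact cast_card_ne_zero D'.le hE
  have hgS : g ∈ stab ρ U := hUg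
  have hgn : (⟨g, hgS⟩ : stab ρ U) ∈ Subgroup.normalizer
      ((E.subgroupOf (stab ρ U) : Subgroup (stab ρ U)) : Set (stab ρ U)) := by
    rw [Subgroup.mem_normalizer_iff]
    intro x
    exact Subgroup.mem_normalizer_iff.mp hg x
  have hfix' : ∀ i : ℕ, 0 < i → i < M → ∀ x ∈ E.subgroupOf (stab ρ U), ⁅x, (⟨g, hgS⟩ : stab ρ U) ^ i⁆ ∈
      Z.subgroupOf (stab ρ U) → x ∈ Z.subgroupOf (stab ρ U) := by
    intro i hi0 hiM x hx h
    exact hfix i hi0 hiM x hx h
  have hpow : (res ρ U ⟨g, hgS⟩) ^ M = 1 := by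
    rw [← map_pow]
    ext w
    rw [res_apply]
    exact hgM w (hUW w.2)
  have hnofix : ∀ v : U, res ρ U ⟨g, hgS⟩ v = v → v = 0 := by
    intro v hv'
    have h1 := congrArg Subtype.val hv'
    rw [res_apply] at h1
    exact Subtype.ext (hv v (hUW v.2) h1)
  have hsq : finrank K U ^ 2 * Nat.card Z = Nat.card E := by
    have := sq_finrank_mul D'.data hirr hE' hZ'
    rwa [D'.card_E, D'.card_Z] at this
  have hle : finrank K U ≤ M - 1 := finrank_le D'.data hirr hE' hZ' hgn hM hfix' hpow hnofix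
  have hCle := finrank_C_le D'.data hirr hE' hZ' hgn hfix'
  obtain ⟨b, ε, hb⟩ := exists_eigenbasis (res ρ U ⟨g, hgS⟩) hM hpow
  have hCge := le_finrank_of_diag _ b ε hb
  have hinj0 : finrank K (C (res ρ U ⟨g, hgS⟩)) ≤ finrank K U → Function.Injective ε :=
    fun h => injective_of_finrank_le _ b ε hb h
  obtain ⟨N, hN⟩ : ∃ N, N = finrank K U := ⟨_, rfl⟩
  have hN0 : 0 < N := by rw [hN]; exact finrank_pos
  rw [← hN] at hsq hle hCle hCge
  have hN1 : N ≠ 1 := by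
    intro h
    apply hne
    apply Subgroup.eq_of_le_of_card_ge D.le
    rw [h, one_pow, one_mul] at hsq
    exact hsq.ge
  obtain ⟨m, rfl⟩ : ∃ m, M = m + 1 := ⟨M - 1, by omega⟩
  rw [Nat.add_sub_cancel] at hle ⊢
  obtain ⟨c, hc⟩ : ∃ c, c = finrank K (C (res ρ U ⟨g, hgS⟩)) := ⟨_, rfl⟩
  rw [← hc] at hCle hCge
  have hNm : N = m := by
    obtain ⟨t, ht⟩ : ∃ t, N = t + 2 := ⟨N - 2, by omega⟩
    rw [ht] at hCle hCge hle ⊢
    have h1 : (m + 1) * (t + 2) ≤ (m + 1) * c := Nat.mul_le_mul le_rfl hCge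
    have h2 : (m + 1) * (t + 2) + 1 ≤ (t + 2) ^ 2 + (m + 1) := by omega
    have h3 : (m + 1) * (t + 1) ≤ (t + 3) * (t + 1) := by nlinarith
    have h4 := Nat.le_of_mul_le_mul_right h3 (by omega)
    omega
  have hcN : c ≤ N := by
    rw [hNm] at hCle ⊢
    have h1 : (m + 1) * c ≤ (m + 1) * m := by nlinarith
    exact Nat.le_of_mul_le_mul_left h1 (by omega)
  have hinj := hinj0 (by rw [← hc, ← hN]; exact hcN)
  refine ⟨U, hUW, hU, hUg, D'.inv, ?_, by rw [← hNm]; exact hsq, by omega, ?_⟩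
  · intro U' hU'U hU'
    rcases hirr (U'.comap U.subtype) (by
      intro x hx v hv'
      exact hU' x hx v hv') with h | h
    · left
      rw [eq_bot_iff]
      intro v hv'
      have h1 : (⟨v, hU'U hv'⟩ : U) ∈ U'.comap U.subtype := hv'
      rw [h, Submodule.mem_bot] at h1
      exact congrArg Subtype.val h1
    · right
      apply le_antisymm hU'U
      intro v hv'
      have h1 : (⟨v, hv'⟩ : U) ∈ U'.comap U.subtype := by rw [h]; trivial
      exact h1
  · intro c hc1 hc2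
    have hmem : ∀ j, ε j ∈ (Polynomial.nthRootsFinset (m + 1) (1 : K)).erase 1 := fun j =>
      eigenvalue_mem _ (by omega) hpow hnofix (b.ne_zero j) (hb j)
    have himg : Finset.univ.image ε = (Polynomial.nthRootsFinset (m + 1) (1 : K)).erase 1 := by
      apply Finset.eq_of_subset_of_card_le
      · intro x hx
        obtain ⟨j, _, rfl⟩ := Finset.mem_image.mp hx
        exact hmem j
      · rw [Finset.card_image_of_injective _ hinj, Finset.card_univ, Fintype.card_fin]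
        have := card_nthRoots_erase (K := K) (m + 1) (by omega)
        rw [Nat.add_sub_cancel] at this
        rw [← hN, hNm]; exact this
    have hcm : c ∈ (Polynomial.nthRootsFinset (m + 1) (1 : K)).erase 1 := by
      rw [Finset.mem_erase, Polynomial.mem_nthRootsFinset (by omega)]
      exact ⟨hc2, hc1⟩
    rw [← himg] at hcm
    obtain ⟨j, _, hj⟩ := Finset.mem_image.mp hcm
    refine ⟨b j, (b j).2, fun h => b.ne_zero j (Subtype.ext h), ?_⟩
    have h1 := congrArg Subtype.val (hb j)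
    rw [res_apply, hj] at h1
    exact h1

/-- **tensor lemma**: what commutes with `E` on `W` commutes with `g` on `U`. -/
theorem tensor_comm [IsAlgClosed K] [FiniteDimensional K V] {W U : Submodule K V} {E : Subgroup Γ}
    {g : Γ} (hg : g ∈ Subgroup.normalizer (E : Set Γ)) (hWg : ∀ w ∈ W, ρ g w ∈ W) {M : ℕ} (hM : (M : K) ≠ 0)
    (hgM : ∀ w ∈ W, ρ (g ^ M) w = w) (hv : ∀ w ∈ W, ρ g w = w → w = 0)
    (hUW : U ≤ W) (hUg : ∀ w ∈ U, ρ g w ∈ U) (hUE : ∀ x ∈ E, ∀ w ∈ U, ρ x w ∈ U)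
    (hirr : ∀ U' : Submodule K V, U' ≤ U → (∀ x ∈ E, ∀ w ∈ U', ρ x w ∈ U') → U' = ⊥ ∨ U' = U)
    (hspec : ∀ c : K, c ^ M = 1 → c ≠ 1 → ∃ u ∈ U, u ≠ 0 ∧ ρ g u = c • u)
    {y : Γ} (hyW : ∀ w ∈ W, ρ y w ∈ W) (hyE : ∀ x ∈ E, ∀ w ∈ W, ρ x (ρ y w) = ρ y (ρ x w))
    {u : V} (hu : u ∈ U) : ρ (g * y * g⁻¹) u = ρ y u := by
  classical
  have hgS : g ∈ stab ρ U := hUg
  let gS : stab ρ U := ⟨g, hgS⟩
  let T : Module.End K (U →ₗ[K] V) :=
    { toFun := fun φ => (ρ g).comp (φ.comp (res ρ U gS⁻¹))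
      map_add' := by
        intro a b
        ext w
        simp
      map_smul' := by
        intro c a
        ext w
        simp }
  have hT : ∀ (φ : U →ₗ[K] V) (w : U), T φ w = ρ g (φ (res ρ U gS⁻¹ w)) := fun _ _ => rfl
  let H : Submodule K (U →ₗ[K] V) :=
    { carrier := {φ | (∀ w, φ w ∈ W) ∧ ∀ x : Γ, x ∈ E → ∀ w w' : U, (w' : V) = ρ x w → φ w' = ρ x (φ w)}
      zero_mem' := ⟨fun w => W.zero_mem, by intro x _ w w' _; simp⟩
      add_mem' := by
        rintro a b ⟨ha, ha'⟩ ⟨hb, hb'⟩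
        refine ⟨fun w => W.add_mem (ha w) (hb w), ?_⟩
        intro x hx w w' h
        rw [LinearMap.add_apply, LinearMap.add_apply, map_add, ha' x hx w w' h, hb' x hx w w' h]
      smul_mem' := by
        rintro c a ⟨ha, ha'⟩
        refine ⟨fun w => W.smul_mem c (ha w), ?_⟩
        intro x hx w w' h
        rw [LinearMap.smul_apply, LinearMap.smul_apply, map_smul, ha' x hx w w' h] }
  have hTH : ∀ φ ∈ H, T φ ∈ H := by
    rintro φ ⟨h1, h2⟩
    refine ⟨fun w => hWg _ (h1 _), ?_⟩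
    intro x hx w w' h
    rw [hT, hT]
    have hx' : g⁻¹ * x * g ∈ E := by
      have := (Subgroup.mem_normalizer_iff.mp (inv_mem hg) x).mp hx
      rwa [inv_inv] at this
    have h3 := h2 (g⁻¹ * x * g) hx' (res ρ U gS⁻¹ w) (res ρ U gS⁻¹ w') (by
      rw [res_apply, res_apply, h]
      change ρ g⁻¹ (ρ x w) = ρ (g⁻¹ * x * g) (ρ g⁻¹ w)
      rw [← Module.End.mul_apply, ← Module.End.mul_apply, ← map_mul, ← map_mul, mul_inv_cancel_right])
    rw [h3, ← Module.End.mul_apply, ← Module.End.mul_apply, ← map_mul, ← map_mul]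
    have e : g * (g⁻¹ * x * g) = x * g := by group
    rw [e]
  let TH : Module.End K H := T.restrict hTH
  have hTHc : ∀ φ : H, ((TH φ : H) : U →ₗ[K] V) = T φ := fun _ => rfl
  have hpow : ∀ k : ℕ, ∀ (φ : H) (w : U), ((TH ^ k) φ : U →ₗ[K] V) w = ρ (g ^ k) ((φ : U →ₗ[K] V) (res ρ U (gS⁻¹ ^ k) w)) := by
    intro k
    induction k with
    | zero => intro φ w; simp
    | succ k ih =>
      intro φ w
      rw [pow_succ', Module.End.mul_apply, hTHc, hT, ih, ← Module.End.mul_apply, ← Module.End.mul_apply,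
        ← map_mul, ← map_mul, ← pow_succ', ← pow_succ]
  have hpowM : TH ^ M = 1 := by
    ext φ w
    rw [hpow]
    have h1 : res ρ U (gS⁻¹ ^ M) w = w := by
      have h2 : res ρ U (gS ^ M) w = w := by
        apply Subtype.ext
        rw [res_apply]
        exact hgM w (hUW w.2)
      calc res ρ U (gS⁻¹ ^ M) w = res ρ U (gS⁻¹ ^ M) (res ρ U (gS ^ M) w) := by rw [h2]
        _ = w := by
          rw [← Module.End.mul_apply, ← map_mul, inv_pow, inv_mul_cancel, map_one]; rfl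
    rw [h1, hgM _ (φ.2.1 w)]
    rfl
  obtain ⟨b, ε, hb⟩ := exists_eigenbasis TH hM hpowM
  have hε : ∀ j, ε j = 1 := by
    intro j
    by_contra hne
    have hφ := hb j
    set φ := b j with hφdef
    have hφ0 : φ ≠ 0 := b.ne_zero j
    have hcM : ε j ^ M = 1 := by
      have h1 : ∀ k : ℕ, (TH ^ k) φ = ε j ^ k • φ := by
        intro k
        induction k with
        | zero => simp
        | succ k ih => rw [pow_succ, Module.End.mul_apply, hφ, map_smul, ih, smul_smul, pow_succ, mul_comm]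
      have h2 := h1 M
      rw [hpowM, Module.End.one_apply] at h2
      exact smul_right_injective' hφ0 (by rw [one_smul]; exact h2.symm)
    have hε0 : ε j ≠ 0 := by
      intro h
      rw [h, zero_pow (by rintro rfl; simp at hM)] at hcM
      exact zero_ne_one hcM
    obtain ⟨u', hu', hu'0, hgu'⟩ := hspec (ε j)⁻¹ (by rw [inv_pow, hcM, inv_one]) (by
      intro h
      exact hne (inv_eq_one.mp h))
    -- φ u' is fixed by g
    have h1 : ρ g ((φ : U →ₗ[K] V) ⟨u', hu'⟩) = (φ : U →ₗ[K] V) ⟨u', hu'⟩ := by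
      have h2 : (TH φ : U →ₗ[K] V) (res ρ U gS ⟨u', hu'⟩) = ((ε j • φ : H) : U →ₗ[K] V) (res ρ U gS ⟨u', hu'⟩) := by
        rw [hφ]
      rw [hTHc, hT] at h2
      have h3 : res ρ U gS⁻¹ (res ρ U gS ⟨u', hu'⟩) = ⟨u', hu'⟩ := by
        rw [← Module.End.mul_apply, ← map_mul, inv_mul_cancel, map_one]; rfl
      have h4 : res ρ U gS ⟨u', hu'⟩ = (ε j)⁻¹ • (⟨u', hu'⟩ : U) := by
        apply Subtype.ext
        rw [res_apply]; exact hgu'
      rw [h3, h4] at h2
      rw [h2]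
      change ε j • (φ : U →ₗ[K] V) ((ε j)⁻¹ • (⟨u', hu'⟩ : U)) = _
      rw [map_smul, smul_smul, mul_inv_cancel₀ hε0, one_smul]
    have h2 := hv _ (φ.2.1 _) h1
    -- the kernel
    have h3 := hirr ((LinearMap.ker (φ : U →ₗ[K] V)).map U.subtype) (Submodule.map_subtype_le _ _) (by
      rintro x hx w ⟨w', hw', rfl⟩
      refine ⟨⟨ρ x w', hUE x hx _ w'.2⟩, ?_, rfl⟩
      rw [SetLike.mem_coe, LinearMap.mem_ker] at hw' ⊢
      rw [φ.2.2 x hx w' _ rfl, hw', map_zero])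
    rcases h3 with h3 | h3
    · apply hu'0
      have : u' ∈ (LinearMap.ker (φ : U →ₗ[K] V)).map U.subtype := ⟨⟨u', hu'⟩, h2, rfl⟩
      rw [h3] at this
      exact this
    · apply hφ0
      apply Subtype.ext
      apply LinearMap.ext
      intro w
      have : (w : V) ∈ (LinearMap.ker (φ : U →ₗ[K] V)).map U.subtype := by rw [h3]; exact w.2
      obtain ⟨w', hw', e⟩ := this
      have e' : w' = w := Subtype.ext e
      rw [e'] at hw'
      exact hw'
  have hTH1 : TH = 1 := by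
    apply b.ext
    intro j
    rw [hb, hε, one_smul]; rfl
  let ψ : H := ⟨(ρ y).comp U.subtype, ⟨fun w => hyW _ (hUW w.2), by
    intro x hx w w' h
    change ρ y w' = ρ x (ρ y w)
    rw [h, hyE x hx w (hUW w.2)]⟩⟩
  have h1 : TH ψ = ψ := by rw [hTH1]; rfl
  have h2 : (TH ψ : U →ₗ[K] V) ⟨u, hu⟩ = (ψ : U →ₗ[K] V) ⟨u, hu⟩ := by rw [h1]
  rw [hTHc, hT] at h2
  have h3 : ρ g (ρ y (ρ g⁻¹ u)) = ρ y u := h2
  rw [map_mul, map_mul]
  exact h3

end H66.Crit
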