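import Mathlib
import Cfsg.Agent.Lib.H66.Hig7
import Cfsg.Agent.Lib.H66.PRed
import Cfsg.Agent.Lib.H66.PLen
import Cfsg.Agent.Lib.H28.RelHall
import Cfsg.Agent.Lib.H37.QuadCore
import Cfsg.Agent.Lib.H1.Solv

/-!
Soluble groups with one class of involutions (more than one involution in a Sylow 2-subgroup): the case `O(G) = 1`.
-/

set_option autoImplicit false

open Cfsg Subgroup H28.Cj H28.RelHall

open scoped commutatorElement

namespace H66.Thom

universe u

/-- Frattini argument for Hall subgroups of a normal solvable subgroup -/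
theorem frattini_hall {G : Type u} [Group G] [Finite G] {π : Set ℕ} {K H : Subgroup G} [hHn : H.Normal]
    (hs : Group.IsSolvable H) (hK : IsPiHallOf π K H) (g : G) :
    ∃ h ∈ H, ∃ n ∈ normalizer (K : Set G), g = h * n := by
  have h1 : IsPiHallOf π (cj g K) H := by
    have := (isPiHallOf_cj_iff (g := g)).mpr hK
    have h2 : cj g H = H := by
      ext x
      rw [mem_cj]
      constructor
      · intro hx
        have := hHn.conj_mem _ hx g
        have e : g * (g⁻¹ * x * g) * g⁻¹ = x := by group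
        rwa [e] at this
      · intro hx
        have := hHn.conj_mem _ hx g⁻¹
        rwa [inv_inv] at this
    rwa [h2] at this
  obtain ⟨h, hh, he⟩ := exists_conj_eq hs hK h1
  refine ⟨h, hh, h⁻¹ * g, ?_, by group⟩
  rw [mem_normalizer_iff]
  intro x
  have e1 : g * x * g⁻¹ ∈ cj g K ↔ x ∈ K := conj_mem_cj
  have e2 : g * x * g⁻¹ ∈ cj h K ↔ h⁻¹ * (g * x * g⁻¹) * h ∈ K := mem_cj
  rw [← e1, he, e2]
  have e3 : h⁻¹ * g * x * (h⁻¹ * g)⁻¹ = h⁻¹ * (g * x * g⁻¹) * h := by group
  rw [e3]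

theorem core {G : Type u} [Group G] [Finite G] (hG : Group.IsSolvable G) (hO : pPrimeCore 2 G = ⊥)
    (two : ∃ x y : G, x ≠ y ∧ x ≠ 1 ∧ x * x = 1 ∧ y ≠ 1 ∧ y * y = 1)
    (hconj : ∀ x y : G, x ≠ 1 → x * x = 1 → y ≠ 1 → y * y = 1 → IsConj x y) : ¬ 2 ∣ (pCore 2 G).index := by
  classical
  intro h2
  have hf2 : Fact (Nat.Prime 2) := ⟨Nat.prime_two⟩
  set Q := pCore 2 G with hQdef
  have hQn : Q.Normal := inferInstance
  have hQC : centralizer (Q : Set G) ≤ Q := H1.Solv.centralizer_pCore_le hG 2 hO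
  have hQp : IsPGroup 2 Q := H1.Cores.isPGroup_pCore 2
  have hsub : ∀ K : Subgroup G, Group.IsSolvable K := fun K =>
    Group.isSolvable_of_isSolvable_injective (f := K.subtype) K.subtype_injective
  obtain ⟨x0, y0, hxy, hx1, hx2, hy1, hy2⟩ := two
  have hQne : Nontrivial Q := by
    rw [Subgroup.nontrivial_iff_ne_bot]
    intro h0
    have h1 : x0 ∈ centralizer (Q : Set G) := by
      rw [mem_centralizer_iff]
      intro q hq
      rw [SetLike.mem_coe, h0, mem_bot] at hq
      rw [hq, one_mul, mul_one]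
    have h3 := hQC h1
    rw [h0, mem_bot] at h3
    exact hx1 h3
  have hV : ∀ x : G, x * x = 1 → x ∈ Q ∧ ∀ q ∈ Q, x * q = q * x := by
    intro x hx
    by_cases hx' : x = 1
    · subst hx'
      exact ⟨Q.one_mem, fun q _ => by rw [one_mul, mul_one]⟩
    have hc : Nontrivial (center Q) := hQp.center_nontrivial
    obtain ⟨⟨⟨z, hzQ⟩, hz⟩, hz1⟩ := exists_ne (1 : center Q)
    have hz1' : (⟨z, hzQ⟩ : Q) ≠ 1 := fun e => hz1 (Subtype.ext e)
    obtain ⟨m, hm1, hm2⟩ := H16.Suz.exists_pow_invol hQp hz1'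
    have hm1' : z ^ m ≠ 1 := fun e => hm1 (Subtype.ext e)
    have hm2' : z ^ m * z ^ m = 1 := congrArg Subtype.val hm2
    obtain ⟨g, hg⟩ := isConj_iff.mp (hconj _ x hm1' hm2' hx' hx)
    have hzc : ∀ q ∈ Q, z ^ m * q = q * z ^ m := by
      intro q hq
      have h3 := (mem_center_iff.mp (pow_mem hz m)) ⟨q, hq⟩
      exact (congrArg Subtype.val h3).symm
    refine ⟨by rw [← hg]; exact hQn.conj_mem _ (Q.pow_mem hzQ m) g, fun q hq => ?_⟩
    have h4 := hzc (g⁻¹ * q * g) (by have := hQn.conj_mem _ hq g⁻¹; rwa [inv_inv] at this)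
    calc x * q = g * (z ^ m * (g⁻¹ * q * g)) * g⁻¹ := by rw [← hg]; group
      _ = g * (g⁻¹ * q * g * z ^ m) * g⁻¹ := by rw [h4]
      _ = q * x := by rw [← hg]; group
  -- the subgroup H
  set H := (pPrimeCore 2 (G ⧸ Q)).comap (QuotientGroup.mk' Q) with hHdef
  have hHn : H.Normal := inferInstance
  have hQH : Q ≤ H := by
    intro x hx
    rw [hHdef, mem_comap]
    have : QuotientGroup.mk' Q x = 1 := (QuotientGroup.eq_one_iff x).mpr hx
    rw [this]; exact one_mem _
  have hHrel : ¬ 2 ∣ Q.relIndex H := by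
    have e1 := H1.Cores.card_comap_mk' Q (pPrimeCore 2 (G ⧸ Q))
    have e2 := H28.RelSyl.relIndex_mul_card (H := Q) (K := H) hQH
    rw [hHdef, e1, mul_comm (Nat.card Q)] at e2
    have e3 := Nat.eq_of_mul_eq_mul_right Nat.card_pos e2
    rw [hHdef, e3]
    intro h3
    have h4 := H1.Cores.coprime_card_pPrimeCore (G := G ⧸ Q) 2
    have h5 := Nat.dvd_gcd h3 (dvd_refl 2)
    rw [h4] at h5
    omega
  have hsolQ : Group.IsSolvable (G ⧸ Q) := Group.isSolvable_of_surjective (f := QuotientGroup.mk' Q)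
    (QuotientGroup.mk'_surjective Q)
  have hps : IsPSolvable 2 (G ⧸ Q) := H37.QuadCore.isPSolvable_of_isSolvable 2 _ _ hsolQ rfl
  have hHC : ∀ x : G, (∀ h ∈ H, ⁅x, h⁆ ∈ Q) → x ∈ H := by
    intro x hx
    have h3 := H66.PRed.centralizer_pPrimeCore_le hps (H1.Cores.pCore_quotient_pCore (G := G) 2)
    have h4 : QuotientGroup.mk' Q x ∈ centralizer (pPrimeCore 2 (G ⧸ Q) : Set (G ⧸ Q)) := by
      rw [mem_centralizer_iff]
      intro y hy
      obtain ⟨y', rfl⟩ := QuotientGroup.mk'_surjective Q y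
      have h5 := hx y' hy
      have h6 : QuotientGroup.mk' Q ⁅x, y'⁆ = 1 := (QuotientGroup.eq_one_iff _).mpr h5
      rw [map_commutatorElement, commutatorElement_eq_one_iff_mul_comm] at h6
      exact h6.symm
    exact h3 h4
  have hHmax : ∀ M : Subgroup G, M.Normal → Q ≤ M → ¬ 2 ∣ Q.relIndex M → M ≤ H := by
    intro M hM hQM hrel
    rw [hHdef, ← map_le_iff_le_comap]
    refine H1.Cores.le_pPrimeCore (hM.map _ (QuotientGroup.mk'_surjective Q)) ?_
    have e1 := H1.Cores.card_map_mk' Q M hQM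
    have e2 := H28.RelSyl.relIndex_mul_card (H := Q) (K := M) hQM
    rw [← e1, mul_comm (Nat.card Q)] at e2
    have e3 := Nat.eq_of_mul_eq_mul_right Nat.card_pos e2
    rw [← e3]
    exact ((Nat.Prime.coprime_iff_not_dvd Nat.prime_two).mpr hrel).symm
  -- the complement H0
  obtain ⟨H0, hH0⟩ := exists_isPiHallOf ({2}ᶜ : Set ℕ) (hsub H)
  have hQhall : IsPiHallOf {2} Q H := by
    refine ⟨hQH, piG_singleton_iff.mpr hQp, ?_⟩
    intro p _ hp2
    rw [Set.mem_singleton_iff] at hp2
    subst hp2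
    exact hHrel
  have hinf : H0 ⊓ Q = ⊥ := by
    rw [inf_comm]
    exact inf_eq_bot_of_piG hQhall.2.1 hH0.2.1
  have hsup : H0 ⊔ Q = H := by
    have h3 : H0 ⊔ Q ≤ H := sup_le hH0.1 hQH
    refine Subgroup.eq_of_le_of_card_ge h3 ?_
    have h4 := card_sup_mul_card_inf (H := H0) (N := Q) (by rw [normalizer_eq_top]; exact le_top)
    rw [hinf, card_bot, mul_one] at h4
    rw [h4, (isPiHallOf_iff_card.mp hH0).2, (isPiHallOf_iff_card.mp hQhall).2, mul_comm,
      piPart_mul_compl _ Nat.card_pos.ne']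
  have hdec : ∀ h ∈ H, ∃ q ∈ Q, ∃ h' ∈ H0, h = q * h' := by
    intro h hh
    rw [← hsup, sup_comm] at hh
    obtain ⟨q, hq, h', hh', e⟩ := mem_sup_of_normal_left.mp hh
    exact ⟨q, hq, h', hh', e.symm⟩
  -- H centralises the involutions
  have hA0 : ∀ v : G, v * v = 1 → ∀ h ∈ H0, v * h = h * v := by
    by_contra hcon
    push Not at hcon
    obtain ⟨w, hw, h', hh', hne⟩ := hcon
    have hw1 : w ≠ 1 := by
      rintro rfl
      exact hne (by rw [one_mul, mul_one])
    have key : ∀ v : G, v ≠ 1 → v * v = 1 → ¬ ∀ h ∈ H0, v * h = h * v := by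
      intro v hv1 hv2 hall
      have hallH : ∀ h ∈ H, v * h = h * v := by
        intro h hh
        obtain ⟨q, hq, h'', hh'', rfl⟩ := hdec h hh
        rw [← mul_assoc, (hV v hv2).2 q hq, mul_assoc, hall h'' hh'', mul_assoc]
      obtain ⟨g, hg⟩ := isConj_iff.mp (hconj v w hv1 hv2 hw1 hw)
      apply hne
      have h4 := hallH (g⁻¹ * h' * g) (by have := hHn.conj_mem _ (hH0.1 hh') g⁻¹; rwa [inv_inv] at this)
      calc w * h' = g * (v * (g⁻¹ * h' * g)) * g⁻¹ := by rw [← hg]; group
        _ = g * (g⁻¹ * h' * g * v) * g⁻¹ := by rw [h4]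
        _ = h' * w := by rw [← hg]; group
    set N := normalizer (H0 : Set G) with hN
    have hNQ : N ⊓ Q = ⊥ := by
      rw [eq_bot_iff]
      intro x hx
      rw [mem_bot]
      by_contra hx1'
      have hx' : (⟨x, hx⟩ : (N ⊓ Q : Subgroup G)) ≠ 1 := fun e => hx1' (congrArg Subtype.val e)
      obtain ⟨m, hm1, hm2⟩ := H16.Suz.exists_pow_invol (hQp.to_le (inf_le_right : N ⊓ Q ≤ Q)) hx'
      have hm1' : x ^ m ≠ 1 := fun e => hm1 (Subtype.ext e)
      have hm2' : x ^ m * x ^ m = 1 := congrArg Subtype.val hm2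
      apply key _ hm1' hm2'
      intro h hh
      have hvQ : x ^ m ∈ Q := Q.pow_mem hx.2 m
      have hvN : x ^ m ∈ N := N.pow_mem hx.1 m
      obtain ⟨v, hv⟩ : ∃ v, v = x ^ m := ⟨_, rfl⟩
      rw [← hv] at hvQ hvN ⊢
      have h3 : v * h * v⁻¹ * h⁻¹ ∈ H0 ⊓ Q := by
        refine ⟨H0.mul_mem ((mem_normalizer_iff.mp hvN h).mp hh) (H0.inv_mem hh), ?_⟩
        have := Q.mul_mem hvQ (hQn.conj_mem _ (Q.inv_mem hvQ) h)
        rw [← mul_assoc, ← mul_assoc] at this
        exact this
      rw [hinf, mem_bot] at h3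
      have h4 : v * h = (v * h * v⁻¹ * h⁻¹) * (h * v) := by group
      rw [h4, h3, one_mul]
    have hNQtop : N ⊔ Q = ⊤ := by
      rw [eq_top_iff]
      intro g _
      obtain ⟨h, hh, n, hn, rfl⟩ := frattini_hall (hsub H) hH0 g
      obtain ⟨q, hq, h'', hh'', rfl⟩ := hdec h hh
      refine mul_mem (mul_mem (mem_sup_right hq) (mem_sup_left ?_)) (mem_sup_left hn)
      exact le_normalizer hh''
    have hcard := card_sup_mul_card_inf (H := N) (N := Q) (by rw [normalizer_eq_top]; exact le_top)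
    rw [hNQ, hNQtop, card_bot, mul_one, card_top, ← Subgroup.card_mul_index Q, mul_comm] at hcard
    have h5 : Q.index = Nat.card N := Nat.eq_of_mul_eq_mul_right Nat.card_pos hcard
    rw [h5] at h2
    obtain ⟨x, hx⟩ := exists_prime_orderOf_dvd_card' 2 h2
    have hx3 : (x : G) * x = 1 := by
      have := pow_orderOf_eq_one x
      rw [hx, pow_two] at this
      exact congrArg Subtype.val this
    have hx4 : (x : G) ∈ N ⊓ Q := ⟨x.2, (hV _ hx3).1⟩
    rw [hNQ, mem_bot] at hx4
    have hx5 : x = 1 := Subtype.ext hx4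
    rw [hx5, orderOf_one] at hx
    omega
  have hA : ∀ v : G, v * v = 1 → ∀ h ∈ H, v * h = h * v := by
    intro v hv h hh
    obtain ⟨q, hq, h'', hh'', rfl⟩ := hdec h hh
    rw [← mul_assoc, (hV v hv).2 q hq, mul_assoc, hA0 v hv h'' hh'', mul_assoc]
  -- the subgroup K
  have hHtop : H ≠ ⊤ := by
    intro h3
    rw [h3, relIndex_top_right] at hHrel
    exact hHrel h2
  have hsolH : Group.IsSolvable (G ⧸ H) := Group.isSolvable_of_surjective (f := QuotientGroup.mk' H)
    (QuotientGroup.mk'_surjective H)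
  have hpsH : IsPSolvable 2 (G ⧸ H) := H37.QuadCore.isPSolvable_of_isSolvable 2 _ _ hsolH rfl
  have hntH : Nontrivial (G ⧸ H) := by
    by_contra hs
    rw [not_nontrivial_iff_subsingleton] at hs
    apply hHtop
    rw [eq_top_iff]
    intro x _
    exact (QuotientGroup.eq_one_iff x).mp (Subsingleton.elim _ _)
  have hcore : pCore 2 (G ⧸ H) ≠ ⊥ := by
    rcases H37.PSolv.core_ne_bot hpsH with h3 | h3
    · exact h3
    · exfalso
      set M := (pPrimeCore 2 (G ⧸ H)).comap (QuotientGroup.mk' H) with hM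
      have hHM : H ≤ M := by
        intro x hx
        rw [hM, mem_comap]
        have : QuotientGroup.mk' H x = 1 := (QuotientGroup.eq_one_iff x).mpr hx
        rw [this]; exact one_mem _
      have h4 : ¬ 2 ∣ H.relIndex M := by
        have e1 := H1.Cores.card_comap_mk' H (pPrimeCore 2 (G ⧸ H))
        have e2 := H28.RelSyl.relIndex_mul_card (H := H) (K := M) hHM
        rw [hM, e1, mul_comm (Nat.card H)] at e2
        have e3 := Nat.eq_of_mul_eq_mul_right Nat.card_pos e2
        rw [hM, e3]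
        intro h3
        have h4 := H1.Cores.coprime_card_pPrimeCore (G := G ⧸ H) 2
        have h5 := Nat.dvd_gcd h3 (dvd_refl 2)
        rw [h4] at h5
        omega
      have h5 : M ≤ H := by
        refine hHmax M inferInstance (hQH.trans hHM) ?_
        rw [← relIndex_mul_relIndex Q H M hQH hHM]
        intro h6
        rcases (Nat.Prime.dvd_mul Nat.prime_two).mp h6 with h7 | h7
        · exact hHrel h7
        · exact h4 h7
      apply h3
      rw [eq_bot_iff]
      intro y hy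
      obtain ⟨y', rfl⟩ := QuotientGroup.mk'_surjective H y
      rw [mem_bot]
      exact (QuotientGroup.eq_one_iff y').mpr (h5 hy)
  set K := (pCore 2 (G ⧸ H)).comap (QuotientGroup.mk' H) with hKdef
  have hKn : K.Normal := inferInstance
  have hHK : H ≤ K := by
    intro x hx
    rw [hKdef, mem_comap]
    have : QuotientGroup.mk' H x = 1 := (QuotientGroup.eq_one_iff x).mpr hx
    rw [this]; exact one_mem _
  have hKH : ¬ K ≤ H := by
    intro h3
    apply hcore
    rw [eq_bot_iff]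
    intro y hy
    obtain ⟨y', rfl⟩ := QuotientGroup.mk'_surjective H y
    rw [mem_bot]
    exact (QuotientGroup.eq_one_iff y').mpr (h3 hy)
  have hHKrel : ∃ k, H.relIndex K = 2 ^ k := by
    have e1 := H1.Cores.card_comap_mk' H (pCore 2 (G ⧸ H))
    have e2 := H28.RelSyl.relIndex_mul_card (H := H) (K := K) hHK
    rw [hKdef, e1, mul_comm (Nat.card H)] at e2
    have e3 := Nat.eq_of_mul_eq_mul_right Nat.card_pos e2
    rw [hKdef, e3]
    exact IsPGroup.iff_card.mp (H1.Cores.isPGroup_pCore 2)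
  obtain ⟨R, hR, hQR⟩ := exists_isPiHallOf_ge (π := {2}) (hsub K) (piG_singleton_iff.mpr hQp) (hQH.trans hHK)
  have hRp : IsPGroup 2 R := piG_singleton_iff.mp hR.2.1
  have hKsup : K ≤ H ⊔ R := by
    have h3 : H ⊔ R ≤ K := sup_le hHK hR.1
    have h4 := relIndex_mul_relIndex H (H ⊔ R) K le_sup_left h3
    have h5 := relIndex_mul_relIndex R (H ⊔ R) K le_sup_right h3
    obtain ⟨k, hk⟩ := hHKrel
    rw [hk] at h4
    have h6 : ¬ 2 ∣ R.relIndex K := hR.2.2 2 Nat.prime_two rfl
    have h7 : (H ⊔ R).relIndex K ∣ 2 ^ k := Dvd.intro_left _ h4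
    obtain ⟨j, _, hj⟩ := (Nat.dvd_prime_pow Nat.prime_two).mp h7
    have h8 : j = 0 := by
      by_contra hj0
      apply h6
      rw [← h5, hj]
      exact Dvd.dvd.mul_left (dvd_pow_self 2 hj0) _
    rw [h8, pow_zero] at hj
    exact relIndex_eq_one.mp hj
  -- transitivity of the normaliser of R
  have htrR : ∀ x y : G, x ≠ 1 → x * x = 1 → y ≠ 1 → y * y = 1 → ∃ n ∈ normalizer (R : Set G), n * x * n⁻¹ = y := by
    intro x y hx hx' hy hy'
    obtain ⟨g, hg⟩ := isConj_iff.mp (hconj x y hx hx' hy hy')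
    obtain ⟨k, hk, n, hn, rfl⟩ := frattini_hall (hsub K) hR g
    obtain ⟨h, hh, r, hr, rfl⟩ := mem_sup_of_normal_left.mp (hKsup hk)
    refine ⟨r * n, mul_mem (le_normalizer hr) hn, ?_⟩
    have e1 : (r * n * x * (r * n)⁻¹) * (r * n * x * (r * n)⁻¹) = 1 := by
      calc (r * n * x * (r * n)⁻¹) * (r * n * x * (r * n)⁻¹) = r * n * (x * x) * (r * n)⁻¹ := by group
        _ = 1 := by rw [hx']; group
    have e2 := hA _ e1 h hh
    calc r * n * x * (r * n)⁻¹ = (r * n * x * (r * n)⁻¹) * h * h⁻¹ := by group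
      _ = h * (r * n * x * (r * n)⁻¹) * h⁻¹ := by rw [e2]
      _ = y := by rw [← hg]; group
  have hRV : ∀ x ∈ R, ∀ q ∈ R, ⁅x, q⁆ * ⁅x, q⁆ = 1 := by
    intro x hx q hq
    by_cases hab : IsMulCommutative R
    · have h3 : x * q = q * x := congrArg Subtype.val (hab.is_comm.comm (⟨x, hx⟩ : R) ⟨q, hq⟩)
      rw [commutatorElement_eq_one_iff_mul_comm.mpr h3, mul_one]
    · let f : normalizer (R : Set G) →* MulAut R := normalizerMonoidHom R
      have hf : ∀ (n : normalizer (R : Set G)) (r : R), ((f n r : R) : G) = n * r * (n : G)⁻¹ := fun n r => rfl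
      have hmem : ∀ v : G, v * v = 1 → v ∈ R := fun v hv => hQR (hV v hv).1
      have h3 := H66.Hig.main (G := R) hRp hab
        ⟨⟨x0, hmem _ hx2⟩, ⟨y0, hmem _ hy2⟩, fun e => hxy (congrArg Subtype.val e),
          fun e => hx1 (congrArg Subtype.val e), by rw [pow_two]; exact Subtype.ext hx2,
          fun e => hy1 (congrArg Subtype.val e), by rw [pow_two]; exact Subtype.ext hy2⟩
        ⟨f.range, Group.isSolvable_of_surjective (f := f.rangeRestrict) f.rangeRestrict_surjective, by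
          intro a b ha ha' hb hb'
          obtain ⟨n, hn, hnab⟩ := htrR a b (fun e => ha (Subtype.ext e))
            (by rw [pow_two] at ha'; exact congrArg Subtype.val ha') (fun e => hb (Subtype.ext e))
            (by rw [pow_two] at hb'; exact congrArg Subtype.val hb')
          exact ⟨f ⟨n, hn⟩, ⟨⟨n, hn⟩, rfl⟩, Subtype.ext hnab⟩⟩
      have h4 : ⁅(⟨x, hx⟩ : R), ⟨q, hq⟩⁆ ∈ _root_.commutator R := by
        rw [_root_.commutator_def]
        exact commutator_mem_commutator trivial trivial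
      rw [h3.1, h3.2.1, h3.2.2, pow_two] at h4
      exact congrArg Subtype.val h4
  -- the subgroup V
  let V : Subgroup G :=
    { carrier := {x | x * x = 1}
      one_mem' := one_mul 1
      mul_mem' := by
        intro x y hx hy
        change x * y * (x * y) = 1
        have hx' : x * x = 1 := hx
        have hy' : y * y = 1 := hy
        calc x * y * (x * y) = x * (y * x) * y := by group
          _ = x * (x * y) * y := by rw [(hV y hy').2 x (hV x hx').1]
          _ = (x * x) * (y * y) := by group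
          _ = 1 := by rw [hx', hy', one_mul]
      inv_mem' := by
        intro x hx
        change x⁻¹ * x⁻¹ = 1
        rw [← mul_inv_rev, (hx : x * x = 1), inv_one] }
  have hVmem : ∀ x, x ∈ V ↔ x * x = 1 := fun x => Iff.rfl
  have hVconj : ∀ g x, x ∈ V → g * x * g⁻¹ ∈ V := by
    intro g x hx
    rw [hVmem] at hx ⊢
    calc g * x * g⁻¹ * (g * x * g⁻¹) = g * (x * x) * g⁻¹ := by group
      _ = 1 := by rw [hx]; group
  let N : Subgroup G :=
    { carrier := {x | ∀ q ∈ Q, x * q * x⁻¹ * q⁻¹ ∈ V}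
      one_mem' := by
        intro q _
        have : (1 : G) * q * 1⁻¹ * q⁻¹ = 1 := by group
        rw [this]; exact V.one_mem
      mul_mem' := by
        intro x y hx hy q hq
        have e : x * y * q * (x * y)⁻¹ * q⁻¹ = x * (y * q * y⁻¹ * q⁻¹) * x⁻¹ * (x * q * x⁻¹ * q⁻¹) := by group
        rw [e]
        exact V.mul_mem (hVconj _ _ (hy q hq)) (hx q hq)
      inv_mem' := by
        intro x hx q hq
        have h3 := hx (x⁻¹ * q * x) (by have := hQn.conj_mem _ hq x⁻¹; rwa [inv_inv] at this)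
        have h4 := V.inv_mem h3
        have e : x⁻¹ * q * x⁻¹⁻¹ * q⁻¹ = (x * (x⁻¹ * q * x) * x⁻¹ * (x⁻¹ * q * x)⁻¹)⁻¹ := by group
        rw [e]; exact h4 }
  have hNmem : ∀ x, x ∈ N ↔ ∀ q ∈ Q, x * q * x⁻¹ * q⁻¹ ∈ V := fun x => Iff.rfl
  have hNn : N.Normal := by
    constructor
    intro x hx g
    rw [hNmem] at hx ⊢
    intro q hq
    have h3 := hx (g⁻¹ * q * g) (by have := hQn.conj_mem _ hq g⁻¹; rwa [inv_inv] at this)
    have h4 := hVconj g _ h3
    have e : g * x * g⁻¹ * q * (g * x * g⁻¹)⁻¹ * q⁻¹ =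
        g * (x * (g⁻¹ * q * g) * x⁻¹ * (g⁻¹ * q * g)⁻¹) * g⁻¹ := by group
    rw [e]; exact h4
  have hRN : R ≤ N := by
    intro x hx
    rw [hNmem]
    intro q hq
    exact hRV x hx q (hQR hq)
  have hNH : N ⊓ H ≤ Q := by
    refine H1.Cores.le_pCore inferInstance ?_
    rw [IsPGroup.iff_card]
    refine ⟨_, Nat.eq_prime_pow_of_unique_prime_dvd Nat.card_pos.ne' (fun {d} hd hdd => ?_)⟩
    by_contra hd2
    have hfd : Fact d.Prime := ⟨hd⟩
    obtain ⟨x, hx⟩ := exists_prime_orderOf_dvd_card' d hdd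
    have hxd : (x : G) ^ d = 1 := by
      have := pow_orderOf_eq_one x
      rw [hx] at this
      exact congrArg Subtype.val this
    have hxQ : (x : G) ∈ Q := by
      apply hQC
      rw [mem_centralizer_iff]
      intro q hq
      have h3 := x.2.1 q hq
      obtain ⟨c, hc⟩ : ∃ c, c = (x : G) * q * (x : G)⁻¹ * q⁻¹ := ⟨_, rfl⟩
      rw [← hc] at h3
      have h4 : c * x = x * c := hA c h3 x x.2.2
      have h5 : ∀ k : ℕ, (x : G) ^ k * q * ((x : G) ^ k)⁻¹ = c ^ k * q := by
        intro k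
        induction k with
        | zero => group
        | succ k ih =>
          have h6 : (x : G) * c ^ k * (x : G)⁻¹ = c ^ k := by
            have : Commute (x : G) (c ^ k) := (show Commute (x : G) c from h4.symm).pow_right k
            rw [this.eq]; group
          calc (x : G) ^ (k + 1) * q * ((x : G) ^ (k + 1))⁻¹
              = x * ((x : G) ^ k * q * ((x : G) ^ k)⁻¹) * (x : G)⁻¹ := by rw [pow_succ']; group
            _ = x * (c ^ k * q) * (x : G)⁻¹ := by rw [ih]
            _ = (x * c ^ k * (x : G)⁻¹) * (x * q * (x : G)⁻¹ * q⁻¹) * q := by group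
            _ = c ^ (k + 1) * q := by rw [h6, ← hc, pow_succ]
      have h7 := h5 d
      rw [hxd] at h7
      have h8 : c ^ d = 1 := by
        have : c ^ d * q = q := by rw [← h7]; group
        exact mul_eq_right.mp this
      have h9 : c = 1 := by
        have hodd : Odd d := hd.odd_of_ne_two hd2
        obtain ⟨k, hk⟩ := hodd
        have h10 : c ^ d = c := by
          rw [hk, pow_succ, pow_mul, pow_two, (h3 : c * c = 1), one_pow, one_mul]
        rw [← h10]; exact h8
      rw [h9] at hc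
      have : (x : G) * q = (x * q * (x : G)⁻¹ * q⁻¹) * (q * x) := by group
      rw [this, ← hc, one_mul]
    have hcop : (orderOf (x : G)).Coprime d := by
      obtain ⟨k, hk⟩ := hQp ⟨(x : G), hxQ⟩
      have h3 : (x : G) ^ 2 ^ k = 1 := congrArg Subtype.val hk
      have h4 : orderOf (x : G) ∣ 2 ^ k := orderOf_dvd_of_pow_eq_one h3
      refine Nat.Coprime.coprime_dvd_left h4 (Nat.Coprime.pow_left k ?_)
      exact (Nat.coprime_primes Nat.prime_two hd).mpr (fun e => hd2 e.symm)
    rw [Subgroup.orderOf_coe, hx, Nat.coprime_self] at hcop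
    exact hd.ne_one hcop
  have hRH : R ≤ H := by
    intro r hr
    apply hHC
    intro h hh
    apply hNH
    refine ⟨?_, ?_⟩
    · have e : ⁅r, h⁆ = r * (h * r⁻¹ * h⁻¹) := by rw [commutatorElement_def]; group
      rw [e]
      exact N.mul_mem (hRN hr) (hNn.conj_mem _ (N.inv_mem (hRN hr)) h)
    · have e : ⁅r, h⁆ = (r * h * r⁻¹) * h⁻¹ := by rw [commutatorElement_def]
      rw [e]
      exact H.mul_mem (hHn.conj_mem _ hh r) (H.inv_mem hh)
  exact hKH (hKsup.trans (sup_le le_rfl hRH))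

end H66.Thom
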