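import Mathlib
import Cfsg.Agent.Lib.H66.Thom1

/-!
Soluble groups with one class of involutions (Thompson): final form, and homocyclic 2-groups.
-/

set_option autoImplicit false

open Cfsg Subgroup H28.Cj H28.RelHall

namespace H66.Thom

universe u

/-- an abelian 2-group whose automorphism group is transitive on involutions is homocyclic -/
theorem homocyc {S : Type u} [Group S] [Finite S] (hS : IsPGroup 2 S) (hab : ∀ a b : S, a * b = b * a)
    (tr : ∀ x y : S, x ≠ 1 → x * x = 1 → y ≠ 1 → y * y = 1 → ∃ a : MulAut S, a x = y) :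
    ∃ m r : ℕ, Nonempty (S ≃* (Fin r → Multiplicative (ZMod (2 ^ m)))) := by
  classical
  let _ : CommGroup S := { (inferInstance : Group S) with mul_comm := hab }
  obtain ⟨ι, hι, n, hn, ⟨e⟩⟩ := CommGroup.equiv_prod_multiplicative_zmod_of_finite S
  have hord : ∀ i, orderOf (Multiplicative.ofAdd (1 : ZMod (n i))) = n i := by
    intro i
    rw [orderOf_ofAdd_eq_addOrderOf, ZMod.addOrderOf_one]
  let s : ι → S := fun i => e.symm (Pi.mulSingle i (Multiplicative.ofAdd (1 : ZMod (n i))))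
  have hes : ∀ i, e (s i) = Pi.mulSingle i (Multiplicative.ofAdd (1 : ZMod (n i))) := fun i => e.apply_symm_apply _
  have hso : ∀ i, orderOf (s i) = n i := by
    intro i
    rw [← MulEquiv.orderOf_eq e, hes]
    have hinj : Function.Injective (MonoidHom.mulSingle (fun i => Multiplicative (ZMod (n i))) i) := by
      intro a b hab'
      have := congrFun hab' i
      simpa [MonoidHom.mulSingle_apply] using this
    exact (orderOf_injective (MonoidHom.mulSingle (fun i => Multiplicative (ZMod (n i))) i) hinj _).trans (hord i)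
  have hk : ∀ i, ∃ k, n i = 2 ^ k := by
    intro i
    obtain ⟨k, hk⟩ := (IsPGroup.iff_orderOf (p := 2)).mp hS (s i)
    exact ⟨k, by rw [← hso i, hk]⟩
  choose k hk using hk
  have hk1 : ∀ i, 1 ≤ k i := by
    intro i
    by_contra h0
    have h1 : k i = 0 := by omega
    have := hn i
    rw [hk i, h1, pow_zero] at this
    omega
  have hle : ∀ i j, k i ≤ k j := by
    intro j i
    by_contra hlt
    push Not at hlt
    -- k i < k j
    have hz : ∀ l, s l ^ (2 ^ (k l - 1)) ≠ 1 ∧ s l ^ (2 ^ (k l - 1)) * s l ^ (2 ^ (k l - 1)) = 1 := by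
      intro l
      refine ⟨fun h1 => ?_, ?_⟩
      · have h2 := orderOf_dvd_of_pow_eq_one h1
        rw [hso l, hk l] at h2
        have h3 := (Nat.pow_dvd_pow_iff_le_right (by norm_num : 1 < 2)).mp h2
        have := hk1 l
        omega
      · rw [← pow_add, ← two_mul, ← pow_succ', Nat.sub_add_cancel (hk1 l), ← hk l, ← hso l, pow_orderOf_eq_one]
    obtain ⟨a, ha⟩ := tr _ _ (hz j).1 (hz j).2 (hz i).1 (hz i).2
    apply (hz i).1
    apply e.injective
    rw [map_one]
    have h1 : e (s i ^ (2 ^ (k i - 1))) i = 1 := by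
      rw [← ha, map_pow, map_pow, Pi.pow_apply]
      have h2 : Nat.card (Multiplicative (ZMod (n i))) = 2 ^ (k i) := by
        rw [← hk i]
        exact Nat.card_zmod (n i)
      have h3 : 2 ^ (k j - 1) = 2 ^ (k i) * 2 ^ (k j - 1 - k i) := by rw [← pow_add]; congr 1; omega
      rw [h3, pow_mul, ← h2, pow_card_eq_one', one_pow]
    rw [map_pow, hes, Pi.pow_apply, Pi.mulSingle_eq_same] at h1
    rw [map_pow, hes]
    ext l
    by_cases hl : l = i
    · subst hl
      rw [Pi.pow_apply, Pi.mulSingle_eq_same, h1]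
      rfl
    · rw [Pi.pow_apply, Pi.mulSingle_eq_of_ne hl, one_pow]
      rfl
  obtain ⟨m, hm⟩ : ∃ m, ∀ i, k i = m := by
    by_cases hne : Nonempty ι
    · obtain ⟨i⟩ := hne
      exact ⟨k i, fun j => le_antisymm (hle _ _) (hle _ _)⟩
    · exact ⟨0, fun i => (hne ⟨i⟩).elim⟩
  have hnm : ∀ i, n i = 2 ^ m := fun i => by rw [hk i, hm i]
  let ε := Fintype.equivFin ι
  refine ⟨m, Fintype.card ι, ⟨e.trans ((MulEquiv.piCongrRight fun i =>
    AddEquiv.toMultiplicative (ZMod.ringEquivCongr (hnm i)).toAddEquiv).trans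
    (MulEquiv.arrowCongr ε (MulEquiv.refl _)))⟩⟩

theorem final {G : Type u} [Group G] [Finite G] (hG : Group.IsSolvable G) (S : Sylow 2 G)
    (htwo : ∃ x y : G, x ∈ (S : Subgroup G) ∧ y ∈ (S : Subgroup G) ∧ x ≠ y ∧ x ≠ 1 ∧ x ^ 2 = 1 ∧ y ≠ 1 ∧ y ^ 2 = 1)
    (hconj : ∀ x y : G, x ≠ 1 → x ^ 2 = 1 → y ≠ 1 → y ^ 2 = 1 → IsConj x y) :
    PLengthLE 2 1 G ∧
      ∀ x ∈ (S : Subgroup G), ∀ y ∈ (S : Subgroup G), x ≠ 1 → x ^ 2 = 1 → y ≠ 1 → y ^ 2 = 1 →
        ∃ n ∈ normalizer ((S : Subgroup G) : Set G), n * x * n⁻¹ = y := by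
  classical
  have hf2 : Fact (Nat.Prime 2) := ⟨Nat.prime_two⟩
  obtain ⟨x0, y0, hxS, hyS, hxy, hx1, hx2, hy1, hy2⟩ := htwo
  set O := pPrimeCore 2 G with hO
  have hOc := H1.Cores.coprime_card_pPrimeCore (G := G) 2
  have hOodd : Odd (Nat.card O) := by
    rw [← Nat.not_even_iff_odd, even_iff_two_dvd]
    intro h
    have := Nat.dvd_gcd h (dvd_refl 2)
    rw [hOc] at this
    omega
  have hOS : (S : Subgroup G) ⊓ O = ⊥ := H1.Cores.disjoint_of_isPGroup S.isPGroup' hOc
  have hmk : ∀ x : G, QuotientGroup.mk' O x = 1 ↔ x ∈ O := fun x => QuotientGroup.eq_one_iff x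
  have hS1 : ∀ x ∈ (S : Subgroup G), x ∈ O → x = 1 := by
    intro x hx hx'
    have : x ∈ (S : Subgroup G) ⊓ O := ⟨hx, hx'⟩
    rwa [hOS, mem_bot] at this
  have hsol : Group.IsSolvable (G ⧸ O) := Group.isSolvable_of_surjective (f := QuotientGroup.mk' O)
    (QuotientGroup.mk'_surjective O)
  have hcore : ¬ 2 ∣ (pCore 2 (G ⧸ O)).index := by
    refine core hsol (H1.Cores.pPrimeCore_quotient_pPrimeCore 2) ?_ ?_
    · refine ⟨QuotientGroup.mk' O x0, QuotientGroup.mk' O y0, ?_, ?_, ?_, ?_, ?_⟩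
      · intro he
        apply hxy
        have h1 : QuotientGroup.mk' O (x0⁻¹ * y0) = 1 := by rw [map_mul, map_inv, he, inv_mul_cancel]
        exact inv_mul_eq_one.mp (hS1 _ (mul_mem (inv_mem hxS) hyS) ((hmk _).mp h1))
      · intro h1; exact hx1 (hS1 _ hxS ((hmk _).mp h1))
      · rw [← map_mul, ← pow_two, hx2, map_one]
      · intro h1; exact hy1 (hS1 _ hyS ((hmk _).mp h1))
      · rw [← map_mul, ← pow_two, hy2, map_one]
    · have hlift : ∀ x : G ⧸ O, x * x = 1 → ∃ g : G, g ^ 2 = 1 ∧ QuotientGroup.mk' O g = x := by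
        intro x hx
        obtain ⟨g, rfl⟩ := QuotientGroup.mk'_surjective O x
        rw [← map_mul, hmk] at hx
        refine ⟨g ^ Nat.card O, ?_, ?_⟩
        · rw [← pow_mul, mul_comm, pow_mul, pow_two]
          have := pow_card_eq_one' (x := (⟨g * g, hx⟩ : O))
          exact congrArg Subtype.val this
        · obtain ⟨t, ht⟩ := hOodd
          rw [ht, map_pow, pow_succ, pow_mul, pow_two, ← map_mul, (hmk _).mpr hx, one_pow, one_mul]
      intro x y hx hx' hy hy'
      obtain ⟨g, hg, rfl⟩ := hlift x hx'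
      obtain ⟨k, hk, rfl⟩ := hlift y hy'
      obtain ⟨c, hc⟩ := isConj_iff.mp (hconj g k (fun e => hx (by rw [e, map_one])) hg (fun e => hy (by rw [e, map_one])) hk)
      exact isConj_iff.mpr ⟨QuotientGroup.mk' O c, by rw [← map_inv, ← map_mul, ← map_mul, hc]⟩
  constructor
  · refine H66.PLen.pLengthLE_of_quotient_coprime O hOc ?_
    refine H66.PLen.pLengthLE_succ_of (k := 0) (⊥ : Subgroup (G ⧸ O)) (pCore 2 (G ⧸ O)) bot_le (by simp) ?_ ?_
    · rw [relIndex_bot_left]
      exact IsPGroup.iff_card.mp (H1.Cores.isPGroup_pCore 2)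
    · rw [H66.PLen.pLengthLE_zero_iff, ← Subgroup.index_eq_card]
      exact ((Nat.Prime.coprime_iff_not_dvd Nat.prime_two).mpr hcore).symm
  · set M := (pCore 2 (G ⧸ O)).comap (QuotientGroup.mk' O) with hM
    have hMn : M.Normal := inferInstance
    have hMi : M.index = (pCore 2 (G ⧸ O)).index := by
      rw [hM]
      exact index_comap_of_surjective _ (QuotientGroup.mk'_surjective O)
    have hOM : O ≤ M := by
      intro x hx
      rw [hM, mem_comap, (hmk x).mpr hx]
      exact one_mem _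
    have hSM : (S : Subgroup G) ≤ M := by
      intro x hx
      obtain ⟨k, hk⟩ := S.isPGroup' ⟨x, hx⟩
      have hk' : x ^ 2 ^ k = 1 := congrArg Subtype.val hk
      have h1 : orderOf (QuotientGroup.mk' M x) ∣ 2 ^ k :=
        orderOf_dvd_of_pow_eq_one (by rw [← map_pow, hk', map_one])
      have h2 : orderOf (QuotientGroup.mk' M x) ∣ M.index := by
        rw [Subgroup.index_eq_card]
        exact orderOf_dvd_natCard _
      have h3 : (2 ^ k).Coprime M.index := by
        rw [hMi]
        exact Nat.Coprime.pow_left k ((Nat.Prime.coprime_iff_not_dvd Nat.prime_two).mpr hcore)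
      have h4 := Nat.dvd_gcd h1 h2
      rw [h3, Nat.dvd_one, orderOf_eq_one_iff] at h4
      exact (QuotientGroup.eq_one_iff x).mp h4
    have hhall : IsPiHallOf {2} (S : Subgroup G) M := by
      refine ⟨hSM, piG_singleton_iff.mpr S.isPGroup', ?_⟩
      intro p _ hp2 hd
      rw [Set.mem_singleton_iff] at hp2
      subst hp2
      exact S.not_dvd_index (hd.trans (relIndex_dvd_index_of_le hSM))
    have hOMrel : ∃ k, O.relIndex M = 2 ^ k := by
      have e1 := H1.Cores.card_comap_mk' O (pCore 2 (G ⧸ O))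
      have e2 := H28.RelSyl.relIndex_mul_card (H := O) (K := M) hOM
      rw [hM, e1, mul_comm (Nat.card O)] at e2
      have e3 := Nat.eq_of_mul_eq_mul_right Nat.card_pos e2
      rw [hM, e3]
      exact IsPGroup.iff_card.mp (H1.Cores.isPGroup_pCore 2)
    have hMsup : M ≤ O ⊔ (S : Subgroup G) := by
      have h3 : O ⊔ (S : Subgroup G) ≤ M := sup_le hOM hSM
      have h4 := relIndex_mul_relIndex O (O ⊔ (S : Subgroup G)) M le_sup_left h3
      have h5 := relIndex_mul_relIndex (S : Subgroup G) (O ⊔ (S : Subgroup G)) M le_sup_right h3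
      obtain ⟨k, hk⟩ := hOMrel
      rw [hk] at h4
      have h6 : ¬ 2 ∣ (S : Subgroup G).relIndex M := hhall.2.2 2 Nat.prime_two rfl
      have h7 : (O ⊔ (S : Subgroup G)).relIndex M ∣ 2 ^ k := Dvd.intro_left _ h4
      obtain ⟨j, _, hj⟩ := (Nat.dvd_prime_pow Nat.prime_two).mp h7
      have h8 : j = 0 := by
        by_contra hj0
        apply h6
        rw [← h5, hj]
        exact Dvd.dvd.mul_left (dvd_pow_self 2 hj0) _
      rw [h8, pow_zero] at hj
      exact relIndex_eq_one.mp hj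
    intro x hx y hy hx1' hx2' hy1' hy2'
    obtain ⟨g, hg⟩ := isConj_iff.mp (hconj x y hx1' hx2' hy1' hy2')
    have hsolM : Group.IsSolvable M := Group.isSolvable_of_isSolvable_injective (f := M.subtype) M.subtype_injective
    obtain ⟨m, hm, n, hn, rfl⟩ := frattini_hall hsolM hhall g
    obtain ⟨o, ho, s, hs, rfl⟩ := mem_sup_of_normal_left.mp (hMsup hm)
    have hsn : s * n ∈ normalizer ((S : Subgroup G) : Set G) := mul_mem (le_normalizer hs) hn
    refine ⟨s * n, hsn, ?_⟩
    have h1 : s * n * x * (s * n)⁻¹ ∈ (S : Subgroup G) := (mem_normalizer_iff.mp hsn x).mp hx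
    have h2 : y * (s * n * x * (s * n)⁻¹)⁻¹ ∈ O := by
      have e1 : y * (s * n * x * (s * n)⁻¹)⁻¹ =
          o * ((s * n * x * (s * n)⁻¹) * o⁻¹ * (s * n * x * (s * n)⁻¹)⁻¹) := by
        rw [← hg]; group
      rw [e1]
      exact O.mul_mem ho ((inferInstance : O.Normal).conj_mem _ (O.inv_mem ho) _)
    have h3 := hS1 _ (mul_mem hy (inv_mem h1)) h2
    exact (mul_inv_eq_one.mp h3).symm

end H66.Thom
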