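import Cfsg.Agent.Lib.H66.ShultGross
import Cfsg.Agent.Lib.H66.CardMul
import Cfsg.Agent.Lib.H83.FrobFixSub

/-!
Two configurations for Ward's theorem.
-/

set_option autoImplicit false

open Subgroup H66.Weights H66.Crit H66.MinQ H66.Rad
open scoped commutatorElement Pointwise

namespace H66.Crit

variable {K V Γ : Type*} [Field K] [AddCommGroup V] [Module K V] [Group Γ] [Finite Γ]
  {ρ : Representation K Γ V}

/-- `|E : Z|` is a perfect square -/
theorem CData.square [IsAlgClosed K] [FiniteDimensional K V] {W : Submodule K V} {E Z : Subgroup Γ}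
    (D : CData ρ W E Z) (hW : W ≠ ⊥) (hE : (Nat.card E : K) ≠ 0) :
    ∃ N : ℕ, 0 < N ∧ N ^ 2 * Nat.card Z = Nat.card E := by
  classical
  obtain ⟨U, hUW, hU, hUinv, hUmin⟩ := exists_minimal ρ (E : Set Γ) W hW D.inv
  have D' : CData ρ U E Z := D.mono hUW hU hUinv
  have : Nontrivial U := by
    obtain ⟨v, hv, hv0⟩ := (Submodule.ne_bot_iff _).mp hU
    exact ⟨⟨⟨v, hv⟩, 0, fun h => hv0 (congrArg Subtype.val h)⟩⟩
  letI := Fintype.ofFinite (E.subgroupOf (stab ρ U))
  letI := Fintype.ofFinite (Z.subgroupOf (stab ρ U))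
  have hirr : Irr (res ρ U) (E.subgroupOf (stab ρ U)) := by
    intro X hXE
    rcases hUmin (X.map U.subtype) (Submodule.map_subtype_le U X) (by
      rintro x hx w ⟨v, hv, rfl⟩
      exact ⟨_, hXE ⟨x, hUinv x hx⟩ hx v hv, rfl⟩) with h | h
    · left
      rw [eq_bot_iff]
      intro v hv
      have : (v : V) ∈ X.map U.subtype := ⟨v, hv, rfl⟩
      rw [h] at this
      exact Subtype.ext this
    · right
      rw [eq_top_iff]
      intro v _
      have : (v : V) ∈ X.map U.subtype := by rw [h]; exact v.2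
      obtain ⟨v', hv', e⟩ := this
      rw [← Subtype.ext e]; exact hv'
  have hE' : (Fintype.card (E.subgroupOf (stab ρ U)) : K) ≠ 0 := by
    rw [← Nat.card_eq_fintype_card, D'.card_E]; exact hE
  have hZ' : (Fintype.card (Z.subgroupOf (stab ρ U)) : K) ≠ 0 := by
    rw [← Nat.card_eq_fintype_card, D'.card_Z]; exact cast_card_ne_zero D'.le hE
  refine ⟨Module.finrank K U, Module.finrank_pos, ?_⟩
  have := sq_finrank_mul D'.data hirr hE' hZ'
  rwa [D'.card_E, D'.card_Z] at this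

end H66.Crit

namespace H66.Ward

variable {K V X : Type*} [Field K] [AddCommGroup V] [Module K V] [Group X] [Finite X]
  {ρ : Representation K X V}

theorem sq_of_pow_odd {c p N : ℕ} (hp : Odd p) (h : N ^ 2 = c ^ p) : ∃ m, c = m ^ 2 := by
  rcases Nat.eq_zero_or_pos c with hc | hc
  · exact ⟨0, by rw [hc]; rfl⟩
  obtain ⟨k, rfl⟩ := hp
  have h1 : (c ^ k) ^ 2 ∣ N ^ 2 := by
    rw [h, ← pow_mul, mul_comm k 2]
    exact pow_dvd_pow c (Nat.le_succ _)
  have h2 : c ^ k ∣ N := (Nat.pow_dvd_pow_iff two_ne_zero).mp h1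
  obtain ⟨m, rfl⟩ := h2
  refine ⟨m, ?_⟩
  have h3 : c ^ (2 * k) * m ^ 2 = c ^ (2 * k) * c := by
    rw [← pow_succ, ← h, mul_pow, ← pow_mul, mul_comm k 2]
  exact (Nat.eq_of_mul_eq_mul_left (pow_pos hc _) h3).symm

/-- configuration (iii) -/
theorem config3 [IsAlgClosed K] [FiniteDimensional K V] {p : ℕ} [hp : Fact p.Prime]
    {Q : Subgroup X} {χ μ : X → K} (hQQ : ⁅Q, Q⁆ ≤ Q ⊓ centralizer (Q : Set X))
    (hχ : IsChar (Q ⊓ centralizer (Q : Set X)) χ) (hne : rad hQQ hχ ≠ Q) (hW : W ρ hQQ hχ μ ≠ ⊥)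
    (hQs : Group.IsSolvable Q) (hQK : (Nat.card Q : K) ≠ 0) (hpK : (p : K) ≠ 0)
    {b : X} (hbQ : b ∈ normalizer (Q : Set X)) (hbp : b ^ p = 1) (hb1 : b ≠ 1)
    (hbχ : ∀ c ∈ Q ⊓ centralizer (Q : Set X), χ (b⁻¹ * c * b) = χ c)
    (hbW : ∀ w ∈ W ρ hQQ hχ μ, ρ b w ∈ W ρ hQQ hχ μ)
    (hbfix : ∀ w ∈ W ρ hQQ hχ μ, ρ b w = w → w = 0)
    {S : Subgroup X} (hSs : Group.IsSolvable S) (hSQ : S ≤ normalizer (Q : Set X))
    (hSχ : ∀ x ∈ S, ∀ c ∈ Q ⊓ centralizer (Q : Set X), χ (x⁻¹ * c * x) = χ c)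
    (hbS : ∀ x ∈ S, b * x * b⁻¹ ∈ S) (hbSfix : ∀ x ∈ S, b * x = x * b → x = 1)
    (hSZ : Q ⊓ centralizer (S : Set X) ≤ rad hQQ hχ)
    (hcop : (Nat.card Q).Coprime (Nat.card ↥(S ⊔ zpowers b))) : False := by
  classical
  set Zq := Q ⊓ centralizer (Q : Set X) with hZq
  set Rd := rad hQQ hχ with hRd
  set B := zpowers b with hB
  have hRdle : Rd ≤ Q := rad_le hQQ hχ
  have hZRd : Zq ≤ Rd := center_le hQQ hχ
  have hord : orderOf b = p := orderOf_eq_prime hbp hb1
  have hcardB : Nat.card B = p := by rw [hB, Nat.card_zpowers, hord]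
  have hBQ : B ≤ normalizer (Q : Set X) := by rw [hB, zpowers_le]; exact hbQ
  have hbRd : b ∈ normalizer (Rd : Set X) := mem_normalizer_rad hQQ hχ hbQ hbχ
  have hBRd : B ≤ normalizer (Rd : Set X) := by rw [hB, zpowers_le]; exact hbRd
  have hSRd : S ≤ normalizer (Rd : Set X) := fun x hx => mem_normalizer_rad hQQ hχ (hSQ hx) (hSχ x hx)
  have hcopB : (Nat.card B).Coprime (Nat.card Q) :=
    (hcop.coprime_dvd_right (card_dvd_of_le le_sup_right)).symm
  have hcopp : p.Coprime (Nat.card Q) := by rw [← hcardB]; exact hcopB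
  -- invariance of S under B
  have hBS : ∀ e ∈ B, ∀ u ∈ S, e * u * e⁻¹ ∈ S := by
    have h1 : ∀ j : ℕ, ∀ u ∈ S, b ^ j * u * (b ^ j)⁻¹ ∈ S := by
      intro j
      induction j with
      | zero => intro u hu; simpa using hu
      | succ j ih =>
        intro u hu
        have h2 := ih _ (hbS u hu)
        have h3 : b ^ (j + 1) * u * (b ^ (j + 1))⁻¹ = b ^ j * (b * u * b⁻¹) * (b ^ j)⁻¹ := by
          rw [pow_succ]; group
        rw [h3]; exact h2
    intro e he u hu
    rw [hB, mem_zpowers_iff_mem_range_orderOf] at he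
    obtain ⟨j, _, rfl⟩ := Finset.mem_image.mp he
    exact h1 j u hu
  have hgen : ∀ e ∈ B, e ≠ 1 → b ∈ zpowers e := by
    intro e he he1
    have h1 : zpowers e ≤ B := by rw [zpowers_le]; exact he
    have h2 : zpowers e = B := by
      apply Subgroup.eq_of_le_of_card_ge h1
      have h3 : Nat.card (zpowers e) ∣ p := by rw [← hcardB]; exact card_dvd_of_le h1
      rcases (Nat.dvd_prime hp.out).mp h3 with h4 | h4
      · exfalso
        rw [Nat.card_zpowers, orderOf_eq_one_iff] at h4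
        exact he1 h4
      · rw [h4, hcardB]
    rw [h2, hB]; exact mem_zpowers b
  have hfpf : ∀ e ∈ B, e ≠ 1 → ∀ u ∈ S, e * u = u * e → u = 1 := by
    intro e he he1 u hu heu
    apply hbSfix u hu
    have h1 : zpowers e ≤ centralizer {u} := by
      rw [zpowers_le, mem_centralizer_singleton_iff]; exact heu
    exact mem_centralizer_singleton_iff.mp (h1 (hgen e he he1))
  -- Wielandt's formula for Q and Rd
  have hnQ : ∀ x ∈ S ⊔ B, ∀ h ∈ Q, x * h * x⁻¹ ∈ Q := by
    intro x hx h hh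
    exact (mem_normalizer_iff.mp ((sup_le hSQ hBQ) hx) h).mp hh
  have hnR : ∀ x ∈ S ⊔ B, ∀ h ∈ Rd, x * h * x⁻¹ ∈ Rd := by
    intro x hx h hh
    exact (mem_normalizer_iff.mp ((sup_le hSRd hBRd) hx) h).mp hh
  have fQ := H83.FrobFix.formula_sub S B Q hSs hBS hfpf hnQ hQs hcop
  have fR := H83.FrobFix.formula_sub S B Rd hSs hBS hfpf hnR (H1.Coprime.isSolvable_of_le hRdle hQs)
    (hcop.coprime_dvd_left (card_dvd_of_le hRdle))
  have e1 : Rd ⊓ centralizer (S : Set X) = Q ⊓ centralizer (S : Set X) :=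
    le_antisymm (inf_le_inf hRdle le_rfl) (le_inf hSZ inf_le_right)
  have e2 : Rd ⊓ centralizer ((S ⊔ B : Subgroup X) : Set X) = Q ⊓ centralizer ((S ⊔ B : Subgroup X) : Set X) := by
    apply le_antisymm (inf_le_inf hRdle le_rfl)
    apply le_inf _ inf_le_right
    refine le_trans ?_ hSZ
    exact inf_le_inf le_rfl (centralizer_le (show (S : Set X) ⊆ ((S ⊔ B : Subgroup X) : Set X) from
      SetLike.coe_subset_coe.mpr le_sup_left))
  rw [e1, e2, hcardB] at fR
  rw [hcardB] at fQ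
  set α := Nat.card ↥(Q ⊓ centralizer ((S ⊔ B : Subgroup X) : Set X)) with hα
  set κ := Nat.card ↥(Q ⊓ centralizer (S : Set X)) with hκ
  set x := Nat.card ↥(Q ⊓ centralizer (B : Set X)) with hx
  set y := Nat.card ↥(Rd ⊓ centralizer (B : Set X)) with hy
  have hαpos : 0 < α := Nat.card_pos
  have hκpos : 0 < κ := Nat.card_pos
  have hypos : 0 < y := Nat.card_pos
  obtain ⟨c, hc⟩ : y ∣ x := card_dvd_of_le (inf_le_inf hRdle le_rfl)
  have hQcard : Nat.card Q = Nat.card Rd * c ^ p := by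
    have h1 : α ^ p * κ * (Nat.card Q * y ^ p) = α ^ p * κ * (Nat.card Rd * x ^ p) := by
      calc α ^ p * κ * (Nat.card Q * y ^ p) = (α ^ p * Nat.card Q) * (y ^ p * κ) := by ring
        _ = (x ^ p * κ) * (y ^ p * κ) := by rw [fQ]
        _ = (x ^ p * κ) * (α ^ p * Nat.card Rd) := by rw [fR]
        _ = α ^ p * κ * (Nat.card Rd * x ^ p) := by ring
    have h2 := Nat.eq_of_mul_eq_mul_left (by positivity) h1
    rw [hc, mul_pow] at h2
    have h3 : y ^ p * Nat.card Q = y ^ p * (Nat.card Rd * c ^ p) := by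
      calc y ^ p * Nat.card Q = Nat.card Q * y ^ p := by ring
        _ = Nat.card Rd * (y ^ p * c ^ p) := h2
        _ = y ^ p * (Nat.card Rd * c ^ p) := by ring
    exact Nat.eq_of_mul_eq_mul_left (by positivity) h3
  -- the group E
  set E := ⁅Q, B⁆ ⊔ Rd with hE
  have hQBle : ⁅Q, B⁆ ≤ Q := H1.Coprime2.commutator_le_left hBQ
  have hEQ : E ≤ Q := sup_le hQBle hRdle
  have hRdE : Rd ≤ E := le_sup_right
  -- orthogonality
  have horth0 : ∀ d ∈ Q ⊓ centralizer (B : Set X), ∀ u ∈ ⁅Q, B⁆, χ ⁅u, d⁆ = 1 := by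
    intro d hd
    have hdc : ∀ e ∈ B, e * d = d * e := fun e he => mem_centralizer_iff.mp hd.2 e he
    let T : Subgroup X :=
      { carrier := {u | u ∈ Q ∧ χ ⁅u, d⁆ = 1}
        one_mem' := ⟨one_mem Q, by rw [commutatorElement_one_left]; exact hχ.one⟩
        mul_mem' := by
          rintro u v ⟨hu, h1⟩ ⟨hv, h2⟩
          refine ⟨mul_mem hu hv, ?_⟩
          rw [comm_mul_left hQQ hu hv hd.1, hχ.mul _ (comm_mem hQQ hu hd.1) _ (comm_mem hQQ hv hd.1), h1, h2,
            one_mul]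
        inv_mem' := by
          rintro u ⟨hu, h1⟩
          refine ⟨inv_mem hu, ?_⟩
          rw [comm_inv_left hQQ hu hd.1]
          have h2 := hχ.mul_inv (comm_mem hQQ hu hd.1)
          rwa [h1, one_mul] at h2 }
    have h1 : ⁅Q, B⁆ ≤ T := by
      rw [commutator_le]
      intro u hu e he
      have hχB : ∀ e ∈ B, ∀ c ∈ Zq, χ (e⁻¹ * c * e) = χ c := by
        have h2 : B ≤ stb (normalizer (Q : Set X)) Zq (by
            exact H1.Coprime2.le_normalizer_inf le_rfl (H1.Coprime2.le_normalizer_centralizer le_rfl)) χ := by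
          rw [hB, zpowers_le]
          exact ⟨hbQ, hbχ⟩
        intro e he
        exact (h2 he).2
      have heu : e * u⁻¹ * e⁻¹ ∈ Q := (mem_normalizer_iff.mp (hBQ he) _).mp (Q.inv_mem hu)
      have h3 : ⁅u, e⁆ = u * (e * u⁻¹ * e⁻¹) := by rw [commutatorElement_def]; group
      refine ⟨by rw [h3]; exact mul_mem hu heu, ?_⟩
      rw [h3, comm_mul_left hQQ hu heu hd.1, hχ.mul _ (comm_mem hQQ hu hd.1) _ (comm_mem hQQ heu hd.1)]
      have h4 : ⁅e * u⁻¹ * e⁻¹, d⁆ = e * ⁅u⁻¹, d⁆ * e⁻¹ := by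
        have h5 : d = e * d * e⁻¹ := by rw [hdc e he, mul_inv_cancel_right]
        conv_lhs => rw [h5]
        simp only [commutatorElement_def]; group
      have h5 := hχB e⁻¹ (B.inv_mem he) ⁅u⁻¹, d⁆ (comm_mem hQQ (Q.inv_mem hu) hd.1)
      rw [inv_inv] at h5
      rw [h4, h5, comm_inv_left hQQ hu hd.1, hχ.mul_inv (comm_mem hQQ hu hd.1)]
    intro u hu
    exact (h1 hu).2
  have horth : ∀ d ∈ Q ⊓ centralizer (B : Set X), ∀ u ∈ E, χ ⁅u, d⁆ = 1 := by
    intro d hd
    let T : Subgroup X :=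
      { carrier := {u | u ∈ Q ∧ χ ⁅u, d⁆ = 1}
        one_mem' := ⟨one_mem Q, by rw [commutatorElement_one_left]; exact hχ.one⟩
        mul_mem' := by
          rintro u v ⟨hu, h1⟩ ⟨hv, h2⟩
          refine ⟨mul_mem hu hv, ?_⟩
          rw [comm_mul_left hQQ hu hv hd.1, hχ.mul _ (comm_mem hQQ hu hd.1) _ (comm_mem hQQ hv hd.1), h1, h2,
            one_mul]
        inv_mem' := by
          rintro u ⟨hu, h1⟩
          refine ⟨inv_mem hu, ?_⟩
          rw [comm_inv_left hQQ hu hd.1]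
          have h2 := hχ.mul_inv (comm_mem hQQ hu hd.1)
          rwa [h1, one_mul] at h2 }
    have h1 : E ≤ T := by
      rw [hE]
      apply sup_le
      · intro u hu; exact ⟨hQBle hu, horth0 d hd u hu⟩
      · intro u hu; exact ⟨hRdle hu, hu.2 d hd.1⟩
    intro u hu
    exact (h1 hu).2
  -- every element of Q is a product
  have hprod : ∀ y ∈ Q, ∃ u ∈ ⁅Q, B⁆, ∃ d ∈ Q ⊓ centralizer (B : Set X), y = u * d := fun y hy =>
    H1.Coprime2.exists_mul_of_mem B Q hBQ hcopB (Or.inr hQs) hy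
  -- an element of E orthogonal to E is in Rd
  have hradE : ∀ x ∈ E, (∀ y ∈ E, χ ⁅x, y⁆ = 1) → x ∈ Rd := by
    intro x hx h
    refine ⟨hEQ hx, ?_⟩
    intro y hy
    obtain ⟨u, hu, d, hd, rfl⟩ := hprod y hy
    rw [comm_mul_right hQQ (hEQ hx) (hQBle hu) hd.1, hχ.mul _ (comm_mem hQQ (hEQ hx) (hQBle hu)) _
      (comm_mem hQQ (hEQ hx) hd.1), h u ((le_sup_left : ⁅Q, B⁆ ≤ E) hu), horth d hd x hx, one_mul]
  -- E ∩ C_Q(B) = C_Rd(B)
  have hEC : E ⊓ (Q ⊓ centralizer (B : Set X)) = Rd ⊓ centralizer (B : Set X) := by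
    apply le_antisymm
    · rintro x ⟨hxE, hxC⟩
      refine ⟨?_, hxC.2⟩
      apply hradE x hxE
      intro y hy
      have h1 := horth x hxC y hy
      have h2 := hχ.mul_inv (comm_mem hQQ (hEQ hy) hxC.1)
      rwa [h1, one_mul, commutatorElement_inv] at h2
    · rintro x ⟨hx, hxC⟩
      exact ⟨hRdE hx, hRdle hx, hxC⟩
  have hcardE : Nat.card Q * y = Nat.card E * x := by
    have h1 := H66.CardMul.card_mul_set_mul_card_inf E (Q ⊓ centralizer (B : Set X))
    rw [hEC] at h1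
    have h2 : ((E : Set X) * ((Q ⊓ centralizer (B : Set X) : Subgroup X) : Set X)) = (Q : Set X) := by
      ext z
      constructor
      · rintro ⟨u, hu, d, hd, rfl⟩
        exact mul_mem (hEQ hu) hd.1
      · intro hz
        obtain ⟨u, hu, d, hd, rfl⟩ := hprod z hz
        exact ⟨u, (le_sup_left : ⁅Q, B⁆ ≤ E) hu, d, hd, rfl⟩
    rw [h2] at h1
    exact h1
  obtain ⟨k, hk⟩ : ∃ k, p = k + 1 := ⟨p - 1, by have := hp.out.pos; omega⟩
  have hcpos : 0 < c := by
    rcases Nat.eq_zero_or_pos c with h | h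
    · rw [h, zero_pow hp.out.ne_zero, mul_zero] at hQcard
      exact absurd hQcard Nat.card_pos.ne'
    · exact h
  have hEcard : Nat.card E = Nat.card Rd * c ^ k := by
    rw [hQcard, hc, hk, pow_succ] at hcardE
    have h1 : (y * c) * Nat.card E = (y * c) * (Nat.card Rd * c ^ k) := by
      calc (y * c) * Nat.card E = Nat.card E * (y * c) := by ring
        _ = Nat.card Rd * (c ^ k * c) * y := hcardE.symm
        _ = (y * c) * (Nat.card Rd * c ^ k) := by ring
    exact Nat.eq_of_mul_eq_mul_left (by positivity) h1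
  -- critical data for Q and E
  have hcd := cdata (ρ := ρ) hQQ hχ hW
  obtain ⟨N', hN'0, hN'⟩ := hcd.square hW hQK
  have hcdE : CData ρ (W ρ hQQ hχ μ) E Rd :=
    { inv := fun x hx w hw => hcd.inv x (hEQ hx) w hw
      le := hRdE
      scal := hcd.scal
      comm := fun x hx y hy => hcd.comm x (hEQ hx) y (hEQ hy)
      nondeg := by
        intro x hx h
        apply hradE x hx
        intro y hy
        obtain ⟨v, hv, hv0⟩ := (Submodule.ne_bot_iff _).mp hW
        have h2 := h y hy v hv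
        rw [hv.2 _ (comm_mem hQQ (hEQ hx) (hEQ hy))] at h2
        exact smul_right_cancel' hv0 (by rw [one_smul]; exact h2) }
  have hEK : (Nat.card E : K) ≠ 0 := cast_card_ne_zero hEQ hQK
  have hBE : B ≤ normalizer (E : Set X) :=
    H1.Coprime2.le_normalizer_sup (H1.Coprime2.le_normalizer_commutator hBQ le_normalizer) hBRd
  have hErd : E ≤ normalizer (Rd : Set X) := hEQ.trans (le_normalizer_rad hQQ hχ)
  obtain ⟨N, hN0, hN, hNp⟩ := crit_final hcdE hW hEK (g := b) (hBE (mem_zpowers b)) hbW (M := p) hpK (by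
      intro i hi0 hip x hx hxi
      have h1 : b ^ i ≠ 1 := by
        intro h
        have := orderOf_dvd_of_pow_eq_one h
        rw [hord] at this
        exact absurd (Nat.le_of_dvd hi0 this) (by omega)
      have h2 := hgen (b ^ i) (B.pow_mem (mem_zpowers b) i) h1
      have h3 : zpowers (b ^ i) ≤ H66.ShultGross.fixSub Rd x (hErd hx) := by
        rw [zpowers_le]
        refine ⟨hBRd (B.pow_mem (mem_zpowers b) i), ?_⟩
        have h4 := Rd.inv_mem hxi
        rwa [commutatorElement_inv] at h4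
      have h4 : B ≤ H66.ShultGross.fixSub Rd x (hErd hx) := by
        rw [hB, zpowers_le]; exact h3 h2
      obtain ⟨d, hd, hxd⟩ := H1.Coprime.exists_fixed_of_coset_fixed B E hBE
        (hcopB.coprime_dvd_right (card_dvd_of_le hEQ)) (Or.inr (H1.Coprime.isSolvable_of_le hEQ hQs)) Rd hRdE hErd
        hBRd x hx (fun e he => (h4 he).2)
      have h5 : d ∈ Rd := by
        have : d ∈ E ⊓ (Q ⊓ centralizer (B : Set X)) := ⟨hd.1, hEQ hd.1, hd.2⟩
        rw [hEC] at this
        exact this.1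
      have h6 := mul_mem h5 (Rd.inv_mem hxd)
      rwa [mul_inv_rev, inv_inv, mul_inv_cancel_left] at h6) (by
      intro w _
      rw [hbp, map_one]; rfl) hbfix
  have hN2 : N ^ 2 = c ^ k := by
    rw [hEcard, mul_comm (Nat.card Rd)] at hN
    exact Nat.eq_of_mul_eq_mul_right Nat.card_pos hN
  have hN'2 : N' ^ 2 = c ^ p := by
    rw [hQcard, mul_comm (Nat.card Rd)] at hN'
    exact Nat.eq_of_mul_eq_mul_right Nat.card_pos hN'
  have hc1 : c ≠ 1 := by
    rintro rfl
    rw [one_pow, mul_one] at hQcard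
    exact hne (Subgroup.eq_of_le_of_card_ge hRdle hQcard.le)
  have hkN : N ≤ k := by omega
  rcases hp.out.eq_two_or_odd' with h2 | hodd
  · have hk1 : k = 1 := by omega
    rw [hk1, pow_one] at hN2
    have hN1 : N = 1 := by omega
    rw [hN1, one_pow] at hN2
    exact hc1 hN2.symm
  · obtain ⟨m, hm⟩ := sq_of_pow_odd hodd hN'2
    have hm2 : 2 ≤ m := by
      rcases Nat.lt_or_ge m 2 with h | h
      · interval_cases m
        · rw [hm] at hcpos; norm_num at hcpos
        · exact absurd hm (by simpa using hc1)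
      · exact h
    have h1 : (2 ^ k) ^ 2 ≤ N ^ 2 := by
      rw [hN2, hm, ← pow_mul, ← pow_mul, mul_comm k 2]
      exact Nat.pow_le_pow_left hm2 _
    have h2 : 2 ^ k ≤ N := (Nat.pow_le_pow_iff_left two_ne_zero).mp h1
    have h3 : k < 2 ^ k := Nat.lt_two_pow_self
    omega

end H66.Ward
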