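import Cfsg.Agent.Lib.H66.WardC
import Cfsg.Agent.Lib.H66.NilCrit
import Cfsg.Agent.Lib.H65.CoCyclic
import Cfsg.Agent.Lib.H1.FpfNilp
import Cfsg.Agent.Lib.H73.Nilp

/-!
Ward's theorem: the reduction.
-/

set_option autoImplicit false

open Subgroup
open scoped commutatorElement Pointwise

universe u

namespace H66.Ward

theorem step {X : Type u} [Group X] [Finite X] (G : Subgroup X) [hGn : G.Normal] (hG : Group.IsSolvable G) {p : ℕ}
    [hp : Fact p.Prime] (A : Subgroup X) (hAc : ∀ a ∈ A, ∀ b ∈ A, a * b = b * a) (hAp : ∀ a ∈ A, a ^ p = 1)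
    (hAcard : Nat.card A = p ^ 2) (hpG : ¬ p ∣ Nat.card G) (hfix : G ⊓ centralizer (A : Set X) = ⊥) (r : ℕ)
    [hr : Fact r.Prime] (hcore : Cfsg.pPrimeCore r G = ⊥) : Group.IsNilpotent (G ⧸ Cfsg.pCore r G) := by
  classical
  by_cases hrp : r = p
  · subst hrp
    have h1 : (⊤ : Subgroup G) ≤ Cfsg.pPrimeCore r G :=
      H1.Cores.le_pPrimeCore inferInstance (by
        rw [Subgroup.card_top]; exact ((Nat.Prime.coprime_iff_not_dvd hr.out).mpr hpG).symm)
    rw [hcore] at h1
    have h2 : Subsingleton G := ⟨fun x y => by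
      rw [show x = 1 from h1 (mem_top x), show y = 1 from h1 (mem_top y)]⟩
    have : Subsingleton (G ⧸ Cfsg.pCore r G) := inferInstance
    infer_instance
  set P := Cfsg.pCore r G with hP
  have hPchar : P.Characteristic := H1.Cores.pCore_characteristic r
  have hPr : IsPGroup r P := H1.Cores.isPGroup_pCore r
  have hCP : centralizer (P : Set G) ≤ P := H1.Solv.centralizer_pCore_le hG r hcore
  set R := P.map G.subtype with hR
  have hRn : R.Normal := inferInstance
  have hRr : IsPGroup r R := hPr.map _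
  have hRG : R ≤ G := map_subtype_le P
  have hApG : IsPGroup p A := fun x => ⟨1, Subtype.ext (by rw [pow_one]; exact hAp x x.2)⟩
  have hAs : Group.IsSolvable A := by
    have : Group.IsNilpotent A := hApG.isNilpotent
    infer_instance
  have hcop : ∀ K : Subgroup X, K ≤ G → (Nat.card A).Coprime (Nat.card K) := by
    intro K hK
    rw [hAcard]
    apply Nat.Coprime.pow_left
    rw [Nat.Prime.coprime_iff_not_dvd hp.out]
    intro h
    exact hpG (h.trans (card_dvd_of_le hK))
  have hpdvd : ∀ n : ℕ, p ∣ n → ¬ n ∣ Nat.card G := fun n hn h => hpG (hn.trans h)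
  apply H66.NilCrit.isNilpotent_of_index (H := G ⧸ P) inferInstance
  intro q hq
  have hqf := Fact.mk hq
  have hcardH : Nat.card (G ⧸ P) ∣ Nat.card G := Subgroup.card_quotient_dvd_card P
  by_cases hqr : q = r
  · subst hqr
    rw [H1.Cores.pCore_quotient_pCore]
    refine ⟨0, ?_⟩
    rw [pow_zero, index_eq_one, eq_top_iff]
    intro x _
    rw [mem_centralizer_iff]
    intro y hy
    rw [SetLike.mem_coe, mem_bot] at hy
    rw [hy, one_mul, mul_one]
  by_cases hqp : q = p
  · subst hqp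
    rw [H66.NilCrit.pCore_eq_bot hq (fun h => hpG (h.trans hcardH))]
    refine ⟨0, ?_⟩
    rw [pow_zero, index_eq_one, eq_top_iff]
    intro x _
    rw [mem_centralizer_iff]
    intro y hy
    rw [SetLike.mem_coe, mem_bot] at hy
    rw [hy, one_mul, mul_one]
  -- the main case
  set L := (Cfsg.pCore q (G ⧸ P)).comap (QuotientGroup.mk' P) with hL
  have hLchar : L.Characteristic := Subgroup.Characteristic.comap_quotient_mk (H1.Cores.pCore_characteristic q)
  set LX := L.map G.subtype with hLX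
  have hLXn : LX.Normal := inferInstance
  have hLXG : LX ≤ G := map_subtype_le L
  have hPL : P ≤ L := by
    intro u hu
    rw [hL, mem_comap]
    have : QuotientGroup.mk' P u = 1 := (QuotientGroup.eq_one_iff u).mpr hu
    rw [this]; exact one_mem _
  have hRLX : R ≤ LX := map_mono hPL
  have hcardmap : ∀ K : Subgroup G, Nat.card (K.map G.subtype) = Nat.card K := fun K =>
    Subgroup.card_map_of_injective G.subtype_injective
  obtain ⟨Q0, hQ0, hQ0A⟩ := H1.Coprime2.exists_invariant_sylow A LX (by rw [normalizer_eq_top]; exact le_top)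
    (hcop LX hLXG) (Or.inl hAs) q
  have hQ0q : IsPGroup q Q0 := hQ0.isPGroup
  have hQ0L : Q0 ≤ LX := hQ0.1
  have hRQ : R ⊓ Q0 = ⊥ :=
    H1.Coprime.inf_eq_bot_of_coprime_card (IsPGroup.coprime_card_of_ne r q (Ne.symm hqr) R Q0 hRr hQ0q)
  -- LX = Q0 ⊔ R
  have hLXeq : Q0 ⊔ R = LX := by
    have hle : Q0 ⊔ R ≤ LX := sup_le hQ0L hRLX
    apply le_antisymm hle
    rw [← relIndex_eq_one]
    have h1 : (Q0 ⊔ R).relIndex LX ∣ R.relIndex LX := relIndex_dvd_of_le_left LX le_sup_right
    have h2 : R.relIndex LX = Nat.card (Cfsg.pCore q (G ⧸ P)) := by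
      have h3 : Nat.card L = Nat.card P * Nat.card (Cfsg.pCore q (G ⧸ P)) :=
        H1.Cores.card_comap_mk' P (Cfsg.pCore q (G ⧸ P))
      have h4 := Subgroup.card_mul_index (R.subgroupOf LX)
      have h5 : Nat.card (R.subgroupOf LX) = Nat.card R := Nat.card_congr (subgroupOfEquivOfLe hRLX).toEquiv
      rw [h5, hR, hLX, hcardmap, hcardmap, h3] at h4
      exact Nat.eq_of_mul_eq_mul_left Nat.card_pos h4
    have h3 : (Q0 ⊔ R).relIndex LX ∣ Q0.relIndex LX := relIndex_dvd_of_le_left LX le_sup_left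
    have h4 : ¬ q ∣ Q0.relIndex LX := by
      obtain ⟨T, hT⟩ := hQ0.exists_sylow
      have h5 : (T : Subgroup LX).index = Q0.relIndex LX := by
        rw [← hT]
        change _ = (((T : Subgroup LX).map LX.subtype).comap LX.subtype).index
        rw [comap_map_eq_self_of_injective LX.subtype_injective]
      rw [← h5]; exact T.not_dvd_index
    obtain ⟨k, hk⟩ := IsPGroup.iff_card.mp (H1.Cores.isPGroup_pCore (G := G ⧸ P) q)
    rw [h2, hk] at h1
    obtain ⟨c, _, hc⟩ := (Nat.dvd_prime_pow hq).mp h1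
    rcases Nat.eq_zero_or_pos c with h | h
    · rw [hc, h, pow_zero]
    · exfalso
      apply h4
      refine Dvd.dvd.trans ?_ h3
      rw [hc]; exact dvd_pow_self q h.ne'
  set N1 := G ⊓ normalizer (Q0 : Set X) with hN1
  have hN1G : N1 ≤ G := inf_le_left
  have hfr : ∀ g ∈ G, ∃ n ∈ N1, ∃ u ∈ R, g = n * u := by
    intro g hg
    obtain ⟨T, hT⟩ := hQ0.exists_sylow
    have h1 := T.normalizer_sup_eq_top (N := LX)
    rw [hT] at h1
    have h2 : normalizer (Q0 : Set X) ⊔ R = ⊤ := by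
      rw [eq_top_iff, ← h1, ← hLXeq]
      apply sup_le le_sup_left
      exact sup_le (le_normalizer.trans le_sup_left) le_sup_right
    have h3 : g ∈ normalizer (Q0 : Set X) ⊔ R := by rw [h2]; trivial
    rw [mem_sup_of_normal_right] at h3
    obtain ⟨n, hn, u, hu, rfl⟩ := h3
    refine ⟨n, ⟨?_, hn⟩, u, hu, rfl⟩
    have := mul_mem hg (inv_mem (hRG hu))
    rwa [mul_inv_cancel_right] at this
  set C := centralizer (Cfsg.pCore q (G ⧸ P) : Set (G ⧸ P)) with hC
  refine ⟨_, Nat.eq_prime_pow_of_unique_prime_dvd (n := C.index) (p := q) index_ne_zero_of_finite ?_⟩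
  intro s hs hsC
  by_contra hsq
  have hsf := Fact.mk hs
  have hsG : s ∣ Nat.card G := (hsC.trans (index_dvd_card C)).trans hcardH
  have hsp : s ≠ p := by
    rintro rfl; exact hpG hsG
  have hAN1 : A ≤ normalizer (N1 : Set X) :=
    H1.Coprime2.le_normalizer_inf (by rw [normalizer_eq_top]; exact le_top)
      (H1.Coprime2.le_normalizer_normalizer hQ0A)
  obtain ⟨S1, hS1, hS1A⟩ := H1.Coprime2.exists_invariant_sylow A N1 hAN1 (hcop N1 hN1G) (Or.inl hAs) s
  have hS1s : IsPGroup s S1 := hS1.isPGroup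
  have hS1G : S1 ≤ G := hS1.1.trans hN1G
  -- the core
  have hcent : S1 ≤ centralizer (Q0 : Set X) := by
    have hAcomm : IsMulCommutative A := ⟨⟨fun x y => Subtype.ext (hAc x x.2 y y.2)⟩⟩
    apply H65.CoCyclic.gen_cocyclic A S1 hAcomm hS1A (hcop S1 hS1G)
    intro B hBA hB
    obtain ⟨a, ha, hBa⟩ := hB
    have hBne : B ≠ ⊥ := by
      rintro rfl
      rw [bot_sup_eq] at hBa
      have h1 : Nat.card A ≤ p := by
        rw [← hBa, Nat.card_zpowers]
        exact Nat.le_of_dvd hp.out.pos (orderOf_dvd_of_pow_eq_one (hAp a ha))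
      rw [hAcard] at h1
      have := hp.out.two_le
      nlinarith
    obtain ⟨⟨b, hb⟩, hb1'⟩ := Subgroup.ne_bot_iff_exists_ne_one.mp hBne
    have hb1 : b ≠ 1 := fun h => hb1' (Subtype.ext h)
    have hbA : b ∈ A := hBA hb
    set S := S1 ⊓ centralizer {b} with hS
    have hle : S1 ⊓ centralizer (B : Set X) ≤ S :=
      inf_le_inf le_rfl (centralizer_le (by rw [Set.singleton_subset_iff]; exact hb))
    refine hle.trans ?_
    have hAcb : A ≤ centralizer {b} := by
      intro x hx
      rw [mem_centralizer_singleton_iff]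
      exact hAc x hx b hbA
    -- C_G(b) is nilpotent
    have hnil : Group.IsNilpotent (G ⊓ centralizer {b} : Subgroup X) := by
      obtain ⟨c, hc, hcb⟩ : ∃ c ∈ A, c ∉ zpowers b := by
        by_contra hcon
        push Not at hcon
        have h1 : A ≤ zpowers b := hcon
        have h2 : Nat.card A ≤ p := by
          refine (Nat.le_of_dvd Nat.card_pos (card_dvd_of_le h1)).trans ?_
          rw [Nat.card_zpowers]
          exact Nat.le_of_dvd hp.out.pos (orderOf_dvd_of_pow_eq_one (hAp b hbA))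
        rw [hAcard] at h2
        have := hp.out.two_le
        nlinarith
      have hcn : c ∈ normalizer ((G ⊓ centralizer {b} : Subgroup X) : Set X) := by
        have h1 : A ≤ normalizer ((G ⊓ centralizer {b} : Subgroup X) : Set X) :=
          H1.Coprime2.le_normalizer_inf (by rw [normalizer_eq_top]; exact le_top) (hAcb.trans le_normalizer)
        exact h1 hc
      refine H1.FpfNilp.isNilpotent_of_conj hcn ?_ hp.out (by rw [hAp c hc]; exact one_mem _)
      rw [eq_bot_iff, ← hfix]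
      rintro x ⟨⟨hxG, hxb⟩, hxc⟩
      refine ⟨hxG, mem_centralizer_iff.mpr ?_⟩
      intro d hd
      obtain ⟨i, j, rfl⟩ := exists_ab hAc hAp hAcard hbA hb1 hc hcb d hd
      have hxb' : x * b = b * x := mem_centralizer_singleton_iff.mp hxb
      have hxc' : x * c = c * x := mem_centralizer_singleton_iff.mp hxc
      have h2 : Commute (b ^ i) x := Commute.pow_left hxb'.symm i
      have h3 : Commute (c ^ j) x := Commute.pow_left hxc'.symm j
      exact h2.mul_left h3
    refine core (X := X) (p := p) (q := q) (r := r) (s := s) hqp hrp hqr hsp hsq R hRr Q0 hQ0q ?_ A hAc hAp hAcard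
      hQ0A ?_ ?_ S (hS1s.to_le inf_le_left) (H1.Coprime2.le_normalizer_inf hS1A (hAcb.trans le_normalizer))
      (inf_le_left.trans (hS1.1.trans inf_le_right)) ?_ b hbA hb1 ?_ ?_
    · rw [eq_bot_iff, ← hRQ]
      rintro w ⟨hw, hwc⟩
      have hwG : w ∈ G := hLXG (hQ0L hw)
      have h1 : (⟨w, hwG⟩ : G) ∈ centralizer (P : Set G) := by
        rw [mem_centralizer_iff]
        intro v hv
        have h2 := mem_centralizer_iff.mp hwc (v : X) ⟨v, hv, rfl⟩
        exact Subtype.ext h2
      exact ⟨⟨_, hCP h1, rfl⟩, hw⟩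
    · rw [eq_bot_iff, ← hfix]; exact inf_le_inf hRG le_rfl
    · rw [eq_bot_iff, ← hfix]; exact inf_le_inf (hQ0L.trans hLXG) le_rfl
    · rw [eq_bot_iff, ← hfix]; exact inf_le_inf (inf_le_left.trans hS1G) le_rfl
    · rintro x ⟨_, hx⟩
      exact (mem_centralizer_singleton_iff.mp hx).symm
    · rintro x ⟨hxQ, hxb⟩
      refine H73.Nilp.mem_centralizer_of_le (M := G ⊓ centralizer {b}) hnil (p := s) (hS1s.to_le inf_le_left)
        (inf_le_inf hS1G le_rfl) ⟨hLXG (hQ0L hxQ), hxb⟩ ?_
      obtain ⟨k, hk⟩ := IsPGroup.iff_orderOf.mp hQ0q ⟨x, hxQ⟩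
      rw [Subgroup.orderOf_mk] at hk
      rw [hk]
      exact Nat.Coprime.pow_left _ ((Nat.coprime_primes hq hs).mpr (Ne.symm hsq))
  -- transfer to the quotient
  obtain ⟨T, hT⟩ := hS1.exists_sylow
  let φ : N1 →* G ⧸ P := (QuotientGroup.mk' P).comp (inclusion hN1G)
  have hφ : Function.Surjective φ := by
    intro y
    obtain ⟨⟨g, hg⟩, rfl⟩ := QuotientGroup.mk'_surjective P y
    obtain ⟨n, hn, u, hu, e⟩ := hfr g hg
    refine ⟨⟨n, hn⟩, ?_⟩
    change QuotientGroup.mk' P ⟨n, hN1G hn⟩ = QuotientGroup.mk' P ⟨g, hg⟩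
    rw [QuotientGroup.mk'_apply, QuotientGroup.mk'_apply, QuotientGroup.eq]
    obtain ⟨u', hu', rfl⟩ := hu
    have e2 : (⟨n, hN1G hn⟩ : G)⁻¹ * ⟨g, hg⟩ = u' := by
      apply Subtype.ext
      change n⁻¹ * g = (u' : X)
      rw [e, inv_mul_cancel_left]; rfl
    rw [e2]; exact hu'
  have hTC : ((T.mapSurjective hφ : Sylow s (G ⧸ P)) : Subgroup (G ⧸ P)) ≤ C := by
    rw [Sylow.coe_mapSurjective]
    rintro _ ⟨t, ht, rfl⟩
    rw [hC, mem_centralizer_iff]
    intro y hy
    obtain ⟨l, rfl⟩ := QuotientGroup.mk'_surjective P y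
    have hl : l ∈ L := hy
    have hlX : (l : X) ∈ Q0 ⊔ R := by rw [hLXeq]; exact ⟨l, hl, rfl⟩
    rw [mem_sup_of_normal_right] at hlX
    obtain ⟨w, hw, u, hu, e⟩ := hlX
    obtain ⟨u', hu', rfl⟩ := hu
    have hwG : w ∈ G := hLXG (hQ0L hw)
    have e1 : l = ⟨w, hwG⟩ * u' := Subtype.ext e.symm
    have e2 : QuotientGroup.mk' P l = QuotientGroup.mk' P ⟨w, hwG⟩ := by
      rw [e1, map_mul, show QuotientGroup.mk' P u' = 1 from (QuotientGroup.eq_one_iff u').mpr hu', mul_one]
    rw [e2]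
    change QuotientGroup.mk' P ⟨w, hwG⟩ * QuotientGroup.mk' P (inclusion hN1G t) =
      QuotientGroup.mk' P (inclusion hN1G t) * QuotientGroup.mk' P ⟨w, hwG⟩
    rw [← map_mul, ← map_mul]
    congr 1
    apply Subtype.ext
    have htS : (t : X) ∈ S1 := by rw [← hT]; exact ⟨t, ht, rfl⟩
    exact mem_centralizer_iff.mp (hcent htS) w hw
  exact (T.mapSurjective hφ).not_dvd_index (hsC.trans (index_dvd_of_le hTC))

end H66.Ward
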